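import Mathlib

/-!
A Chevalley–Warning theorem for polynomial conditions on points with coordinates in the fixed
field of an endomorphism of a finite field.
-/

set_option autoImplicit false

namespace CfsgLib.SUMax

open MvPolynomial

variable {F : Type*} [Field F] {σ : F →+* F} {ι : Type*}

/-- On points fixed by `σ` the function `φ` is given by a polynomial of degree at most `d`. -/
def PolyR (σ : F →+* F) (d : ℕ) (φ : (ι → F) → F) : Prop :=
  ∃ f : MvPolynomial ι F, f.totalDegree ≤ d ∧ ∀ x, (∀ i, σ (x i) = x i) → eval x f = φ x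

namespace PolyR

variable {d e : ℕ} {φ ψ : (ι → F) → F}

theorem congr (h : PolyR σ d φ) (hd : d ≤ e) (he : ∀ x, (∀ i, σ (x i) = x i) → φ x = ψ x) :
    PolyR σ e ψ :=
  let ⟨f, h1, h2⟩ := h; ⟨f, h1.trans hd, fun x hx => (h2 x hx).trans (he x hx)⟩

theorem const (c : F) : PolyR σ d (fun _ : ι → F => c) := ⟨C c, by simp, by simp⟩

theorem var (i : ι) : PolyR σ 1 (fun x : ι → F => x i) := ⟨X i, by simp, by simp⟩

theorem add (h : PolyR σ d φ) (h' : PolyR σ d ψ) : PolyR σ d (fun x => φ x + ψ x) :=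
  let ⟨f, h1, h2⟩ := h
  let ⟨g, h3, h4⟩ := h'
  ⟨f + g, (totalDegree_add _ _).trans (max_le h1 h3), fun x hx => by simp [h2 x hx, h4 x hx]⟩

theorem mul (h : PolyR σ d φ) (h' : PolyR σ e ψ) : PolyR σ (d + e) (fun x => φ x * ψ x) :=
  let ⟨f, h1, h2⟩ := h
  let ⟨g, h3, h4⟩ := h'
  ⟨f * g, (totalDegree_mul _ _).trans (add_le_add h1 h3), fun x hx => by simp [h2 x hx, h4 x hx]⟩

theorem pow (h : PolyR σ d φ) (n : ℕ) : PolyR σ (n * d) (fun x => φ x ^ n) :=
  let ⟨f, h1, h2⟩ := h
  ⟨f ^ n, (totalDegree_pow _ _).trans (Nat.mul_le_mul_left _ h1), fun x hx => by simp [h2 x hx]⟩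

theorem cmul (c : F) (h : PolyR σ d φ) : PolyR σ d (fun x => c * φ x) :=
  ((const (d := 0) c).mul h).congr (by omega) fun _ _ => rfl

theorem sum {κ : Type*} (s : Finset κ) {φ : κ → (ι → F) → F} (h : ∀ j, PolyR σ d (φ j)) :
    PolyR σ d (fun x => ∑ j ∈ s, φ j x) := by
  classical
  induction s using Finset.induction_on with
  | empty => simpa using const 0
  | insert j s hj ih => simpa [Finset.sum_insert hj] using (h j).add ih

theorem prod {κ : Type*} (s : Finset κ) {φ : κ → (ι → F) → F} (h : ∀ j, PolyR σ d (φ j)) :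
    PolyR σ (s.card * d) (fun x => ∏ j ∈ s, φ j x) := by
  classical
  induction s using Finset.induction_on with
  | empty => simpa using const 1
  | insert j s hj ih =>
    simpa [Finset.prod_insert hj, Finset.card_insert_of_notMem hj, add_mul, add_comm] using
      (h j).mul ih

theorem lin [Fintype ι] (c : ι → F) : PolyR σ 1 (fun x : ι → F => ∑ i, c i * x i) :=
  sum _ fun i => (var i).cmul (c i)

theorem det {κ : Type*} [Fintype κ] [DecidableEq κ] {M : (ι → F) → Matrix κ κ F}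
    (h : ∀ j k, PolyR σ 1 fun x => M x j k) :
    PolyR σ (Fintype.card κ) (fun x => (M x).det) := by
  simp only [Matrix.det_apply']
  exact sum _ fun π => ((prod Finset.univ fun j => h (π j) j).cmul _).congr (by simp) fun _ _ => rfl

end PolyR

variable (σ) in
/-- The fixed field. -/
abbrev fixF : Subfield F := σ.eqLocusField (RingHom.id F)

theorem sum_eval_fix [Fintype ι] [DecidableEq ι] [Fintype (fixF σ)] (f : MvPolynomial ι F)
    (h : f.totalDegree < (Fintype.card (fixF σ) - 1) * Fintype.card ι) :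
    ∑ x : ι → fixF σ, eval (fun i => (x i : F)) f = 0 := by
  classical
  simp only [eval_eq']
  rw [Finset.sum_comm]
  refine Finset.sum_eq_zero fun m hm => ?_
  have h1 := MvPolynomial.sum_eval_eq_zero (K := fixF σ) (monomial m 1)
    (lt_of_le_of_lt ((totalDegree_monomial_le _ _).trans (le_totalDegree hm)) h)
  rw [← Finset.mul_sum]
  have h2 := congrArg (fixF σ).subtype h1
  simp only [eval_monomial, one_mul, map_sum, map_zero, Finsupp.prod_pow, map_prod, map_pow,
    Subfield.subtype_apply] at h2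
  rw [h2, mul_zero]

/-- The indicator function of `S` on points fixed by `σ` is a polynomial of small degree. -/
def Ind (σ : F →+* F) (d : ℕ) (S : (ι → F) → Prop) : Prop :=
  ∃ φ, PolyR σ ((Nat.card (fixF σ) - 1) * d) φ ∧ ∀ x, (∀ i, σ (x i) = x i) →
    (S x → φ x = 1) ∧ (¬ S x → φ x = 0)

theorem Ind.and {d e : ℕ} {S T : (ι → F) → Prop} (h : Ind σ d S) (h' : Ind σ e T) :
    Ind σ (d + e) fun x => S x ∧ T x := by
  obtain ⟨φ, h1, h2⟩ := h
  obtain ⟨ψ, h3, h4⟩ := h'
  refine ⟨_, (h1.mul h3).congr (by rw [mul_add]) fun _ _ => rfl, fun x hx =>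
    ⟨fun h => by rw [(h2 x hx).1 h.1, (h4 x hx).1 h.2, one_mul], fun h => ?_⟩⟩
  by_cases hS : S x
  · rw [(h4 x hx).2 fun hT => h ⟨hS, hT⟩, mul_zero]
  · rw [(h2 x hx).2 hS, zero_mul]

theorem PolyR.ind [Finite F] {d : ℕ} {φ : (ι → F) → F} (h : PolyR σ d φ)
    (hr : ∀ x, (∀ i, σ (x i) = x i) → σ (φ x) = φ x) : Ind σ d fun x => φ x = 0 := by
  have := Fintype.ofFinite (fixF σ)
  have h1 : Nat.card (fixF σ) - 1 ≠ 0 := by
    have := Finite.one_lt_card (α := fixF σ)
    omega
  refine ⟨_, (PolyR.const 1).add ((h.pow _).cmul (-1)), fun x hx =>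
    ⟨fun h0 => by rw [h0, zero_pow h1, mul_zero, add_zero], fun h0 => ?_⟩⟩
  have h2 := FiniteField.pow_card_sub_one_eq_one (K := fixF σ) ⟨φ x, hr x hx⟩
    (fun h => h0 (congrArg Subtype.val h))
  have h3 : φ x ^ (Nat.card (fixF σ) - 1) = 1 := by
    rw [Nat.card_eq_fintype_card]; exact congrArg Subtype.val h2
  rw [h3, mul_one, add_neg_cancel]

theorem Ind.exists_ne_zero [Finite F] [Fintype ι] {d : ℕ} {S : (ι → F) → Prop} (h : Ind σ d S)
    (h0 : S 0) (hd : d < Fintype.card ι) : ∃ x, (∀ i, σ (x i) = x i) ∧ x ≠ 0 ∧ S x := by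
  classical
  have := Fintype.ofFinite (fixF σ)
  obtain ⟨φ, ⟨f, h1, h2⟩, h3⟩ := h
  by_contra hcon
  push Not at hcon
  have h4 := sum_eval_fix (σ := σ) f (lt_of_le_of_lt h1 (by
    rw [Nat.card_eq_fintype_card]
    have := Fintype.one_lt_card (α := fixF σ)
    exact Nat.mul_lt_mul_of_pos_left hd (by omega)))
  rw [Finset.sum_eq_single 0] at h4
  · have h5 : ∀ i, σ ((0 : ι → F) i) = (0 : ι → F) i := by simp
    have h6 := (h2 0 h5).trans ((h3 0 h5).1 h0)
    exact one_ne_zero (h6.symm.trans h4)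
  · intro x _ hx
    have h5 : ∀ i, σ (x i : F) = x i := fun i => (x i).2
    rw [h2 _ h5]
    exact (h3 _ h5).2 (hcon _ h5 fun h => hx (funext fun i => Subtype.ext (congrFun h i)))
  · simp

end CfsgLib.SUMax
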