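import Mathlib
import Cfsg.Agent.Lib.ClMax.ExtBasic
import Cfsg.Agent.Lib.Unitary.Field

/-!
Field-level lemmas for the field extension subgroups of unitary groups.
-/

set_option autoImplicit false

namespace CfsgLib.SUMax

open CfsgLib.ClMax Module

/-- Components for distinct characters of an element of an invariant subspace. -/
theorem comp_mem {K M C I : Type*} [Field K] [AddCommGroup M] [Module K M] (S : Submodule K M)
    (T : C → M →ₗ[K] M) (hT : ∀ c, ∀ s ∈ S, T c s ∈ S) (χ : I → C → K) (i₀ : I)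
    (hχ : ∀ i, i ≠ i₀ → χ i ≠ χ i₀) (s : Finset I) (hs : i₀ ∉ s) (v : I → M)
    (hv : ∀ i c, T c (v i) = χ i c • v i) (h : v i₀ + ∑ i ∈ s, v i ∈ S) : v i₀ ∈ S := by
  classical
  induction s using Finset.induction_on generalizing v with
  | empty => simpa using h
  | insert j s hj ih =>
    simp only [Finset.mem_insert, not_or] at hs
    obtain ⟨c, hc⟩ := Function.ne_iff.1 (hχ j (Ne.symm hs.1))
    have h1 := ih hs.2 (fun i => (χ i c - χ j c) • v i)
      (fun i d => by rw [map_smul, hv, smul_comm]) (by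
        convert S.sub_mem (hT c _ h) (S.smul_mem (χ j c) h) using 1
        simp only [Finset.sum_insert hj, map_add, map_sum, hv, sub_smul, smul_add,
          Finset.sum_sub_distrib, Finset.smul_sum]
        abel)
    simpa [smul_smul, inv_mul_cancel₀ (sub_ne_zero.2 hc.symm)] using
      S.smul_mem (χ i₀ c - χ j c)⁻¹ h1

variable {F : Type*} [Field F] {σ : F →+* F}

open MvPolynomial in
/-- Fewer Hermitian forms than the dimension have a common non-trivial zero. -/
theorem exists_common_zero [Fintype F] {q : ℕ} (hF : Fintype.card F = q ^ 2) (hσ : ∀ x, σ x = x ^ q)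
    {W ι : Type*} [AddCommGroup W] [Module F W] [FiniteDimensional F W] (J : Finset ι)
    (h : ι → W →ₛₗ[σ] W →ₗ[F] F) (hh : ∀ j ∈ J, ∀ v, σ (h j v v) = h j v v)
    (hJ : J.card < finrank F W) : ∃ v, v ≠ 0 ∧ ∀ j ∈ J, h j v v = 0 := by
  classical
  by_contra hcon
  push Not at hcon
  have hq := Unitary.two_le_q hF
  let b := Module.finBasis F W
  let p : ι → MvPolynomial (Fin (finrank F W)) F := fun j =>
    ∑ a, ∑ c, C (h j (b a) (b c)) * (X a ^ q * X c)
  have hp : ∀ j x, eval x (p j) = h j (b.equivFun.symm x) (b.equivFun.symm x) := fun j x => by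
    simp only [p, map_sum, map_mul, eval_C, map_pow, eval_X, Basis.equivFun_symm_apply,
      LinearMap.map_smulₛₗ, LinearMap.sum_apply, LinearMap.smul_apply, smul_eq_mul, hσ,
      RingHom.id_apply, Finset.mul_sum]
    rw [Finset.sum_comm]
    exact Finset.sum_congr rfl fun a _ => Finset.sum_congr rfl fun c _ => by ring
  have hd : ∀ j, (p j).totalDegree ≤ q + 1 := fun j =>
    totalDegree_finsetSum_le fun a _ => totalDegree_finsetSum_le fun c _ =>
      (totalDegree_mul _ _).trans (by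
        rw [totalDegree_C, zero_add]
        refine (totalDegree_mul _ _).trans ?_
        rw [totalDegree_X_pow, totalDegree_X])
  have h1 := MvPolynomial.sum_eval_eq_zero (∏ j ∈ J, (1 - p j ^ (q - 1))) (by
    refine lt_of_le_of_lt ((totalDegree_finsetProd _ _).trans (Finset.sum_le_card_nsmul _ _
      ((q - 1) * (q + 1)) fun j _ => (totalDegree_sub _ _).trans (max_le (by simp)
        ((totalDegree_pow _ _).trans (Nat.mul_le_mul_left _ (hd j)))))) ?_
    rw [hF, Unitary.sq_sub_one_eq q (by omega), Fintype.card_fin, smul_eq_mul, mul_comm,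
      mul_comm (q + 1)]
    exact Nat.mul_lt_mul_of_pos_left hJ (Nat.mul_pos (by omega) (by omega)))
  rw [Finset.sum_eq_single 0] at h1
  · simp [-eval_zero, -eval_zero', hp, zero_pow (show q - 1 ≠ 0 by omega)] at h1
  · intro x _ hx
    obtain ⟨j, hj, h0⟩ := hcon (b.equivFun.symm x) (b.equivFun.symm.map_ne_zero_iff.2 hx)
    rw [map_prod]
    refine Finset.prod_eq_zero hj ?_
    rw [map_sub, map_one, map_pow, hp, (Unitary.pow_q_eq_self_iff hF h0).1 (hσ _ ▸ hh j hj _),
      sub_self]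
  · simp

variable {K : Type*} [Field K] [Algebra F K]

/-- An involution `τ` of `K` extending `σ`, and a compatible linear functional. -/
structure ExtInv (σ : F →+* F) (τ : K →+* K) (l : K →ₗ[F] F) : Prop where
  σσ : ∀ c, σ (σ c) = c
  ττ : ∀ k, τ (τ k) = k
  smul : ∀ (c : F) k, τ (c • k) = σ c • τ k
  l1 : l 1 = 1
  lτ : ∀ k, l (τ k) = σ (l k)
  θ : ∃ θ, θ + σ θ = 1
  δ : ∃ δ, δ ≠ 0 ∧ δ + σ δ = 0

namespace ExtInv

variable {τ : K →+* K} {l : K →ₗ[F] F} (h : ExtInv σ τ l)
include h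

theorem l_ne : l ≠ 0 := by rintro rfl; simpa using h.l1

theorem decomp (k : K) : ∃ (s t : F) (a b : K), τ a = a ∧ τ b = b ∧ k = s • a + t • b := by
  obtain ⟨θ, hθ⟩ := h.θ
  obtain ⟨δ, hδ0, hδ⟩ := h.δ
  refine ⟨θ, δ⁻¹, k + τ k, δ • (σ θ • k - θ • τ k), by rw [map_add, h.ττ, add_comm], ?_, ?_⟩
  · rw [h.smul, map_sub, h.smul, h.smul, h.σσ, h.ττ, eq_neg_of_add_eq_zero_right hδ]; module
  · rw [smul_smul, inv_mul_cancel₀ hδ0]
    linear_combination (norm := module) -hθ • k

theorem ext_fixed {M : Type*} [AddCommGroup M] [Module F M] {f g : K →ₗ[F] M}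
    (hfg : ∀ a, τ a = a → f a = g a) (k : K) : f k = g k := by
  obtain ⟨s, t, a, b, ha, hb, rfl⟩ := h.decomp k
  simp [hfg a ha, hfg b hb]

theorem τ_ne : τ ≠ RingHom.id K := by
  intro h0
  obtain ⟨θ, hθ⟩ := h.θ
  have h1 : ∀ c, σ c = c := fun c => by
    have := h.smul c 1
    rw [h0] at this
    simpa [h.l1] using (congrArg l this).symm
  obtain ⟨δ, hδ0, hδ⟩ := h.δ
  rw [h1] at hθ hδ
  exact hδ0 (by linear_combination θ * hδ - δ * hθ)

theorem exists_not_mem (hr : 2 ≤ finrank F K) :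
    ∃ c, c ≠ 0 ∧ τ c / c ∉ Submodule.span F {(1 : K)} := by
  obtain ⟨a, ha, ha'⟩ : ∃ a, τ a = a ∧ a ∉ Submodule.span F {(1 : K)} := by
    by_contra h0
    push Not at h0
    obtain ⟨w, hw⟩ := exists_not_mem_range hr
    obtain ⟨s, t, a, b, ha, hb, rfl⟩ := h.decomp w
    exact hw (Submodule.add_mem _ (Submodule.smul_mem _ _ (h0 a ha))
      (Submodule.smul_mem _ _ (h0 b hb)))
  obtain ⟨θ, hθ⟩ : ∃ θ, σ θ ≠ θ := by
    by_contra h1
    push Not at h1
    obtain ⟨θ, hθ⟩ := h.θ
    obtain ⟨δ, hδ0, hδ⟩ := h.δ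
    rw [h1] at hθ hδ
    exact hδ0 (by linear_combination θ * hδ - δ * hθ)
  have h1 : a + θ • (1 : K) ≠ 0 := fun h0 => ha' (Submodule.mem_span_singleton.2
    ⟨-θ, by linear_combination (norm := module) -h0⟩)
  refine ⟨_, h1, fun h2 => ?_⟩
  obtain ⟨c, hc⟩ := Submodule.mem_span_singleton.1 h2
  rw [eq_div_iff h1, map_add, h.smul, map_one, ha, smul_mul_assoc, one_mul] at hc
  by_cases hc1 : c = 1
  · subst hc1
    exact hθ (smul_left_injective F (one_ne_zero (α := K)) (by simpa using hc.symm))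
  · refine ha' (Submodule.mem_span_singleton.2 ⟨(σ θ - c * θ) / (c - 1), ?_⟩)
    have := sub_ne_zero.2 hc1
    refine smul_right_injective K this ?_
    simp only [smul_smul, mul_div_cancel₀ _ this]
    linear_combination (norm := module) -hc

variable [Finite K]

omit h in
theorem comm (ρ : K ≃ₐ[F] K) (x : K) : τ (ρ x) = ρ (τ x) := by
  have : Finite F := Finite.of_injective _ (algebraMap F K).injective
  obtain ⟨p, hp⟩ := CharP.exists F
  have : Fact p.Prime := ⟨CharP.char_is_prime F p⟩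
  obtain ⟨i, hi⟩ := FiniteField.exists_forall_apply_eq_pow F p K ρ
  rw [hi, hi, map_pow]

theorem char_eq (hr : (finrank F K).Prime) {c₁ : K} (hc : c₁ ≠ 0)
    (hc' : τ c₁ / c₁ ∉ Submodule.span F {(1 : K)}) {ρ π ρ' π' : K ≃ₐ[F] K}
    (h0 : ∀ c, c ≠ 0 → τ c = c → ρ (τ c) * π c = ρ' (τ c) * π' c)
    (h1 : ρ (τ c₁) * π c₁ = ρ' (τ c₁) * π' c₁) : ρ = ρ' ∧ π = π' := by
  have h' : ∀ c, τ c = c → ρ c * π c = ρ' c * π' c := fun c hc => by
    by_cases h2 : c = 0
    · simp [h2]
    · simpa only [hc] using h0 c h2 hc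
  have hs : ∀ x, ρ x + π x = ρ' x + π' x := h.ext_fixed (f := ρ.toLinearMap + π.toLinearMap)
    (g := ρ'.toLinearMap + π'.toLinearMap) fun x hx => by
      have h1 := h' (x + 1) (by simp [hx])
      simp only [map_add, map_one] at h1
      simp only [LinearMap.add_apply, AlgEquiv.toLinearMap_apply]
      linear_combination h1 - h' x hx
  have key : ∀ {ρ π ρ' π' : K ≃ₐ[F] K}, ρ ≠ π → (∀ x, ρ x + π x = ρ' x + π' x) →
      ρ (τ c₁) * π c₁ = ρ' (τ c₁) * π' c₁ → ρ = ρ' ∧ π = π' := by
    intro ρ π ρ' π' hst hs h1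
    rcases gal_eq_of_pair hst hs with rfl | rfl
    · exact ⟨rfl, AlgEquiv.ext fun x => by simpa using hs x⟩
    obtain rfl : π = ρ' := AlgEquiv.ext fun x => by linear_combination hs x
    exfalso
    have h2 : (π⁻¹ * ρ) (τ c₁ / c₁) = τ c₁ / c₁ := π.injective (by
      have h3 : ρ c₁ ≠ 0 := by simpa using hc
      have h4 : π c₁ ≠ 0 := by simpa using hc
      simp only [AlgEquiv.mul_apply, AlgEquiv.aut_inv, AlgEquiv.apply_symm_apply, map_div₀]
      field_simp
      linear_combination h1)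
    have := Fact.mk hr
    have : Finite F := Finite.of_injective _ (algebraMap F K).injective
    have h3 : τ c₁ / c₁ ∈ (⊥ : IntermediateField F K) := (IsGalois.mem_bot_iff_fixed _).2 fun g => by
      obtain ⟨n, rfl⟩ := mem_powers_of_prime_card (card_gal (F := F) (K := K)) (g := π⁻¹ * ρ)
        (g' := g) (fun h3 => hst (inv_mul_eq_one.1 h3).symm)
      induction n with
      | zero => simp
      | succ n ih => simp only [pow_succ, AlgEquiv.mul_apply] at ih h2 ⊢; rw [h2, ih]
    obtain ⟨t, ht⟩ := IntermediateField.mem_bot.1 h3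
    exact hc' (Submodule.mem_span_singleton.2 ⟨t, by rw [← ht, Algebra.algebraMap_eq_smul_one]⟩)
  by_cases hst : ρ = π
  · subst hst
    by_cases hst' : ρ' = π'
    · subst hst'
      have : ρ = ρ' := AlgEquiv.ext (h.ext_fixed (f := ρ.toLinearMap) (g := ρ'.toLinearMap)
        fun x hx => by
          have h3 : (ρ x - ρ' x) ^ 2 = 0 := by linear_combination (-1) * h' x hx + ρ x * hs x
          exact sub_eq_zero.1 (pow_eq_zero_iff two_ne_zero |>.1 h3))
      exact ⟨this, this⟩
    · obtain ⟨h2, h3⟩ := key hst' (fun x => (hs x).symm) h1.symm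
      exact ⟨h2.symm, h3.symm⟩
  · exact key hst hs h1

/-- The weight lemma for skew-Hermitian forms. -/
theorem weight (hr : (finrank F K).Prime) (R : AddSubgroup (K → K → F))
    (hlin : ∀ s ∈ R, ∀ (c : F) x y, s x (c • y) = c * s x y)
    (hskew : ∀ s ∈ R, ∀ x y, σ (s x y) = -s y x) {c₁ : K} (hc : c₁ ≠ 0)
    (hc' : τ c₁ / c₁ ∉ Submodule.span F {(1 : K)})
    (htor : ∀ s ∈ R, ∀ c : K, (c ≠ 0 ∧ τ c = c ∨ c = c₁) → (fun x y => s (c * x) (c * y)) ∈ R)
    {d : K} (hd : d ≠ 0) (h0 : (fun x y => l (d * (τ x * y))) ∈ R) {a : K →ₗ[F] K} (ha : ¬ Semi a)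
    (hinv : ∀ s ∈ R, (fun x y => s (a x) (a y)) ∈ R) (μ : K →ₗ[F] F) {e : F} (he : e + σ e = 0) :
    (fun x y => e * (σ (μ x) * μ y)) ∈ R := by
  classical
  have : Finite F := Finite.of_injective _ (algebraMap F K).injective
  have hsq : ∀ s ∈ R, ∀ c : F, σ c = c → c ^ 2 • s ∈ R := by
    intro s hs c hcc
    by_cases hc : c = 0
    · simp [hc]
    · convert htor s hs (c • 1) (Or.inl ⟨by simpa using hc, by rw [h.smul, hcc, map_one]⟩) using 1
      ext x y
      have h1 : s (c • x) y = c * s x y := by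
        rw [← h.σσ (s _ _), hskew s hs, hlin s hs, map_neg, map_mul, hskew s hs, hcc]; ring
      simp only [Pi.smul_apply, smul_eq_mul, smul_mul_assoc, one_mul, hlin s hs, h1]
      ring
  have hsm : ∀ s ∈ R, ∀ c : F, σ c = c → c • s ∈ R := by
    intro s hs c hcc
    by_cases h2 : (2 : F) = 0
    · have : CharP F 2 := CharTwo.of_one_ne_zero_of_two_eq_zero one_ne_zero h2
      obtain ⟨d, hd⟩ := FiniteField.isSquare_of_char_two (ringChar.eq F 2) c
      have := hsq s hs d (sub_eq_zero.1 (pow_eq_zero_iff two_ne_zero |>.1 (show (σ d - d) ^ 2 = 0 by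
        rw [hd, map_mul] at hcc; linear_combination hcc + (d * d - σ d * d) * h2)))
      rwa [sq, ← hd] at this
    · have h3 : σ 2 = 2 := map_ofNat σ 2
      convert R.sub_mem (hsq s hs ((c + 1) / 2) (by simp [hcc, h3]))
        (hsq s hs ((c - 1) / 2) (by simp [hcc, h3])) using 1
      rw [← sub_smul]; congr 1; field_simp; ring
  let S : Submodule K (K → K → K) :=
    Submodule.span K {t | ∃ s ∈ R, ∀ x y, t x y = algebraMap F K (s x y)}
  have hcomp : ∀ φ : K → K, (∀ s ∈ R, (fun x y => s (φ x) (φ y)) ∈ R) →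
      ∀ t ∈ S, (fun x y => t (φ x) (φ y)) ∈ S := by
    intro φ hφ t ht
    induction ht using Submodule.span_induction with
    | mem t ht =>
      obtain ⟨s, hs, ht⟩ := ht
      exact Submodule.subset_span ⟨_, hφ s hs, fun x y => ht _ _⟩
    | zero => exact S.zero_mem
    | add t t' _ _ h h' => exact S.add_mem h h'
    | smul c t _ h => exact S.smul_mem c h
  have hgal : ∀ ρ : K ≃ₐ[F] K, ∀ t ∈ S, (fun x y => ρ (t x y)) ∈ S := by
    intro ρ t ht
    induction ht using Submodule.span_induction with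
    | mem t ht =>
      obtain ⟨s, hs, ht⟩ := ht
      exact Submodule.subset_span ⟨s, hs, fun x y => by
        beta_reduce; rw [ht, AlgEquiv.commutes]⟩
    | zero => convert S.zero_mem using 1; ext x y; simp
    | add t t' _ _ h h' => convert S.add_mem h h' using 1; ext x y; simp
    | smul c t _ h => convert S.smul_mem (ρ c) h using 1; ext x y; simp
  let E : (K ≃ₐ[F] K) × (K ≃ₐ[F] K) → K → K → K := fun p x y => p.1 (τ x) * p.2 y
  have ex : ∀ m : (K ≃ₐ[F] K) × (K ≃ₐ[F] K) → K, ∑ p, m p • E p ∈ S → ∀ p, m p ≠ 0 → E p ∈ S := by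
    intro m hm p hp
    have := comp_mem S (C := {c : K // c ≠ 0 ∧ τ c = c ∨ c = c₁})
      (fun c => ⟨⟨fun t x y => t (c * x) (c * y), fun _ _ => rfl⟩, fun _ _ => rfl⟩)
      (fun c => hcomp _ fun s hs => htor s hs c c.2) (fun p c => p.1 (τ c) * p.2 c) p
      (fun p' hp' h1 => hp' (Prod.ext_iff.2 (h.char_eq hr hc hc'
        (fun c h2 h3 => congrFun h1 ⟨c, Or.inl ⟨h2, h3⟩⟩) (congrFun h1 ⟨c₁, Or.inr rfl⟩))))
      (Finset.univ.erase p) (by simp) (fun p => m p • E p) (fun p c => by
        ext x y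
        simp only [E, LinearMap.coe_mk, AddHom.coe_mk, Pi.smul_apply, smul_eq_mul, map_mul]
        ring) (by rwa [Finset.add_sum_erase _ (fun p => m p • E p) (Finset.mem_univ p)])
    simpa [smul_smul, hp] using S.smul_mem (m p)⁻¹ this
  have tr : ∀ γ p, E p ∈ S → E (γ * p.1, γ * p.2) ∈ S := fun γ p hp => by
    simpa [E] using hgal γ _ hp
  have h11 : E (1, 1) ∈ S := by
    obtain ⟨L, hL⟩ := exists_gal_coeff ((Algebra.linearMap F K).comp l)
    obtain ⟨ρ, hρ⟩ : ∃ ρ, L ρ ≠ 0 := by
      by_contra h1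
      push Not at h1
      simpa [h1, h.l1] using hL 1
    simpa using tr ρ⁻¹ _ (ex (fun p => if p.1 = p.2 then L p.1 * p.1 d else 0)
      (Submodule.subset_span ⟨_, h0, fun x y => by
        have h2 := hL (d * (τ x * y))
        simp only [LinearMap.comp_apply, Algebra.linearMap_apply, map_mul] at h2
        simp [E, h2, Fintype.sum_prod_type, mul_assoc, ite_apply]⟩) (ρ, ρ) (by simp [hρ, hd]))
  obtain ⟨A, hA⟩ := exists_gal_coeff a
  obtain ⟨n, n', hnn, hn, hn'⟩ := exists_two_of_not_semi ha hA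
  have hstep : ∀ γ, E (1, γ) ∈ S → E (1, n⁻¹ * (γ * n')) ∈ S := fun γ hγ => by
    simpa using tr n⁻¹ _ (ex (fun p => τ (A p.1) * γ (A (γ⁻¹ * p.2))) (by
      convert hcomp a hinv _ hγ using 1
      ext x y
      simp only [E, Fintype.sum_prod_type, Finset.sum_apply, Pi.smul_apply, smul_eq_mul,
        AlgEquiv.one_apply, hA x, hA y, map_sum, map_mul, comm, Finset.sum_mul_sum]
      refine Finset.sum_congr rfl fun ρ _ =>
        (Fintype.sum_equiv (Equiv.mulLeft γ) _ _ fun π => ?_).symm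
      simp only [Equiv.coe_mulLeft, inv_mul_cancel_left, AlgEquiv.mul_apply]
      ring) (n, γ * n') (by simp [hn, hn']))
  have := Fact.mk hr
  have hcyc : IsCyclic (K ≃ₐ[F] K) := isCyclic_of_prime_card (card_gal (F := F) (K := K))
  have hall : ∀ p, E p ∈ S := by
    have h1 : ∀ γ, E (1, γ) ∈ S := fun γ => by
      obtain ⟨j, rfl⟩ := mem_powers_of_prime_card (card_gal (F := F) (K := K)) (g' := γ)
        (g := n⁻¹ * n') (fun h => hnn (inv_mul_eq_one.1 h))
      induction j with
      | zero => exact h11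
      | succ j ih =>
        have h1 := hstep _ ih
        rw [← mul_assoc, (IsCyclic.isMulCommutative (α := K ≃ₐ[F] K)).is_comm.comm n⁻¹,
          mul_assoc] at h1
        simpa only [pow_succ] using h1
    exact fun p => by simpa using tr p.1 _ (h1 (p.1⁻¹ * p.2))
  obtain ⟨M, hM⟩ := exists_gal_coeff ((Algebra.linearMap F K).comp μ)
  have hτ : ∀ c : F, algebraMap F K (σ c) = τ (algebraMap F K c) := fun c => by
    rw [Algebra.algebraMap_eq_smul_one, Algebra.algebraMap_eq_smul_one, h.smul, map_one]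
  have ht : (fun x y => algebraMap F K (e * (σ (μ x) * μ y))) ∈ S := by
    convert S.sum_mem (t := Finset.univ) fun p _ =>
      S.smul_mem (algebraMap F K e * (τ (M p.1) * M p.2)) (hall p) using 1
    ext x y
    have h2 := hM x
    have h3 := hM y
    simp only [LinearMap.comp_apply, Algebra.linearMap_apply] at h2 h3
    simp only [E, map_mul, hτ, h2, h3, Fintype.sum_prod_type, Finset.sum_apply, Pi.smul_apply,
      smul_eq_mul, map_sum, comm, Finset.sum_mul_sum]
    simp only [Finset.mul_sum]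
    exact Finset.sum_congr rfl fun ρ _ => Finset.sum_congr rfl fun π _ => by ring
  have hdesc : ∀ t ∈ S, ∀ k : K, ∃ s ∈ R, ∀ x y, s x y = l (k * t x y) - σ (l (k * t y x)) := by
    intro t ht
    induction ht using Submodule.span_induction with
    | mem t ht =>
      obtain ⟨s, hs, ht⟩ := ht
      refine fun k => ⟨_, hsm s hs (l k + σ (l k)) (by rw [map_add, h.σσ, add_comm]), fun x y => ?_⟩
      rw [ht, ht, mul_comm k, mul_comm k, ← Algebra.smul_def, ← Algebra.smul_def, map_smul,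
        map_smul, smul_eq_mul, smul_eq_mul, map_mul, hskew s hs]
      simp only [Pi.smul_apply, smul_eq_mul]; ring
    | zero => exact fun k => ⟨0, R.zero_mem, fun x y => by simp⟩
    | add t t' _ _ h h' =>
      intro k
      obtain ⟨s, hs, h1⟩ := h k
      obtain ⟨s', hs', h2⟩ := h' k
      exact ⟨s + s', R.add_mem hs hs', fun x y => by simp [h1, h2, mul_add]; ring⟩
    | smul c t _ h =>
      intro k
      obtain ⟨s, hs, h1⟩ := h (k * c)
      exact ⟨s, hs, fun x y => by simp [h1, mul_assoc]⟩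
  obtain ⟨θ, hθ⟩ := h.θ
  obtain ⟨s, hs, h1⟩ := hdesc _ ht (θ • 1)
  convert hs using 1
  ext x y
  simp only [h1, Algebra.algebraMap_eq_smul_one, smul_mul_assoc, one_mul, map_smul, h.l1,
    smul_eq_mul, mul_one, map_mul, h.σσ]
  linear_combination (-e * σ (μ x) * μ y) * hθ + (σ θ * σ (μ x) * μ y) * he

/-- A basis of fixed elements containing `1`. -/
theorem exists_test : ∃ J : Finset K, J.card < finrank F K ∧ (∀ j ∈ J, τ j = j) ∧
    ∀ k, l k = 0 → (∀ j ∈ J, l (j * k) = 0) → k = 0 := by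
  classical
  obtain ⟨b, h1, h2, h3, h4⟩ := exists_linearIndepOn_id_extension (K := F) (s := {(1 : K)})
    (t := {a | τ a = a}) (by simp) (by simp)
  have h5 : 1 ∈ (Set.toFinite b).toFinset := by simpa using h2
  refine ⟨(Set.toFinite b).toFinset.erase 1, ?_, fun j hj => h1
    (by simpa using Finset.mem_of_mem_erase hj), fun k hk hj => eq_zero_of_forall_mul h.l_ne fun z => ?_⟩
  · have := Fintype.ofFinite b
    have h6 := LinearIndependent.fintype_card_le_finrank h4
    rw [← Set.toFinset_card, ← Set.Finite.toFinset_eq_toFinset (Set.toFinite b)] at h6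
    exact lt_of_lt_of_le (Finset.card_erase_lt_of_mem h5) h6
  · refine h.ext_fixed (f := l ∘ₗ LinearMap.mulRight F k) (g := 0) (fun a ha => ?_) z
    refine (show Submodule.span F b ≤ LinearMap.ker (l ∘ₗ LinearMap.mulRight F k) from
      Submodule.span_le.2 fun j hj' => ?_) (h3 ha)
    by_cases h6 : j = 1
    · simpa [h6] using hk
    · simpa using hj j (by simp [h6, hj'])

/-- A biadditive map into the fixed elements killed by `l` has a non-trivial zero. -/
theorem exists_pair_zero (S : AddSubgroup K) {x₀ s₀ : K} (hx : x₀ ∉ S) (hs : s₀ ∈ S) (hs0 : s₀ ≠ 0)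
    (β : K →+ K →+ K) (h1 : ∀ s x, τ (β s x) = β s x) (h2 : ∀ s x, l (β s x) = 0) :
    ∃ s ∈ S, s ≠ 0 ∧ ∃ x, x ∉ S ∧ β s x = 0 := by
  by_contra hcon
  push Not at hcon
  let T : Set K := {k | τ k = k ∧ l k = 0}
  let K₀ : Set K := {k | τ k = k}
  have c1 : Nat.card S ≤ Nat.card T := Nat.card_le_card_of_injective
    (fun s : S => (⟨β s x₀, h1 _ _, h2 _ _⟩ : T)) fun s s' e => by
      by_contra h0
      refine hcon (s - s') (S.sub_mem s.2 s'.2) (fun h3 => h0 (Subtype.ext (sub_eq_zero.1 h3)))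
        x₀ hx ?_
      simpa [sub_eq_zero] using congrArg Subtype.val e
  have c2 : Nat.card K ≤ Nat.card S * Nat.card T := by
    rw [← (β s₀).ker.card_mul_index, AddSubgroup.index_ker]
    refine Nat.mul_le_mul (AddSubgroup.card_le_of_le fun x hx => ?_)
      (Nat.card_mono (Set.toFinite T) (s := (β s₀).range) ?_)
    · by_contra h0
      exact hcon s₀ hs hs0 x h0 hx
    · rintro _ ⟨x, rfl⟩; exact ⟨h1 _ _, h2 _ _⟩
  have c3 : Nat.card T < Nat.card K₀ := Set.Finite.card_lt_card (Set.toFinite K₀)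
    ⟨fun k hk => hk.1, fun h0 => by simpa [h.l1] using (h0 (map_one τ)).2⟩
  obtain ⟨θ, hθ⟩ : ∃ θ, τ θ ≠ θ := by
    by_contra h0
    push Not at h0
    exact h.τ_ne (RingHom.ext h0)
  have c4 : Nat.card K₀ * Nat.card K₀ ≤ Nat.card K := by
    rw [← Nat.card_prod]
    refine Nat.card_le_card_of_injective (fun p : K₀ × K₀ => p.1.1 + θ * p.2.1) ?_
    rintro ⟨⟨a, ha⟩, ⟨b, hb⟩⟩ ⟨⟨a', ha'⟩, ⟨b', hb'⟩⟩ e
    have e' := congrArg τ e
    simp only [map_add, map_mul, show τ a = a from ha, show τ b = b from hb,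
      show τ a' = a' from ha', show τ b' = b' from hb'] at e e'
    obtain rfl : b = b' := mul_left_cancel₀ (sub_ne_zero.2 hθ) (by linear_combination e' - e)
    obtain rfl : a = a' := by linear_combination e
    rfl
  nlinarith

end ExtInv

end CfsgLib.SUMax
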