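import Mathlib
import Cfsg.Agent.Lib.SUMax.ExtF
import Cfsg.Agent.Lib.SUMax.SubU
import Cfsg.Agent.Lib.Asch.UnitaryA

/-!
Maximality of the field extension subgroups `GU_{n/r}(q^r).r ∩ SU_n(q)` of `SU_n(q)`, `r < n`.
-/

set_option autoImplicit false

namespace CfsgLib.SUMax

open CfsgLib.Forms CfsgLib.ClMax CfsgLib.RootMax Module

universe u

section iso

variable {K V : Type*} [Field K] {τ : K →+* K} [AddCommGroup V] [Module K V] {Q : PQ τ V}
  (hH : Q.IsHerm) (hQ : Q.Nondeg)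
include hH

theorem iso_sub {e v : V} (he : Q.B e e = 0) {c : K}
    (hc : c * Q.B v e + τ (c * Q.B v e) = Q.B v v) : Q.B (v - c • e) (v - c • e) = 0 := by
  simp only [Q.B_sub_left, Q.B_sub_right, Q.B_smul_left, Q.B_smul_right, he, ← hH.conj v e]
  rw [map_mul] at hc
  linear_combination -hc

include hQ

theorem exists_iso_partner {u : V} (hu : Q.B u u = 0) (hu0 : u ≠ 0) :
    ∃ e, Q.B e e = 0 ∧ Q.B u e = 1 :=
  let ⟨e, _, h⟩ := exists_partner_B hH (W := ⊤) (by simp [Q.perp_top hQ]) trivial hu0 hu; ⟨e, h⟩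

theorem exists_iso_not_orth {u w : V} (hu : Q.B u u = 0) (hu0 : u ≠ 0) (hw : Q.B w w = 0)
    (hw0 : w ≠ 0) : ∃ e, Q.B e e = 0 ∧ Q.B e u ≠ 0 ∧ Q.B e w ≠ 0 := by
  obtain ⟨e, he, h1⟩ := exists_iso_partner hH hQ hu hu0
  obtain ⟨e', he', h2⟩ := exists_iso_partner hH hQ hw hw0
  have h1' : Q.B e u = 1 := by rw [← hH.conj, h1, map_one]
  have h2' : Q.B e' w = 1 := by rw [← hH.conj, h2, map_one]
  by_cases h3 : Q.B e w = 0
  swap; · exact ⟨e, he, by simp [h1'], h3⟩
  by_cases h4 : Q.B e' u = 0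
  swap; · exact ⟨e', he', h4, by simp [h2']⟩
  obtain ⟨δ, hδ0, hδ⟩ := hH.exists_trace_zero
  by_cases h5 : Q.B e e' = 0
  · exact ⟨e - (1 : K) • e', iso_sub hH he' (by simp [h5, he]), by simp [h1', h4],
      by simp [h2', h3]⟩
  · exact ⟨e - (δ / Q.B e e') • e', iso_sub hH he' (by rw [div_mul_cancel₀ _ h5, hδ, he]),
      by simp [h1', h4], by simp [h2', h3, hδ0, h5]⟩

theorem iso_induction {p : V → Prop} {e : V} (he : Q.B e e = 0) (he0 : e ≠ 0)
    (h1 : ∀ v, Q.B v v = 0 → p v) (h2 : ∀ v w, p v → p w → p (v + w)) (v : V) : p v := by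
  have key : ∀ v, Q.B v e ≠ 0 → p v := fun v hv => by
    obtain ⟨c, hc⟩ := exists_param hH v
    simpa using h2 _ _ (h1 _ (iso_sub hH he (c := c / Q.B v e) (by rwa [div_mul_cancel₀ _ hv])))
      (h1 ((c / Q.B v e) • e) (by simp [he]))
  by_cases hv : Q.B v e = 0
  · obtain ⟨e', he', h3⟩ := exists_iso_partner hH hQ he he0
    simpa using h2 _ _ (key (v + e') (by simp [hv, ← hH.conj e e', h3])) (h1 (-e') (by simp [he']))
  · exact key v hv

theorem exists_suv_trans [FiniteDimensional K V] {u w : V} (hu : Q.B u u = 0) (hu0 : u ≠ 0)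
    (hw : Q.B w w = 0) (hw0 : w ≠ 0) : ∃ t ∈ SUV Q, ∃ c : K, t u = c • w := by
  obtain ⟨e, he, h1, h2⟩ := exists_iso_not_orth hH hQ hu hu0 hw hw0
  obtain ⟨c, hc, e1⟩ := opp_data ((hH.sing_iff u).2 hu)
    (((hH.sing_iff w).2 hw).smul (Q.B e u / Q.B e w)) h1 rfl
  obtain ⟨t, h3, h4, h5⟩ := exists_rt Q ((hH.sing_iff e).2 he) (by simp [h2]) hc
  exact ⟨t, ⟨h3, h4⟩, _, (h5 u).trans e1⟩

end iso

variable {F K V : Type*} [Field F] [Field K] [Algebra F K] [AddCommGroup V] [Module F V]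
  [Module K V] [IsScalarTower F K V] {σ : F →+* F} {τ : K →+* K}

/-- `P` is the composite of the Hermitian `K`-form `Q` with `l`, and `X` is a group of isometries
of `P` containing the isometries of `Q` of determinant one over `F`. -/
structure UExt (P : PQ σ V) (Q : PQ τ V) (l : K →ₗ[F] F) (X : Subgroup (V ≃ₗ[F] V)) : Prop where
  inv : ExtInv σ τ l
  hH : P.IsHerm
  hP : P.Nondeg
  hH' : Q.IsHerm
  hQ : Q.Nondeg
  eq : ∀ u v, P.B u v = l (Q.B u v)
  hX : X ≤ P.isom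
  hK : ∀ t : V ≃ₗ[K] V, Q.IsIso t → Algebra.norm F (LinearMap.det (t : V →ₗ[K] V)) = 1 →
    t.restrictScalars F ∈ X

namespace UExt

variable {P : PQ σ V} {Q : PQ τ V} {l : K →ₗ[F] F} {X : Subgroup (V ≃ₗ[F] V)} (h : UExt P Q l X)
include h

theorem su {t : V ≃ₗ[K] V} (ht : t ∈ SUV Q) : t.restrictScalars F ∈ X :=
  h.hK t ht.1 (by rw [mem_SLV.1 ht.2, map_one])

theorem eq_smul (k : K) (u v : V) : P.B (k • u) v = l (τ k * Q.B u v) := by
  rw [h.eq, Q.B_smul_left]

theorem ext {a b : K} (hab : ∀ k, l (τ k * a) = l (τ k * b)) : a = b :=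
  sub_eq_zero.1 (eq_zero_of_forall_mul h.inv.l_ne fun k => by
    rw [mul_sub, map_sub, ← h.inv.ττ k, hab, sub_self])

variable [FiniteDimensional K V] [Finite K]

theorem tf_of_not_semi (hr : (finrank F K).Prime)
    (hbig : 3 ≤ finrank K V ∨ ∃ z : K, τ z * z = 1 ∧ Algebra.norm F z = 1 ∧
      z ∉ Submodule.span F {(1 : K)})
    {u : V} (huu : Q.B u u = 0) (hu : u ≠ 0) {g : V ≃ₗ[F] V} (hg : g ∈ X) {α : K →ₗ[F] K}
    (hα : ∀ k, g (k • u) = α k • u) (hns : ¬ Semi α) (k₀ : K) : TF P X (k₀ • u) := by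
  obtain ⟨u', hu'u', hu'⟩ := exists_iso_partner h.hH' h.hQ huu hu
  have hαs : Function.Surjective α := by
    refine Finite.surjective_of_injective fun a b hab => ?_
    have : g (a • u) = g (b • u) := by rw [hα, hα, hab]
    exact smul_left_injective K hu (g.injective this)
  let a : K →ₗ[F] K := (Q.B u).restrictScalars F ∘ₗ (g : V →ₗ[F] V) ∘ₗ
    (LinearMap.toSpanSingleton K V u').restrictScalars F
  have ha : ∀ k, a k = Q.B u (g (k • u')) := fun k => rfl
  have hrel : ∀ k v, l (τ (α k) * Q.B u (g v)) = l (τ k * Q.B u v) := fun k v => by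
    rw [← h.eq_smul, ← hα, (h.hX hg).B_eq, h.eq_smul]
  have ha' : ∀ v, Q.B u (g v) = a (Q.B u v) := by
    intro v
    refine h.ext fun k => ?_
    obtain ⟨k, rfl⟩ := hαs k
    rw [ha, hrel, hrel]
    simp [hu']
  have hrel' : ∀ k m, l (τ (α k) * a m) = l (τ k * m) := fun k m => by
    rw [ha, hrel]; simp [hu']
  have hna : ¬ Semi a := by
    intro hs
    obtain ⟨c, ρ, hc⟩ := hs.exists_eq
    have hc0 : c ≠ 0 := by
      rintro rfl
      simpa [hc, h.inv.l1] using hrel' 1 1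
    refine hns fun m => ⟨τ (ρ (τ m)), fun k => τ.injective (h.ext fun z => ?_)⟩
    obtain ⟨z, hz⟩ : ∃ z', c * ρ z' = τ z := ⟨ρ.symm (c⁻¹ * τ z), by simp [hc0]⟩
    have h1 := hrel' (m * k) z
    have h2 := hrel' k (τ m * z)
    rw [hc] at h1 h2
    rw [map_mul ρ] at h2
    rw [← hz, mul_comm, h1, map_mul τ (τ _), h.inv.ττ,
      show c * ρ z * (ρ (τ m) * τ (α k)) = τ (α k) * (c * (ρ (τ m) * ρ z)) by ring, h2, map_mul τ]
    congr 1; ring
  have hfix : ∀ (s : K → K → F) (t : V ≃ₗ[F] V), (∀ (c : F) x y, s x (c • y) = c * s x y) →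
      (∀ v w, P.B (t v) w = P.B v w + s (Q.B u v) (Q.B u w)) → ∀ v, Q.B u (t v) = Q.B u v := by
    intro s t hs ht v
    refine h.ext fun k => ?_
    have h1 := ht v (k • u)
    rw [← h.hH.conj, ← h.hH.conj (k • u), h.eq_smul, h.eq_smul, Q.B_smul_right, huu, mul_zero,
      show s (Q.B u v) 0 = 0 by simpa using hs 0 _ 0, add_zero] at h1
    exact σ.injective h1
  let R : AddSubgroup (K → K → F) :=
    { carrier := {s | (∀ (c : F) x y, s x (c • y) = c * s x y) ∧ (∀ x y, σ (s x y) = -s y x) ∧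
        ∃ t ∈ X, ∀ v w, P.B (t v) w = P.B v w + s (Q.B u v) (Q.B u w)}
      zero_mem' := ⟨by simp, by simp, 1, X.one_mem, fun v w => by simp⟩
      add_mem' := by
        rintro s s' ⟨a1, a2, t, ht, h1⟩ ⟨b1, b2, t', ht', h2⟩
        refine ⟨fun c x y => by simp [a1, b1, mul_add], fun x y => by simp [a2, b2, add_comm],
          t * t', X.mul_mem ht ht', fun v w => ?_⟩
        rw [LinearEquiv.mul_apply, h1, h2, hfix s' t' b1 h2]
        simp only [Pi.add_apply]; ring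
      neg_mem' := by
        rintro s ⟨a1, a2, t, ht, h1⟩
        refine ⟨fun c x y => by simp [a1], fun x y => by simp [a2], t⁻¹, X.inv_mem ht,
          fun v w => ?_⟩
        have h2 := h1 (t⁻¹ v) w
        have h3 := hfix s t a1 h1 (t⁻¹ v)
        rw [apply_inv_apply] at h2 h3
        rw [h2, h3]
        simp }
  have hconj : ∀ (p : V ≃ₗ[F] V), p ∈ X → ∀ φ : K →ₗ[F] K, (∀ v, Q.B u (p v) = φ (Q.B u v)) →
      ∀ s ∈ R, (fun x y => s (φ x) (φ y)) ∈ R := by
    rintro p hp φ hφ s ⟨a1, a2, t, ht, h1⟩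
    refine ⟨fun c x y => by simp [a1], fun x y => a2 _ _, p⁻¹ * t * p,
      X.mul_mem (X.mul_mem (X.inv_mem hp) ht) hp, fun v w => ?_⟩
    rw [← (h.hX hp).B_eq, LinearEquiv.mul_apply, LinearEquiv.mul_apply, apply_inv_apply, h1,
      (h.hX hp).B_eq, hφ, hφ]
  have tor : ∀ c : K, c ≠ 0 → (3 ≤ finrank K V ∨ Algebra.norm F (τ c / c) = 1) → ∀ s ∈ R,
      (fun x y => s (c * x) (c * y)) ∈ R := by
    intro c hc h1
    have hc' : τ c ≠ 0 := (map_ne_zero τ).2 hc
    obtain ⟨p, hp, h2, h3⟩ : ∃ p : V ≃ₗ[K] V, p.restrictScalars F ∈ X ∧ Q.IsIso p ∧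
        p (τ c • u) = u := by
      rcases h1 with h1 | h1
      · obtain ⟨p, hp, -, e⟩ := exists_su_move h.hH' h.hQ (W := ⊤) (by simp [Q.perp_top h.hQ])
          (w := τ c • u) (w' := u) trivial trivial (smul_ne_zero hc' hu) hu (by simp [huu])
          (Or.inl (by rwa [finrank_top]))
        exact ⟨p, h.su hp, hp.1, e⟩
      · obtain ⟨p, hp, hd, e, -⟩ := RootMax.exists_dil h.hQ ((h.hH'.sing_iff u).2 huu)
          ((h.hH'.sing_iff u').2 hu'u') (by rw [← h.hH'.conj, hu', map_one]) (inv_ne_zero hc')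
        refine ⟨p, h.hK p hp ?_, hp, by rw [map_smul, e, smul_smul]; simp [hc']⟩
        rw [hd, map_inv₀, h.inv.ττ, inv_inv, mul_comm, ← div_eq_mul_inv, ← inv_div,
          Algebra.norm_inv, h1, inv_one]
    refine hconj _ hp (LinearMap.mulLeft F c) fun v => ?_
    conv_lhs => rw [← h3]
    simp [h2.B_eq, h.inv.ττ]
  obtain ⟨c₁, hc, hc', hc''⟩ : ∃ c₁ : K, c₁ ≠ 0 ∧ τ c₁ / c₁ ∉ Submodule.span F {(1 : K)} ∧
      (3 ≤ finrank K V ∨ Algebra.norm F (τ c₁ / c₁) = 1) := by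
    rcases hbig with h1 | ⟨z, h1, h2, h3⟩
    · obtain ⟨c, hc, hc'⟩ := h.inv.exists_not_mem hr.two_le
      exact ⟨c, hc, hc', Or.inl h1⟩
    · have h4 : 1 + τ z ≠ 0 := fun h0 => h3 (Submodule.mem_span_singleton.2 ⟨-1, by
        have := congrArg τ h0
        rw [map_add, map_one, h.inv.ττ, map_zero] at this
        linear_combination (norm := module) -this⟩)
      have h5 : τ (1 + τ z) / (1 + τ z) = z := by
        rw [div_eq_iff h4, map_add, map_one, h.inv.ττ]; linear_combination -h1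
      exact ⟨_, h4, by rwa [h5], Or.inr (by rwa [h5])⟩
  obtain ⟨δ, hδ0, hδ⟩ := h.hH'.exists_trace_zero
  obtain ⟨t₀, ht₀, e₀⟩ := exists_tv_SUV h.hH' huu hδ
  intro d hd
  obtain ⟨-, -, t, ht, h1⟩ := h.inv.weight hr R (fun s hs => hs.1) (fun s hs => hs.2.1) hc hc'
    (fun s hs c hc₀ => by
      rcases hc₀ with ⟨h1, h2⟩ | rfl
      · exact tor c h1 (Or.inr (by rw [h2, div_self h1, map_one])) s hs
      · exact tor c hc hc'' s hs) ((map_ne_zero τ).2 hδ0)
    ⟨fun c x y => by simp, fun x y => by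
      rw [← h.inv.lτ, ← map_neg]
      simp only [map_mul, h.inv.ττ]
      rw [eq_neg_of_add_eq_zero_right hδ]
      congr 1; ring, _, h.su ht₀, fun v w => by simp [e₀, h.eq_smul, mul_assoc]⟩ hna
    (hconj g hg a ha') (l ∘ₗ LinearMap.mulLeft F (τ k₀)) (e := σ d) (by rw [P.σσ, add_comm, hd])
  refine ⟨t, ht, fun v => sub_eq_zero.1 (h.hP _ fun w => ?_)⟩
  simp [h1, h.eq_smul, mul_assoc]

theorem exists_not_semi (hr : (finrank F K).Prime) (hr2 : finrank F K ≠ 2) {u : V}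
    (huu : Q.B u u = 0) (hu : u ≠ 0)
    (hg : ∃ g ∈ X, (∃ y : K, y ≠ 0 ∧ g (y • u) ∈ Submodule.span K {u}) ∧
      ∃ k : K, g (k • u) ∉ Submodule.span K {u}) :
    ∃ g ∈ X, ∃ α : K →ₗ[F] K, (∀ k, g (k • u) = α k • u) ∧ ¬ Semi α := by
  have : FiniteDimensional F K := Module.Finite.of_finite
  let S : (V ≃ₗ[F] V) → Submodule F K := fun g =>
    ((Submodule.span K {u}).restrictScalars F).comap
      ((g : V →ₗ[F] V) ∘ₗ (LinearMap.toSpanSingleton K V u).restrictScalars F)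
  have hS : ∀ g k, k ∈ S g ↔ g (k • u) ∈ Submodule.span K {u} := fun g k => Iff.rfl
  have hP : ∃ n, ∃ g ∈ X, S g ≠ ⊥ ∧ S g ≠ ⊤ ∧ finrank F K - finrank F (S g) = n := by
    obtain ⟨g, hgX, ⟨y, hy0, hy⟩, k, hk⟩ := hg
    exact ⟨_, g, hgX, (Submodule.ne_bot_iff _).2 ⟨y, hy, hy0⟩,
      fun h => hk ((hS g k).1 (h ▸ Submodule.mem_top)), rfl⟩
  classical
  obtain ⟨g, hgX, h0, h1, hn⟩ := Nat.find_spec hP
  obtain ⟨y, hy, hy0⟩ := (Submodule.ne_bot_iff _).1 h0
  obtain ⟨x₀, hx₀⟩ : ∃ x, x ∉ S g := by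
    by_contra h
    push Not at h
    exact h1 (eq_top_iff.2 fun x _ => h x)
  have hL := fun k : K => Submodule.smul_mem _ k (Submodule.mem_span_singleton_self (R := K) u)
  obtain ⟨t, ht, t1, t2, ⟨x, hx, s, hs, t3⟩, x', t4⟩ : ∃ t ∈ SUV Q, t u = u ∧
      (∀ k : K, t (g (k • u)) - g (k • u) ∈ Submodule.span K {u}) ∧
      (∃ x, x ∉ S g ∧ ∃ s ∈ S g, t (g (x • u)) = g (x • u) + g (s • u)) ∧
      ∃ x : K, t (g (x • u)) ≠ g (x • u) := by
    by_cases c1 : ∀ k : K, Q.B u (g (k • u)) = 0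
    · obtain ⟨κ, hκ⟩ := Submodule.mem_span_singleton.1 ((hS g y).1 hy)
      obtain ⟨a, ha, ha'⟩ := Q.exists_dual_vec h.hQ _ (mt (hS g x₀).2 hx₀)
      have h2 := ha' u (Submodule.mem_span_singleton_self u)
      obtain ⟨c, hc⟩ := exists_param h.hH' (τ κ • a)
      obtain ⟨t, ht, e⟩ := exists_rt_SUV h.hH' huu (by simp [Q.B_eq_zero_comm.1 h2]) hc
      have h3 : t (g (x₀ • u)) = g (x₀ • u) + g (y • u) := by
        simp [e, c1, ha, h.inv.ττ, hκ]
      exact ⟨t, ht, by simp [e, huu, h2], fun k => by simpa [e, c1] using hL _,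
        ⟨x₀, hx₀, y, hy, h3⟩, x₀, by simp [h3, hy0, hu]⟩
    push Not at c1
    obtain ⟨x', hx'⟩ := c1
    have tv : ∀ d : K, d ≠ 0 → d + τ d = 0 → ∀ x, x ∉ S g → ∀ s ∈ S g,
        (d * Q.B u (g (x • u))) • u = g (s • u) → ∃ t ∈ SUV Q, t u = u ∧
        (∀ k : K, t (g (k • u)) - g (k • u) ∈ Submodule.span K {u}) ∧
        (∃ x, x ∉ S g ∧ ∃ s ∈ S g, t (g (x • u)) = g (x • u) + g (s • u)) ∧
        ∃ x : K, t (g (x • u)) ≠ g (x • u) := fun d hd0 hd x hx s hs h2 => by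
      obtain ⟨t, ht, e⟩ := exists_tv_SUV h.hH' huu hd
      exact ⟨t, ht, by simp [e, huu], fun k => by simpa [e] using hL _,
        ⟨x, hx, s, hs, by rw [e, h2]⟩, x', by simp [e, hd0, hx', hu]⟩
    by_cases c2 : ∃ x, x ∉ S g ∧ Q.B u (g (x • u)) = 0
    · obtain ⟨x, hx, h2⟩ := c2
      obtain ⟨δ, hδ0, hδ⟩ := h.hH'.exists_trace_zero
      exact tv δ hδ0 hδ x hx 0 (S g).zero_mem (by simp [h2])
    push Not at c2
    obtain ⟨s, hs, hs0, x, hx, h2⟩ := h.inv.exists_pair_zero (S g).toAddSubgroup hx₀ hy hy0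
      (AddMonoidHom.mk' (fun s => AddMonoidHom.mk' (fun x => Q.B (g (s • u)) (g (x • u)) +
        Q.B (g (x • u)) (g (s • u))) fun x x' => by simp [add_smul]; ring) fun s s' => by
          ext x; simp [add_smul]; ring)
      (fun s x => by simp [h.hH'.conj, add_comm]) (fun s x => by
        simp only [AddMonoidHom.mk'_apply, map_add, ← h.eq, (h.hX hgX).B_eq]
        simp [h.eq, huu])
    obtain ⟨κ, hκ⟩ := Submodule.mem_span_singleton.1 ((hS g s).1 hs)
    have hκ0 : κ ≠ 0 := by rintro rfl; simpa [hs0, hu] using hκ.symm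
    have h3 := c2 x hx
    refine tv (κ / Q.B u (g (x • u))) (div_ne_zero hκ0 h3) ?_ x hx s hs
      (by rw [div_mul_cancel₀ _ h3, hκ])
    simp only [AddMonoidHom.mk'_apply, ← hκ, Q.B_smul_left, Q.B_smul_right,
      ← h.hH'.conj u (g (x • u))] at h2
    have h4 := (map_ne_zero τ).2 h3
    rw [map_div₀]; field_simp; linear_combination h2
  have tL : ∀ v ∈ Submodule.span K {u}, t v = v := fun v hv => by
    obtain ⟨c, rfl⟩ := Submodule.mem_span_singleton.1 hv
    rw [map_smul, t1]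
  have hX : g⁻¹ * t.restrictScalars F * g ∈ X :=
    X.mul_mem (X.mul_mem (X.inv_mem hgX) (h.su ht)) hgX
  obtain ⟨p, hp⟩ : ∃ p, p = g⁻¹ * t.restrictScalars F * g := ⟨_, rfl⟩
  have ep : ∀ v, g (p v) = t (g v) := fun v => by simp [hp]
  rw [← hp] at hX
  have hle : S g < S p := by
    refine lt_of_le_of_ne (fun s hs => ?_) fun h => hx ?_
    · rw [hS, show p (s • u) = s • u from g.injective (by rw [ep, tL _ ((hS g s).1 hs)])]
      exact hL _
    · rw [h, hS, show p (x • u) = (x + s) • u from g.injective (by rw [ep, t3, add_smul, map_add])]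
      exact hL _
  have htop : S p = ⊤ := by
    by_contra h
    have h2 := Nat.find_min' hP ⟨_, hX, fun h3 => h0 (le_bot_iff.1 (h3 ▸ hle.le)), h, rfl⟩
    have h3 := Submodule.finrank_lt_finrank_of_lt hle
    have h4 := Submodule.finrank_le (S p)
    omega
  obtain ⟨α, hα⟩ := exists_line_map (h := (p : V →ₗ[F] V)) hu
    fun k => (hS _ k).1 (htop ▸ Submodule.mem_top)
  refine ⟨p, hX, α, hα, fun hs => hr2 ?_⟩
  obtain ⟨a, ρ, ha⟩ := hs.exists_eq
  have hα' : ∀ k, p (k • u) = (a * ρ k) • u := fun k => by rw [← ha]; exact hα k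
  refine (two_of_quadratic hr (c := a) (σ := ρ) (fun z => ?_) ⟨x', fun h2 => t4 ?_⟩).1
  · have h2 : p (p (z • u) - z • u) = p (z • u) - z • u := g.injective (by
      rw [ep, map_sub g, ep, tL _ (t2 z)])
    rw [hα', ← sub_smul, hα'] at h2
    have := smul_left_injective K hu h2
    simp only [map_sub] at this
    linear_combination this
  · rw [← ep, hα', h2]

theorem tfOn_top [Fintype F] {q : ℕ} (hF : Fintype.card F = q ^ 2) (hσ : ∀ x, σ x = x ^ q)
    (hr : (finrank F K).Prime) (hr2 : finrank F K ≠ 2) (hd : 2 ≤ finrank K V)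
    (hbig : 3 ≤ finrank K V ∨ ∃ z : K, τ z * z = 1 ∧ Algebra.norm F z = 1 ∧
      z ∉ Submodule.span F {(1 : K)})
    {g : V ≃ₗ[F] V} (hg : g ∈ X) (hgs : ¬ SemiK K g) (x : V) (hx : P.B x x = 0) : TF P X x := by
  have : FiniteDimensional F K := Module.Finite.of_finite
  obtain ⟨e₀, -, he₀0, he₀⟩ := herm_exists_sing h.hH' (Z := ⊤) (by rwa [finrank_top])
  replace he₀ := he₀.self_eq
  obtain ⟨u, huu, hu, p, hp, α, hα, hns⟩ : ∃ u, Q.B u u = 0 ∧ u ≠ 0 ∧ ∃ g ∈ X, ∃ α : K →ₗ[F] K,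
      (∀ k, g (k • u) = α k • u) ∧ ¬ Semi α := by
    by_contra hcon
    push Not at hcon
    have A : ∀ v, Q.B v v = 0 → v ≠ 0 → ∃ ρ : K ≃ₐ[F] K, ∀ k, g (k • v) = ρ k • g v := by
      intro v hv hv0
      obtain ⟨J, h1, h2, h3⟩ := h.inv.exists_test
      obtain ⟨y, hy0, hy⟩ := exists_common_zero hF hσ J (W := K) (fun j => LinearMap.mk₂'ₛₗ σ
        (RingHom.id F) (fun x y => P.B (g (x • v)) (j • g (y • v))) (by simp [add_smul])
        (by simp) (by simp [add_smul])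
        (fun c x y => by simp [smul_comm j c])) (fun j hj y => by
          simp only [LinearMap.mk₂'ₛₗ_apply, h.eq, ← h.inv.lτ, Q.B_smul_right, map_mul, h2 j hj,
            h.hH'.conj]) h1
      have h4 : Q.B (g (y • v)) (g (y • v)) = 0 := h3 _ (by
        rw [← h.eq, (h.hX hg).B_eq]; simp [h.eq, hv]) fun j hj => by simpa [h.eq] using hy j hj
      obtain ⟨t, ht, c, hc⟩ := exists_suv_trans h.hH' h.hQ h4 (by simp [hy0, hv0]) hv hv0
      have h5 := X.mul_mem (h.su ht) hg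
      obtain ⟨α, hα⟩ := exists_line_map (K := K)
        (h := ((t.restrictScalars F * g : V ≃ₗ[F] V) : V →ₗ[F] V)) hv0 fun k => by
        by_contra h6
        obtain ⟨p, hp, α, hα, hns⟩ := h.exists_not_semi hr hr2 hv hv0 ⟨_, h5, ⟨y, hy0,
          Submodule.mem_span_singleton.2 ⟨c, hc.symm⟩⟩, k, h6⟩
        exact hns (hcon v hv hv0 p hp α hα)
      obtain ⟨a, ρ, ha⟩ := (hcon v hv hv0 _ h5 α hα).exists_eq
      have h6 : ∀ k : K, t (g (k • v)) = (a * ρ k) • v := fun k => by rw [← ha]; exact hα k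
      refine ⟨ρ, fun k => t.injective ?_⟩
      have h7 := h6 1
      rw [one_smul, map_one, mul_one] at h7
      rw [h6, map_smul, h7, smul_smul, mul_comm]
    have B : ∀ {v e : V} {ρ π : K ≃ₐ[F] K}, Q.B v v = 0 → Q.B e e = 0 → Q.B e v ≠ 0 →
        (∀ k, g (k • v) = ρ k • g v) → (∀ k, g (k • e) = π k • g e) → ∀ k, ρ k = π k := by
      intro v e ρ π hv he hev h1 h2 k
      obtain ⟨δ, hδ0, hδ⟩ := h.hH'.exists_trace_zero
      have hve : Q.B v e ≠ 0 := fun h0 => hev (Q.B_eq_zero_comm.1 h0)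
      obtain ⟨c, hc⟩ : ∃ c, c = δ / Q.B v e := ⟨_, rfl⟩
      obtain ⟨γ, hγ⟩ := A _ (iso_sub h.hH' he (c := c) (by rw [hc, div_mul_cancel₀ _ hve, hδ, hv]))
        (fun h0 => hev (by simp [sub_eq_zero.1 h0, he]))
      have h3 := hγ k
      rw [smul_sub, map_sub, map_sub, smul_smul, h1, h2, h2, map_mul] at h3
      have h4 : ρ k = γ k := by
        by_contra h4
        have h5 : v = π.symm ((ρ k - γ k)⁻¹ * ((π k - γ k) * π c)) • e := g.injective (by
          rw [h2, π.apply_symm_apply, mul_smul]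
          refine (eq_inv_smul_iff₀ (sub_ne_zero.2 h4)).2 ?_
          linear_combination (norm := module) h3)
        exact hev (by rw [h5]; simp [he])
      have h5 : ((π k - γ k) * π c) • g e = 0 := by
        rw [h4] at h3; linear_combination (norm := module) -h3
      have h6 : e ≠ 0 := by rintro rfl; simp at hev
      exact h4.trans (Eq.symm (by simpa [hc, hδ0, hve, h6, sub_eq_zero] using h5))
    obtain ⟨ρ, hρ⟩ := A e₀ he₀ he₀0
    refine hgs fun k => ⟨ρ k, iso_induction h.hH' h.hQ he₀ he₀0 (fun v hv => ?_)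
      fun v w h1 h2 => by simp [h1, h2]⟩
    by_cases hv0 : v = 0
    · simp [hv0]
    obtain ⟨e, he, h1, h2⟩ := exists_iso_not_orth h.hH' h.hQ he₀ he₀0 hv hv0
    obtain ⟨π, hπ⟩ := A e he (by rintro rfl; simp at h1)
    obtain ⟨γ, hγ⟩ := A v hv hv0
    rw [hγ, B hv he h2 hγ hπ, B he₀ he h1 hρ hπ]
  have C : ∀ v, Q.B v v = 0 → TF P X v := fun v hv => by
    by_cases hv0 : v = 0
    · rw [hv0]; exact tf_zero
    obtain ⟨t, ht, c, hc⟩ := exists_suv_trans h.hH' h.hQ huu hu hv hv0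
    have hc0 : c ≠ 0 := by rintro rfl; simp [hu] at hc
    simpa [hc, hc0, smul_smul] using (h.tf_of_not_semi hr hbig huu hu hp hα hns c⁻¹).conj (h.su ht)
      (h.hX (h.su ht))
  by_cases hx0 : x = 0
  · rw [hx0]; exact tf_zero
  obtain ⟨e, he, hxe⟩ : ∃ e, Q.B e e = 0 ∧ Q.B x e ≠ 0 := by
    by_contra h0
    push Not at h0
    exact hx0 (h.hQ x (iso_induction h.hH' h.hQ he₀ he₀0 h0 fun v w h1 h2 => by simp [h1, h2]))
  obtain ⟨c, hc, hc'⟩ : ∃ c, c + τ c = Q.B x x ∧ l c ≠ 0 := by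
    obtain ⟨c, hc⟩ := exists_param h.hH' x
    by_cases h1 : l c = 0
    · obtain ⟨δ, hδ0, hδ⟩ := h.inv.δ
      refine ⟨c + δ • 1, ?_, by simpa [h1, h.inv.l1]⟩
      rw [map_add, h.inv.smul, map_one]
      linear_combination (norm := module) hc + hδ • (1 : K)
    · exact ⟨c, hc, h1⟩
  have h1 := iso_sub h.hH' he (c := c / Q.B x e) (by rwa [div_mul_cancel₀ _ hxe])
  have h2 : Q.B ((c / Q.B x e) • e) ((c / Q.B x e) • e) = 0 := by simp [he]
  simpa using TF.line h.hH h.hX (C _ h1) (C _ h2) (by simp only [h.eq, h1, map_zero])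
    (by simp only [h.eq, h2, map_zero]) (by
      rw [h.eq, Q.B_sub_left, h2, Q.B_smul_right, div_mul_cancel₀ _ hxe, sub_zero]; exact hc')
    (α := 1) (β := 1) (by simpa using hx)

omit [FiniteDimensional K V] [Finite K] in
theorem exists_not_semiK [FiniteDimensional F V] (hr : 2 ≤ finrank F K) (hd : 3 ≤ finrank F V) :
    ∃ g ∈ SUV P, ¬ SemiK K g := by
  obtain ⟨β, hβ⟩ := exists_not_mem_range hr
  obtain ⟨x, -, hx0, hx⟩ := herm_exists_sing h.hH (Z := ⊤) (by rw [finrank_top]; omega)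
  obtain ⟨δ, hδ0, hδ⟩ := h.hH.exists_trace_zero
  obtain ⟨t, ht, e⟩ := exists_tv_SUV h.hH hx.self_eq hδ
  refine ⟨t, ht, fun hs => hβ ?_⟩
  obtain ⟨k, hk⟩ := hs β
  obtain ⟨v, hv, hv0⟩ := Submodule.exists_mem_ne_zero_of_ne_bot
    (p := LinearMap.ker ((P.B x).prod (P.B (τ β • x)))) (fun h0 => by
      have h1 := LinearMap.finrank_le_finrank_of_injective (LinearMap.ker_eq_bot.1 h0)
      rw [Module.finrank_prod, finrank_self] at h1
      omega)
  rw [LinearMap.mem_ker, LinearMap.prod_apply, Prod.mk_eq_zero] at hv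
  have h1 := hk v
  have h2 : P.B x (β • v) = 0 := by
    rw [h.eq, Q.B_smul_right, ← h.inv.ττ β, ← h.eq_smul]; exact hv.2
  rw [e, e, h2, show P.B x v = 0 from hv.1, mul_zero, zero_smul, add_zero, add_zero] at h1
  obtain rfl := smul_left_injective K hv0 h1
  obtain ⟨w, hw⟩ := exists_B_one h.hP hx0
  have h3 := hk w
  rw [e, e, hw, mul_one, smul_add, add_right_inj, smul_comm, mul_smul] at h3
  exact Submodule.mem_span_singleton.2 ⟨_, smul_left_injective K hx0
    (by simpa using smul_right_injective V hδ0 h3)⟩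

end UExt

theorem exists_uext {P : PQ σ V} (hH : P.IsHerm) (hP : P.Nondeg) [Finite K] [Nontrivial V]
    (had : ∀ k : K, ∃ k' : K, ∀ u v, P.B (k • u) v = P.B u (k' • v)) :
    ∃ (τ : K →+* K) (l : K →ₗ[F] F) (Q : PQ τ V), ExtInv σ τ l ∧ Q.IsHerm ∧ Q.Nondeg ∧
      ∀ u v, P.B u v = l (Q.B u v) := by
  have : Finite F := Finite.of_injective _ (algebraMap F K).injective
  have : FiniteDimensional F K := Module.Finite.of_finite
  choose t ht using had
  have uq : ∀ {a b : K}, (∀ u v, P.B u (a • v) = P.B u (b • v)) → a = b := fun {a b} hab => by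
    obtain ⟨v, hv⟩ := exists_ne (0 : V)
    exact smul_left_injective K hv (sub_eq_zero.1 (hP.right _ fun u => by simp [hab]))
  let τ : K →+* K :=
    { toFun := t
      map_one' := uq fun u v => by simp [← ht]
      map_mul' := fun a b => uq fun u v => by rw [← ht, mul_comm a, mul_smul, ht, ht, mul_smul]
      map_zero' := uq fun u v => by simp [← ht]
      map_add' := fun a b => uq fun u v => by simp [← ht, add_smul] }
  have hτ : ∀ k u v, P.B (k • u) v = P.B u (τ k • v) := ht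
  have h1 : ∀ k, τ (τ k) = k := fun k => uq fun u v => by
    rw [← hτ, ← hH.conj, ← hτ, hH.conj]
  have h2 : ∀ (c : F) k, τ (c • k) = σ c • τ k := fun c k => uq fun u v => by
    rw [← hτ, smul_assoc, smul_assoc, P.B_smul_left, P.B_smul_right, hτ]
  obtain ⟨l₀, hl₀⟩ := exists_dual_ne_zero F K
  obtain ⟨θ, hθ⟩ := hH.exists_trace_one
  let l : K →ₗ[F] F :=
    { toFun := fun k => θ * l₀ k + σ (θ * l₀ (τ k))
      map_add' := fun a b => by simp only [map_add, mul_add]; ring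
      map_smul' := fun c k => by
        simp only [h2, map_smul, smul_eq_mul, map_mul, P.σσ, RingHom.id_apply]; ring }
  have hi : ExtInv σ τ l := ⟨P.σσ, h1, h2, by simp [l, hl₀, hθ],
    fun k => by simp [l, h1, P.σσ, add_comm], ⟨θ, hθ⟩, hH.exists_trace_zero⟩
  choose ψ hψ using fun u => exists_dual_lift (V := V) hi.l_ne (P.B u)
  have hext : ∀ a b : K, (∀ k, l (k * a) = l (k * b)) → a = b := fun a b h =>
    sub_eq_zero.1 (eq_zero_of_forall_mul hi.l_ne fun k => by rw [mul_sub, map_sub, h, sub_self])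
  let f : V →ₛₗ[τ] V →ₗ[K] K :=
    { toFun := ψ
      map_add' := fun u v => LinearMap.ext fun w => hext _ _ fun k => by simp [hψ, mul_add]
      map_smul' := fun c u => LinearMap.ext fun w => hext _ _ fun k => by
        simp only [LinearMap.smul_apply, smul_eq_mul]
        rw [← mul_assoc, hψ, hψ, hτ, smul_smul, mul_comm] }
  have hf : ∀ u v, P.B u v = l (f u v) := fun u v => by
    have := hψ u 1 v
    rw [one_mul, one_smul] at this
    exact this.symm
  have hS : f.IsSymm := ⟨fun u v => hext _ _ fun k => by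
    rw [← h1 k, ← map_mul, hi.lτ, show f u v = ψ u v from rfl, show f v u = ψ v u from rfl, hψ,
      hψ, hH.conj, hτ]⟩
  exact ⟨τ, l, ofHerm hi.τ_ne h1 f hS, hi, ofHerm_isHerm_of_finite _ _ _ _,
    fun u hu => hP u fun v => by rw [hf]; exact (congrArg l (hu v)).trans (map_zero l), hf⟩

theorem ExtInv.exists_norm_one [Fintype F] [Finite K] {q : ℕ} (hF : Fintype.card F = q ^ 2)
    (hσ : ∀ x, σ x = x ^ q) {l : K →ₗ[F] F} (h : ExtInv σ τ l)
    (hq : (q + 1) ^ 2 < q ^ finrank F K + 1) :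
    ∃ z : K, τ z * z = 1 ∧ Algebra.norm F z = 1 ∧ z ∉ Submodule.span F {(1 : K)} := by
  classical
  have := Fintype.ofFinite K
  obtain ⟨Q, hQ, hτ⟩ := Asch.invol_eq_pow h.ττ (DFunLike.ne_iff.1 h.τ_ne)
  have hQ' : Q = q ^ finrank F K := (Nat.pow_left_inj two_ne_zero).1 (by
    rw [← hQ, Module.card_eq_pow_finrank (K := F), hF, ← pow_mul, ← pow_mul, mul_comm])
  have c1 := Unitary.card_norm_one hQ
  have c2 := Unitary.card_norm_one hF
  rw [Nat.card_eq_fintype_card, Fintype.card_subtype] at c1 c2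
  have hN : ∀ z : K, σ (Algebra.norm F z) = Algebra.norm F (τ z) := fun z =>
    (algebraMap F K).injective (by
      rw [Algebra.norm_eq_prod_automorphisms, Algebra.algebraMap_eq_smul_one, ← map_one τ,
        ← h.smul, ← Algebra.algebraMap_eq_smul_one, Algebra.norm_eq_prod_automorphisms, map_prod]
      simp only [ExtInv.comm])
  by_contra hcon
  push Not at hcon
  have c3 := Finset.card_le_mul_card_image_of_maps_to (f := Algebra.norm F (S := K))
    (s := Finset.univ.filter fun z : K => z ^ (Q + 1) = 1)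
    (t := Finset.univ.filter fun c : F => c ^ (q + 1) = 1) (fun z hz => by
      rw [Finset.mem_filter] at hz ⊢
      rw [pow_succ, ← hσ, hN, ← map_mul, hτ, ← pow_succ, hz.2, map_one]
      simp) (q + 1) fun c _ => by
      rcases ((Finset.univ.filter fun z : K => z ^ (Q + 1) = 1).filter
        fun z => Algebra.norm F z = c).eq_empty_or_nonempty with h0 | ⟨z, hz⟩
      · simp [h0]
      refine le_trans (Finset.card_le_card (t := (Finset.univ.filter fun c : F =>
        c ^ (q + 1) = 1).image (· • z)) fun y hy => ?_) (Finset.card_image_le.trans c2.le)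
      simp only [Finset.mem_filter, Finset.mem_univ, true_and, pow_succ, ← hτ] at hz hy
      have hz0 : z ≠ 0 := by rintro rfl; simp at hz
      have h1 : τ (y / z) * (y / z) = 1 := by rw [map_div₀, div_mul_div_comm, hy.1, hz.1, div_one]
      obtain ⟨a, ha⟩ := Submodule.mem_span_singleton.1 (hcon _ h1 (by
        rw [div_eq_mul_inv, map_mul, Algebra.norm_inv, hy.2, ← hz.2,
          mul_inv_cancel₀ (Algebra.norm_ne_zero_iff.2 hz0)]))
      refine Finset.mem_image.2 ⟨a, ?_, ?_⟩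
      · rw [← ha, h.smul, map_one, smul_mul_smul_comm, mul_one] at h1
        simpa [pow_succ, ← hσ, h.l1] using congrArg l h1
      · rw [← one_mul z, ← smul_mul_assoc, ha, div_mul_cancel₀ _ hz0]
  rw [c1, c2, hQ'] at c3
  nlinarith

/-- `GU_{n/r}(q^r).r ∩ SU_n(q)` is maximal in `SU_n(q)` for `r < n` (`SU_6(2)` is left out). -/
theorem isMaximalIn_su_ext {F : Type u} [Field F] [Fintype F] {q : ℕ} (hF : Fintype.card F = q ^ 2)
    {n r : ℕ} (hr : r.Prime) (hr2 : r ≠ 2) (hrn : r < n) (hex : n = 6 → q ≠ 2)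
    (K₀ : Subalgebra F (Matrix (Fin n) (Fin n) F)) (hK : Cfsg.Geo.IsFieldSubalgebra r K₀)
    (hac : Cfsg.Geo.IsAdjointClosedFor (Cfsg.hermForm n F q) K₀) :
    Cfsg.Geo.IsMaximalIn (Cfsg.GU n F q ⊓ Cfsg.Geo.specialLinear (Fin n) F)
      (Cfsg.Geo.subalgebraNormalizer K₀ ⊓ (Cfsg.GU n F q ⊓ Cfsg.Geo.specialLinear (Fin n) F)) := by
  have hH := uPQ_isHerm hF n
  have hP := uPQ_nondeg hF n
  have h3 : 3 ≤ r := by have := hr.two_le; omega
  have : Nonempty (Fin n) := ⟨⟨0, by omega⟩⟩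
  refine with_ext_field hK fun K _ _ _ _ _ hrK hdim hmem hmem' hN => ?_
  have hfd' : FiniteDimensional K (Fin n → F) := Module.Finite.of_finite
  rw [Fintype.card_fin] at hdim
  have hd : 2 ≤ finrank K (Fin n → F) := by
    by_contra h0
    have := Nat.mul_le_mul_left r (show finrank K (Fin n → F) ≤ 1 by omega)
    omega
  obtain ⟨τ, l, Q, hi, hH', hQ, hPQ⟩ := exists_uext (K := K) hH hP fun k => by
    obtain ⟨a, ha, h1⟩ := hmem k
    obtain ⟨a', ha', h2⟩ := hac a ha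
    obtain ⟨k', h4⟩ := hmem' a' ha'
    refine ⟨k', fun u v => ?_⟩
    rw [← hH.conj, ← hH.conj (k' • v), h1, h4, uPQ_B, uPQ_B, h2]
  have hdata : ∀ X : Subgroup ((Fin n → F) ≃ₗ[F] (Fin n → F)), X ≤ SUV (uPQ hF n) →
      (∀ g ∈ SUV (uPQ hF n), SemiK K g → g ∈ X) → UExt (uPQ hF n) Q l X := fun X hX hM =>
    ⟨hi, hH, hP, hH', hQ, hPQ, fun g hg => (hX hg).1, fun t ht hd => hM _
      ⟨(hH.isIso_iff _).2 fun u v => by rw [hPQ, hPQ]; exact congrArg l (ht.B_eq u v),
        mem_SLV.2 ((LinearMap.det_restrictScalars (f := (t : (Fin n → F) →ₗ[K] (Fin n → F)))).trans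
          hd)⟩ (semiK_restrict t)⟩
  refine isMaximalIn_su hF (by nlinarith) _ (SemiK K) (fun g _ => hN g _ (toEquiv_apply g))
    ((hdata _ le_rfl fun g hg _ => hg).exists_not_semiK (by omega) (by simp; omega))
    fun X hX hM g hg hgs => (hdata X hX hM).tfOn_top hF (fun _ => rfl) (hrK ▸ hr) (hrK ▸ hr2) hd
      ?_ hg hgs
  by_cases h4 : 3 ≤ finrank K (Fin n → F)
  · exact Or.inl h4
  refine Or.inr (hi.exists_norm_one hF (fun _ => rfl) ?_)
  have hq := Unitary.two_le_q hF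
  rw [hrK]
  by_cases h5 : q = 2
  · subst h5
    have h6 : r ≠ 3 := by rintro rfl; exact hex (by omega) rfl
    have := Nat.pow_le_pow_right (show 0 < 2 by omega) (show 4 ≤ r by omega)
    omega
  · have := Nat.pow_le_pow_right (show 0 < q by omega) h3
    have h6 : 3 ≤ q := by omega
    nlinarith [Nat.mul_le_mul_right (q * q) h6]

end CfsgLib.SUMax
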