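import Mathlib
import Cfsg.Agent.Lib.SUMax.Ext
import Cfsg.Agent.Lib.ClMax.TenBasic

/-!
Overgroups of the stabiliser of a tensor decomposition of a unitary space: the case in which a
transvection is produced.
-/

set_option autoImplicit false

namespace CfsgLib.SUMax

open CfsgLib.Forms CfsgLib.ClMax CfsgLib.ClMax.Ten CfsgLib.RootMax Module

variable {F U W V : Type*} [Field F] {σ : F →+* F} [AddCommGroup U] [Module F U] [AddCommGroup W]
  [Module F W] [AddCommGroup V] [Module F V] {τ : U →ₗ[F] W →ₗ[F] V}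

theorem det_kron [FiniteDimensional F U] [FiniteDimensional F W] (h : IsTensorProduct τ)
    (α : U ≃ₗ[F] U) (β : W ≃ₗ[F] W) : LinearMap.det (kron h α β : V →ₗ[F] V) =
      LinearMap.det (α : U →ₗ[F] U) ^ finrank F W * LinearMap.det (β : W →ₗ[F] W) ^ finrank F U := by
  classical
  have e : (kron h α β : V →ₗ[F] V) = (h.equiv : _ →ₗ[F] V) ∘ₗ
      TensorProduct.map (α : U →ₗ[F] U) (β : W →ₗ[F] W) ∘ₗ (h.equiv.symm : V →ₗ[F] _) :=
    ext h fun u w => by simp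
  rw [e, LinearMap.det_conj, ← LinearMap.det_toMatrix ((finBasis F U).tensorProduct (finBasis F W)),
    TensorProduct.toMatrix_map, Matrix.det_kronecker]
  simp

theorem herm_ext {P : PQ σ U} (hP : P.Nondeg) {a b : U} (h : ∀ u, P.B u a = P.B u b) : a = b :=
  sub_eq_zero.1 (hP _ fun u => P.B_eq_zero_comm.1 (by rw [map_sub, h, sub_self]))

theorem exists_iso {P : PQ σ U} (hH : P.IsHerm) (h : 2 ≤ finrank F U) :
    ∃ x, x ≠ 0 ∧ P.B x x = 0 :=
  let ⟨x, _, h0, hx⟩ := herm_exists_sing hH (Z := ⊤) (by rwa [finrank_top]); ⟨x, h0, hx.self_eq⟩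

theorem exists_iso_orth [FiniteDimensional F U] {P : PQ σ U} (hH : P.IsHerm) (hP : P.Nondeg)
    (h : 4 ≤ finrank F U) (x y : U) : ∃ z, z ≠ 0 ∧ P.B z z = 0 ∧ P.B x z = 0 ∧ P.B y z = 0 := by
  have h1 := P.finrank_perp hP (Submodule.span F {x, y})
  have h2 : finrank F (Submodule.span F {x, y}) ≤ 2 := by
    classical
    exact (finrank_span_le_card (R := F) ({x, y} : Set U)).trans (by
      rw [Set.toFinset_insert, Set.toFinset_singleton]; exact Finset.card_le_two)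
  obtain ⟨z, hz, h0, hs⟩ := herm_exists_sing hH (Z := P.perp (Submodule.span F {x, y})) (by omega)
  exact ⟨z, h0, hs.self_eq, hz x (Submodule.subset_span (by simp)),
    hz y (Submodule.subset_span (by simp))⟩

/-- A linear map fixing every isotropic point is a scalar. -/
theorem scalar_of_iso {P : PQ σ U} (hH : P.IsHerm) (hP : P.Nondeg) (h : 2 ≤ finrank F U)
    {m : End F U} (hm : ∀ y, P.B y y = 0 → m y ∈ Submodule.span F {y}) :
    ∃ c : F, ∀ u, m u = c • u := by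
  have key : ∀ x y, P.B x x = 0 → P.B y y = 0 → P.B x y ≠ 0 → ∀ c : F, m x = c • x →
      m y = c • y := by
    intro x y hx hy hxy c hc
    obtain ⟨δ, hδ0, hδ⟩ := hH.exists_trace_zero
    have hyx : P.B y x ≠ 0 := fun h => hxy (P.B_eq_zero_comm.1 h)
    obtain ⟨c', hc'⟩ := Submodule.mem_span_singleton.1 (hm y hy)
    obtain ⟨c'', hc''⟩ := Submodule.mem_span_singleton.1 (hm _ (iso_sub hH hx
      (c := δ / P.B y x) (v := y) (by rw [div_mul_cancel₀ _ hyx, hδ, hy])))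
    rw [map_sub, map_smul, hc, ← hc'] at hc''
    have h1 := congrArg (P.B x) hc''
    have h2 := congrArg (P.B y) hc''
    simp only [map_sub, map_smul, hx, hy, smul_eq_mul, div_mul_cancel₀ _ hyx] at h1 h2
    have h3 : c'' = c' := mul_right_cancel₀ hxy (by linear_combination h1)
    have h4 : c'' = c := mul_right_cancel₀ hδ0 (by
      have := div_mul_cancel₀ δ hyx
      linear_combination -h2 + c * this)
    rw [← hc', ← h3, h4]
  obtain ⟨x, hx0, hx⟩ := exists_iso hH h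
  obtain ⟨c, hc⟩ := Submodule.mem_span_singleton.1 (hm x hx)
  refine ⟨c, iso_induction hH hP hx hx0 (fun y hy => ?_) fun v w h1 h2 => by
    rw [map_add, h1, h2, smul_add]⟩
  by_cases hy0 : y = 0
  · simp [hy0]
  obtain ⟨e, he, h1, h2⟩ := exists_iso_not_orth hH hP hx hx0 hy hy0
  exact key e y he hy h2 c (key x e hx he (fun h => h1 (P.B_eq_zero_comm.1 h)) c hc.symm)

/-- An overgroup in the unitary group of the stabiliser of a tensor decomposition. -/
structure UTen (P₁ : PQ σ U) (P₂ : PQ σ W) (P : PQ σ V) (h : IsTensorProduct τ)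
    (X : Subgroup (V ≃ₗ[F] V)) : Prop where
  h₁ : P₁.IsHerm
  n₁ : P₁.Nondeg
  h₂ : P₂.IsHerm
  n₂ : P₂.Nondeg
  hH : P.IsHerm
  hP : P.Nondeg
  eq : ∀ u w u' w', P.B (τ u w) (τ u' w') = P₁.B u u' * P₂.B w w'
  ha : 2 ≤ finrank F U
  hab : finrank F U < finrank F W
  hb : 4 ≤ finrank F W
  hX : X ≤ P.isom
  hK : ∀ g ∈ Kron τ, g ∈ SUV P → g ∈ X

namespace UTen

variable {P₁ : PQ σ U} {P₂ : PQ σ W} {P : PQ σ V} {h : IsTensorProduct τ}
  {X : Subgroup (V ≃ₗ[F] V)} (H : UTen P₁ P₂ P h X)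
include H

theorem B_tau (u : U) (z : W) (v : V) : P.B (τ u z) v = P₁.B u (cR h (P₂.B z) v) := by
  induction v using h.inductionOn with
  | zero => simp
  | tmul u' w' => simp [H.eq, mul_comm]
  | add a b ha hb => simp [ha, hb]

theorem isIso {g : V ≃ₗ[F] V} (e : ∀ u w u' w', P.B (g (τ u w)) (g (τ u' w')) =
    P.B (τ u w) (τ u' w')) : P.IsIso g := by
  refine (H.hH.isIso_iff _).2 fun v v' => ?_
  induction v using h.inductionOn with
  | zero => simp
  | add a b ha hb => simp [ha, hb]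
  | tmul u w =>
    induction v' using h.inductionOn with
    | zero => simp
    | add a b ha hb => simp [ha, hb]
    | tmul u' w' => exact e u w u' w'

variable [FiniteDimensional F U] [FiniteDimensional F W]

theorem kron_mem {α : U ≃ₗ[F] U} {β : W ≃ₗ[F] W} (hα : α ∈ SUV P₁) (hβ : β ∈ SUV P₂) :
    kron h α β ∈ X :=
  H.hK _ (Ten.kron_mem h α β) ⟨H.isIso fun u w u' w' => by
    rw [kron_apply, kron_apply, H.eq, H.eq, hα.1.B_eq, hβ.1.B_eq],
    mem_SLV.2 (by rw [det_kron, mem_SLV.1 hα.2, mem_SLV.1 hβ.2]; simp)⟩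

theorem left {α : U ≃ₗ[F] U} (hα : α ∈ SUV P₁) : ∃ g ∈ X, ∀ u w, g (τ u w) = τ (α u) w :=
  ⟨_, H.kron_mem hα (SUV P₂).one_mem, fun u w => kron_apply h α 1 u w⟩

theorem right {β : W ≃ₗ[F] W} (hβ : β ∈ SUV P₂) : ∃ g ∈ X, ∀ u w, g (τ u w) = τ u (β w) :=
  ⟨_, H.kron_mem (SUV P₁).one_mem hβ, fun u w => kron_apply h 1 β u w⟩

theorem exists_rt {x c : W} {e : F} (hx : P₂.B x x = 0) (hc : P₂.B x c = 0)
    (he : e + σ e = P₂.B c c) : ∃ g ∈ X, ∀ v, g v = v +
      τ (cR h (P₂.B c) v - e • cR h (P₂.B x) v) x - τ (cR h (P₂.B x) v) c := by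
  obtain ⟨β, hβ, e1⟩ := exists_rt_SUV H.h₂ hx hc he
  obtain ⟨g, hg, e2⟩ := H.right hβ
  refine ⟨g, hg, fun v => ?_⟩
  induction v using h.inductionOn with
  | zero => simp
  | add a b ha hb => simp only [map_add, ha, hb, smul_add, map_sub, LinearMap.sub_apply,
      LinearMap.add_apply]; abel
  | tmul u w =>
    simp only [e2, e1, map_add, map_sub, map_smul, cR_apply, LinearMap.sub_apply,
      LinearMap.smul_apply]
    module

theorem exists_tv {x : W} {d : F} (hx : P₂.B x x = 0) (hd : d + σ d = 0) :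
    ∃ g ∈ X, ∀ v, g v = v + τ (d • cR h (P₂.B x) v) x := by
  obtain ⟨g, hg, e⟩ := H.exists_rt (c := 0) (e := -d) hx (by simp)
    (by simp only [map_neg, map_zero]; linear_combination -hd)
  exact ⟨g, hg, fun v => by simp [e]⟩

theorem exists_scale {x : W} (hx : P₂.B x x = 0) (hx0 : x ≠ 0) {s : F} (hs : s ≠ 0) :
    ∃ g ∈ X, ∀ u, g (τ u x) = s • τ u x := by
  obtain ⟨β, hβ, -, e⟩ := exists_su_move H.h₂ H.n₂ (W := ⊤) (by simp [P₂.perp_top H.n₂])
    (w := x) (w' := s • x) trivial trivial hx0 (smul_ne_zero hs hx0) (by simp [hx])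
    (Or.inl (by have := H.hb; rw [finrank_top]; omega))
  obtain ⟨g, hg, e2⟩ := H.right hβ
  exact ⟨g, hg, fun u => by rw [e2, e, map_smul]⟩

omit [FiniteDimensional F U] in
theorem exists_eq_tau {x : W} (hx0 : x ≠ 0) {v : V}
    (hv : ∀ u c, P₂.B x c = 0 → P.B (τ u c) v = 0) : ∃ u, v = τ u x := by
  refine exists_eq_of_cR h hx0 fun θ hθ => ?_
  obtain ⟨c, rfl⟩ := P₂.exists_B_eq H.n₂ θ
  exact herm_ext H.n₁ fun u => by rw [← H.B_tau, hv u c (P₂.B_eq_zero_comm.1 hθ), map_zero]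

omit [FiniteDimensional F U] in
/-- An isometry fixing the orthogonal complement of `U ⊗ x` pointwise. -/
theorem exists_eq_of_fix {x : W} (hx : P₂.B x x = 0) (hx0 : x ≠ 0) {g : V ≃ₗ[F] V}
    (hg : g ∈ X) (hf : ∀ v, cR h (P₂.B x) v = 0 → g v = v) :
    ∃ m : End F U, (∀ u u', P₁.B (m u) u' = -P₁.B u (m u')) ∧
      ∀ v, g v = v + τ (m (cR h (P₂.B x) v)) x := by
  obtain ⟨x', hx', hxx'⟩ := exists_iso_partner H.h₂ H.n₂ hx hx0
  have hx'x : P₂.B x' x = 1 := by rw [← H.h₂.conj, hxx', map_one]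
  let m : End F U := cR h (P₂.B x') ∘ₗ ((g : V →ₗ[F] V) - LinearMap.id) ∘ₗ τ.flip x'
  have hm : ∀ u, g (τ u x') = τ u x' + τ (m u) x := fun u => by
    obtain ⟨y, hy⟩ := H.exists_eq_tau hx0 (v := g (τ u x') - τ u x') fun u' c hc => by
      rw [map_sub, ← hf (τ u' c) (by simp [hc]), (H.hX hg).B_eq, hf (τ u' c) (by simp [hc]),
        sub_self]
    have : m u = y := by
      change cR h (P₂.B x') (g (τ u x') - τ u x') = y
      rw [hy]; simp [hx'x]
    rw [this, ← hy]; abel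
  refine ⟨m, fun u u' => ?_, fun v => ?_⟩
  · have := (H.hX hg).B_eq (τ u x') (τ u' x')
    simp only [hm, map_add, LinearMap.add_apply, H.eq, hx, hx', hxx', hx'x] at this
    linear_combination this
  · have := hf (v - τ (cR h (P₂.B x) v) x') (by simp [hxx'])
    rw [map_sub, hm] at this
    linear_combination (norm := module) this

theorem tf_of_tv {y : U} {x : W} (hx : P₂.B x x = 0) (hx0 : x ≠ 0) {e : F} (he0 : e ≠ 0)
    (he : e + σ e = 0) (h1 : Tv P X (τ y x) e) : TF P X (τ y x) := by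
  intro d hd
  obtain ⟨s, hs⟩ := H.hH.norm_surj (d / e) (by
    rw [map_div₀, eq_neg_of_add_eq_zero_right hd, eq_neg_of_add_eq_zero_right he, neg_div_neg_eq])
  by_cases hs0 : s = 0
  · rw [hs0, mul_zero, eq_comm, div_eq_zero_iff, or_iff_left he0] at hs
    exact hs ▸ tv_zero _
  obtain ⟨g, hg, e1⟩ := H.exists_scale hx hx0 hs0
  have := h1.conj hg (H.hX hg)
  rw [e1, tv_smul, hs, div_mul_cancel₀ _ he0] at this
  exact this

theorem tf_of_rt_orth {y p : U} {x : W} (hy : P₁.B y y = 0) (hx : P₂.B x x = 0)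
    (hp : p ∉ Submodule.span F {y}) (hyp : P₁.B y p = 0) {c : F}
    (h1 : Rt P X (τ y x) (τ p x) c) : TF P X (τ y x) := by
  intro d hd
  obtain ⟨t, rfl⟩ := exists_sub_conj H.hH hd
  obtain ⟨a, ha, ha'⟩ := P₁.exists_dual_vec H.n₁ _ hp
  have h2 := ha' y (Submodule.mem_span_singleton_self y)
  obtain ⟨e, he⟩ := exists_param H.h₁ (σ t • a)
  obtain ⟨α, hα, e1⟩ := exists_rt_SUV H.h₁ hy (by simp [P₁.B_eq_zero_comm.1 h2]) he
  obtain ⟨g, hg, e2⟩ := H.left hα
  have h3 := h1.conj hg (H.hX hg)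
  simp only [e2, e1, hy, hyp, h2, ha, P₁.B_smul_left, P₁.σσ, mul_zero, zero_smul, sub_zero,
    add_zero, mul_one, map_add, map_smul, LinearMap.add_apply, LinearMap.smul_apply] at h3
  exact (rt_div H.hH h1 ((rt_shift H.hH).1 h3) (by simp [H.eq, hx]) (by simp [H.eq, hx])).congr rfl
    (by ring)

theorem tf_of_rt_three (h3 : 3 ≤ finrank F U) {y p : U} {x : W} (hy : P₁.B y y = 0) (hy0 : y ≠ 0)
    (hx : P₂.B x x = 0) (hyp : P₁.B y p ≠ 0) {c : F} (h1 : Rt P X (τ y x) (τ p x) c) :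
    TF P X (τ y x) := by
  obtain ⟨a, ha, ha'⟩ := exists_ker_not_mem h3 (P₁.B y) hy0
  obtain ⟨e, he⟩ := exists_param H.h₁ a
  obtain ⟨α, hα, e1⟩ := exists_rt_SUV H.h₁ hy ha he
  obtain ⟨g, hg, e2⟩ := H.left hα
  have h2 := h1.conj hg (H.hX hg)
  rw [e2, e2, show α y = y by simp [e1, hy, P₁.B_eq_zero_comm.1 ha]] at h2
  have h4 := rt_sub H.hH h2 h1 (by simp [H.eq, hx]) (by simp [H.eq, hx]) (by simp [H.eq, hx])
  rw [← LinearMap.sub_apply, ← map_sub] at h4
  refine H.tf_of_rt_orth hy hx (fun h5 => ha' ?_) (by simp [e1, hy, ha]) h4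
  have h6 := Submodule.sub_mem _ (Submodule.smul_mem _ (P₁.B a p - e * P₁.B y p)
    (Submodule.mem_span_singleton_self y)) h5
  rw [e1, show (P₁.B a p - e * P₁.B y p) • y - (p + (P₁.B a p - e * P₁.B y p) • y -
    P₁.B y p • a - p) = P₁.B y p • a by abel] at h6
  exact (Submodule.smul_mem_iff _ hyp).1 h6

theorem exists_tf (hq : (∃ c : F, σ c = c ∧ c ≠ 0 ∧ c ≠ 1) ∨ 3 ≤ finrank F U) {x : W}
    (hx : P₂.B x x = 0) (hx0 : x ≠ 0) {g : V ≃ₗ[F] V} (hg : g ∈ X)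
    (hf : ∀ v, cR h (P₂.B x) v = 0 → g v = v)
    (hns : ¬ ∃ d : F, ∀ v, g v = v + τ (d • cR h (P₂.B x) v) x) :
    ∃ y, y ≠ 0 ∧ P₁.B y y = 0 ∧ TF P X (τ y x) := by
  obtain ⟨m, hm, e⟩ := H.exists_eq_of_fix hx hx0 hg hf
  obtain ⟨y, hy, hy'⟩ : ∃ y, P₁.B y y = 0 ∧ m y ∉ Submodule.span F {y} := by
    by_contra hcon
    push Not at hcon
    obtain ⟨c, hc⟩ := scalar_of_iso H.h₁ H.n₁ H.ha hcon
    exact hns ⟨c, fun v => by rw [e, hc]⟩
  have hy0 : y ≠ 0 := by rintro rfl; simp at hy'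
  have hrt : ∀ d, d + σ d = 0 → Rt P X (τ y x) (τ (d • m y) x) (d ^ 2 * P₁.B y (m y)) := by
    intro d hd
    obtain ⟨α, hα, e1⟩ := exists_tv_SUV H.h₁ hy hd
    obtain ⟨k, hk, e2⟩ := H.left hα
    have e3 : ∀ v, cR h (P₂.B x) (k⁻¹ v) = cR h (P₂.B x) v -
        (d * P₁.B y (cR h (P₂.B x) v)) • y := fun v => by
      obtain ⟨v, rfl⟩ := k.surjective v
      rw [inv_apply_apply]
      induction v using h.inductionOn with
      | zero => simp
      | add a b ha hb => simp only [map_add, ha, hb]; module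
      | tmul u w => simp [e2, e1, hy]; module
    have e4 : ∀ v, g⁻¹ v = v - τ (m (cR h (P₂.B x) v)) x := fun v => g.injective (by
      rw [apply_inv_apply, e]; simp [hx])
    refine ⟨k * g * k⁻¹ * g⁻¹, X.mul_mem (X.mul_mem (X.mul_mem hk hg) (X.inv_mem hk))
      (X.inv_mem hg), fun v => ?_⟩
    have h1 : P₁.B (m y) (cR h (P₂.B x) v) = -P₁.B y (m (cR h (P₂.B x) v)) := hm _ _
    rw [LinearEquiv.mul_apply, LinearEquiv.mul_apply, LinearEquiv.mul_apply, e, map_add,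
      apply_inv_apply, e2, e3, e1, e4, rt_herm H.hH, H.B_tau, H.B_tau]
    simp only [map_add, map_sub, map_smul, cR_apply, hx, zero_smul, sub_zero, LinearMap.add_apply,
      LinearMap.sub_apply, LinearMap.smul_apply, P₁.B_smul_left, h1, smul_eq_mul,
      eq_neg_of_add_eq_zero_right hd]
    module
  refine ⟨y, hy0, hy, ?_⟩
  obtain ⟨δ, hδ0, hδ⟩ := H.hH.exists_trace_zero
  by_cases hκ : P₁.B y (m y) = 0
  · exact H.tf_of_rt_orth hy hx (fun h1 => hy' ((Submodule.smul_mem_iff _ hδ0).1 h1))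
      (by simp [hκ]) (hrt δ hδ)
  rcases hq with ⟨c, hc, hc0, hc1⟩ | hq
  swap
  · exact H.tf_of_rt_three hq hy hy0 hx (by simp [hκ, hδ0]) (hrt δ hδ)
  obtain ⟨s, hs⟩ := H.hH.norm_surj c hc
  have hs0 : s ≠ 0 := by rintro rfl; exact hc0 (by simpa using hs.symm)
  obtain ⟨k, hk, e1⟩ := H.exists_scale hx hx0 hs0
  have h1 := (hrt δ hδ).conj hk (H.hX hk)
  rw [e1, e1, rt_smul H.hH, smul_smul, hs, ← LinearMap.smul_apply, ← map_smul, smul_smul] at h1
  have h2 := rt_div H.hH h1 (hrt (c * δ) (by rw [map_mul, hc]; linear_combination c * hδ))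
    (by simp [H.eq, hx]) (by simp [H.eq, hx])
  refine H.tf_of_tv hx hx0 (e := c * (c - 1) * δ ^ 2 * P₁.B y (m y))
    (by simp [hc0, sub_ne_zero.2 hc1, hδ0, hκ]) ?_ (h2.congr rfl (by ring))
  simp only [map_mul, map_sub, map_pow, map_one, hc, H.h₁.conj, hm,
    eq_neg_of_add_eq_zero_right hδ]
  ring

theorem tf_iso {y : U} {x : W} (hy : P₁.B y y = 0) (hy0 : y ≠ 0) (hx : P₂.B x x = 0) (hx0 : x ≠ 0)
    (h1 : TF P X (τ y x)) {y' : U} {x' : W} (hy' : P₁.B y' y' = 0) (hx' : P₂.B x' x' = 0) :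
    TF P X (τ y' x') := by
  by_cases hy'0 : y' = 0
  · simpa [hy'0] using tf_zero
  by_cases hx'0 : x' = 0
  · simpa [hx'0] using tf_zero
  obtain ⟨α, hα, c, hc⟩ := exists_suv_trans H.h₁ H.n₁ hy hy0 hy' hy'0
  obtain ⟨β, hβ, d, hd⟩ := exists_suv_trans H.h₂ H.n₂ hx hx0 hx' hx'0
  have h2 := h1.conj (H.kron_mem hα hβ) (H.hX (H.kron_mem hα hβ))
  have hc0 : c ≠ 0 := by rintro rfl; exact hy0 (by simpa using hc)
  have hd0 : d ≠ 0 := by rintro rfl; exact hx0 (by simpa using hd)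
  rw [kron_apply, hc, hd, map_smul, map_smul, LinearMap.smul_apply] at h2
  exact (h2.of_smul hd0).of_smul hc0

omit [FiniteDimensional F U] in
theorem tf_pure (h1 : ∀ y x, P₁.B y y = 0 → P₂.B x x = 0 → TF P X (τ y x)) (v : U) {x : W}
    (hx : P₂.B x x = 0) : TF P X (τ v x) := by
  by_cases hv : P₁.B v v = 0
  · exact h1 v x hv hx
  by_cases hx0 : x = 0
  · simpa [hx0] using tf_zero
  -- a hyperbolic pair orthogonal to `x`
  obtain ⟨x', -, hxx'⟩ := exists_iso_partner H.h₂ H.n₂ hx hx0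
  obtain ⟨z, hz0, hz, hxz, hx'z⟩ := exists_iso_orth H.h₂ H.n₂ H.hb x x'
  obtain ⟨c, hxc, hc, hzc⟩ : ∃ c, P₂.B x c = 0 ∧ P₂.B c c = 0 ∧ P₂.B z c ≠ 0 := by
    have hzx : z ∉ Submodule.span F {x} := fun h => by
      obtain ⟨t, rfl⟩ := Submodule.mem_span_singleton.1 h
      simp [← H.h₂.conj x x', hxx'] at hx'z
      exact hz0 (by simp [hx'z])
    obtain ⟨a, ha, ha'⟩ := P₂.exists_dual_vec H.n₂ _ hzx
    obtain ⟨t, ht⟩ := exists_param H.h₂ a
    refine ⟨a - t • z, ?_, iso_sub H.h₂ hz (by rwa [ha, mul_one]), ?_⟩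
    · simp [hxz, P₂.B_eq_zero_comm.1 (ha' x (Submodule.mem_span_singleton_self x))]
    · simp [hz, ← H.h₂.conj a z, ha]
  -- decomposition of `v` into two isotropic vectors
  obtain ⟨y, y₂, hy, hy₂, hyy, rfl⟩ : ∃ y y₂, P₁.B y y = 0 ∧ P₁.B y₂ y₂ = 0 ∧ P₁.B y₂ y ≠ 0 ∧
      v = y + y₂ := by
    obtain ⟨e, he0, he⟩ := exists_iso H.h₁ H.ha
    obtain ⟨y, hy, hvy⟩ : ∃ y, P₁.B y y = 0 ∧ P₁.B v y ≠ 0 := by
      by_contra hcon
      push Not at hcon
      exact hv (iso_induction H.h₁ H.n₁ (p := fun y => P₁.B v y = 0) he he0 hcon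
        (fun a b h1 h2 => by rw [map_add, h1, h2, add_zero]) v)
    obtain ⟨t, ht⟩ := exists_param H.h₁ v
    have ht0 : t ≠ 0 := by rintro rfl; exact hv (by simpa using ht.symm)
    refine ⟨(t / P₁.B v y) • y, v - (t / P₁.B v y) • y, by simp [hy],
      iso_sub H.h₁ hy (by rwa [div_mul_cancel₀ _ hvy]), by simp [hy, ht0, hvy], by abel⟩
  have hp : P.B (τ y x) (τ y x) = 0 := by simp [H.eq, hx]
  have hs := (H.hH.sing_iff _).2 hp
  obtain ⟨δ, hδ0, hδ⟩ := H.hH.exists_trace_zero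
  have A1 : ∀ t : F, InA P X (τ y x) (t • τ y c) := fun t => by
    have h2 := rt_of_tv_add H.hH (u := τ y x) (w := τ y ((-t / δ) • c)) (by simp [H.eq, hy])
      (by simp [H.eq, hy]) hδ (by
        rw [← map_add]
        exact h1 _ _ hy (by simp [hx, hc, hxc, P₂.B_eq_zero_comm.1 hxc]) δ hδ)
      (h1 _ _ hy (by simp [hc]) δ hδ)
    rw [map_smul, smul_smul, show -δ * (-t / δ) = t by field_simp] at h2
    exact (h1 y x hy hx).inA H.hH hp (by simp [H.eq, hy])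
      (by simp [H.eq, hy]; linear_combination -hδ) h2
  have A2 : ∀ z, P₂.B z z = 0 → P₂.B x z = 0 → P₂.B z c ≠ 0 → ∀ t : F,
      InA P X (τ y x) (t • τ y₂ z) := fun z hz hxz hzc t => by
    obtain ⟨g, hg, e⟩ := h1 y₂ z hy₂ hz δ hδ
    have h2 := (A1 (t / (δ * P₁.B y₂ y * P₂.B z c))).conj hg (H.hX hg)
    rw [show g (τ y x) = τ y x by simp [e, H.eq, P₂.B_eq_zero_comm.1 hxz]] at h2
    convert h2.sub hs (A1 (t / (δ * P₁.B y₂ y * P₂.B z c))) using 1
    rw [e, P.B_smul_right, H.eq, add_sub_cancel_left]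
    congr 1
    field_simp
  intro d hd
  have h2 := (A2 (z + x) (by simp [hx, hz, hxz, P₂.B_eq_zero_comm.1 hxz]) (by simp [hx, hxz])
    (by simpa [hxc] using hzc) (-d)).sub hs (A2 z hz hxz hzc (-d))
  rw [map_add, smul_add, add_sub_cancel_left, inA_iff H.hH] at h2
  rw [map_add, LinearMap.add_apply]
  exact tv_add_of_rt H.hH (by simp [H.eq, hx]) (by simp [H.eq, hx]) hd
    (h2.2 _ (by simp [H.eq, hx]; linear_combination -hd)) (h1 y₂ x hy₂ hx d hd)

theorem tfOn_top (h1 : ∀ y x, P₂.B x x = 0 → TF P X (τ y x)) : TFOn P X ⊤ := by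
  have := finiteDimensional h
  obtain ⟨x, hx0, hx⟩ := exists_iso H.h₂ (by have := H.hb; omega)
  obtain ⟨y, hy0, hy⟩ := exists_iso H.h₁ H.ha
  obtain ⟨y', -, hyy'⟩ := exists_iso_partner H.h₁ H.n₁ hy hy0
  obtain ⟨u, -, hu⟩ := H.h₁.exists_nonisotropic ⊤ (x := y) (y := y') trivial trivial (by simp [hyy'])
  have hu0 := P₁.ne_zero_of_B_ne hu
  have hsp : ∀ Z : Submodule F V, (∀ y x, P₂.B x x = 0 → τ y x ∈ Z) → ∀ v, v ∈ Z := by
    intro Z hZ v
    induction v using h.inductionOn with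
    | zero => exact Z.zero_mem
    | add a b ha hb => exact Z.add_mem ha hb
    | tmul y w =>
      exact iso_induction H.h₂ H.n₂ (p := fun w => τ y w ∈ Z) hx hx0 (hZ y)
        (fun a b h1 h2 => by rw [map_add]; exact Z.add_mem h1 h2) w
  have hW : Disjoint (LinearMap.range (τ u)) (P.perp (LinearMap.range (τ u))) := by
    rw [P.disjoint_perp_iff]
    rintro _ ⟨w, rfl⟩ hw
    rw [H.n₂ w fun w' => by simpa [H.eq, hu] using hw _ ⟨w', rfl⟩, map_zero]
  have hd : finrank F (LinearMap.range (τ u)) = finrank F W :=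
    LinearMap.finrank_range_of_inj fun a b e => right_inj h hu0 e
  have hT : TFOn P X (LinearMap.range (τ u)) := by
    rintro _ ⟨w, rfl⟩ hw
    exact h1 u w (by simpa [H.eq, hu] using hw)
  have hb := H.hb
  obtain ⟨Z, h2, h3, h4, h5⟩ := exists_dichotomy H.hH H.hP H.hX (fun v hv => by
    by_contra hcon
    push Not at hcon
    exact hv (H.hP v (hsp (LinearMap.ker (P.B v)) fun y x hx =>
      hcon _ (by simp [H.eq, hx]) (h1 y x hx)))) hW (by omega) hT
    (trOn_of_tfOn H.hH hW (by omega) (Or.inl (by omega)) hT)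
  rwa [show Z = ⊤ from eq_top_iff.2 fun v _ => hsp Z (fun y x hx => ?_) v] at h4
  refine (h5 _ (by simp [H.eq, hx]) (h1 y x hx)).elim id fun h6 => ?_
  have h7 : τ u x ∈ Z := h2 ⟨x, rfl⟩
  rcases h5 _ (by simp [H.eq, hx]) (h1 (y + u) x hx) with h8 | h8
  · simpa using Z.sub_mem h8 h7
  · have h9 : τ u x = 0 := Submodule.disjoint_def.1 h3 _ h7 (by simpa using (P.perp Z).sub_mem h8 h6)
    by_cases hx0 : x = 0
    · simp [hx0]
    · exact absurd h9 (ne_zero h hu0 hx0)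

end UTen

end CfsgLib.SUMax
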