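import Mathlib
import Cfsg.Agent.Lib.SUMax.TenU

/-!
Overgroups of the stabiliser of a tensor decomposition of a unitary space: elements stabilising
`U ⊗ x` in the case in which no new central root elements occur.
-/

set_option autoImplicit false

namespace CfsgLib.SUMax

open CfsgLib.Forms CfsgLib.ClMax CfsgLib.ClMax.Ten CfsgLib.RootMax Module

variable {F U W V : Type*} [Field F] {σ : F →+* F} [AddCommGroup U] [Module F U] [AddCommGroup W]
  [Module F W] [AddCommGroup V] [Module F V] {τ : U →ₗ[F] W →ₗ[F] V}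

/-- Every element of `X` fixing `(U ⊗ x)^⊥` pointwise comes from a transvection of `W`. -/
def Zs (P₂ : PQ σ W) (h : IsTensorProduct τ) (X : Subgroup (V ≃ₗ[F] V)) : Prop :=
  ∀ x, P₂.B x x = 0 → x ≠ 0 → ∀ g ∈ X, (∀ v, cR h (P₂.B x) v = 0 → g v = v) →
    ∃ d : F, ∀ v, g v = v + τ (d • cR h (P₂.B x) v) x

theorem exists_B_ne {P : PQ σ U} (hP : P.Nondeg) (h : 2 ≤ finrank F U) (α : U ≃ₗ[F] U) :
    ∃ u u', P.B (α u) (α u') = 1 := by
  have : Nontrivial U := Module.nontrivial_of_finrank_pos (R := F) (by omega)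
  obtain ⟨u, hu⟩ := exists_ne (0 : U)
  obtain ⟨y, hy⟩ : ∃ y, P.B u y ≠ 0 := by
    by_contra h1
    push Not at h1
    exact hu (hP u h1)
  exact ⟨α.symm u, α.symm ((P.B u y)⁻¹ • y), by simp [hy]⟩

namespace UTen

variable {P₁ : PQ σ U} {P₂ : PQ σ W} {P : PQ σ V} {h : IsTensorProduct τ}
  {X : Subgroup (V ≃ₗ[F] V)} (H : UTen P₁ P₂ P h X) [FiniteDimensional F U]
  [FiniteDimensional F W] (hZ : Zs P₂ h X)
include H hZ

theorem eq_cR {x : W} (hx : P₂.B x x = 0) (hx0 : x ≠ 0) {t : V ≃ₗ[F] V} (ht : t ∈ X)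
    {χ : V →ₗ[F] U} (e : ∀ v, cR h (P₂.B x) v = 0 → t v = v + τ (χ v) x)
    (h0 : ∀ u, χ (τ u x) = 0) : ∃ c', ∀ c, P₂.B x c = 0 → ∀ u, χ (τ u c) = P₂.B c' c • u := by
  obtain ⟨x', -, hxx'⟩ := exists_iso_partner H.h₂ H.n₂ hx hx0
  have tL : ∀ u, t (τ u x) = τ u x := fun u => by simp [e (τ u x) (by simp [hx]), h0]
  have key : ∀ c, P₂.B x c = 0 → ∃ d : F, ∀ u u',
      P₁.B (χ (τ u' c)) u - P₁.B u' (χ (τ u c)) = d * P₁.B u' u := fun c hc => by
    have hcx := P₂.B_eq_zero_comm.1 hc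
    obtain ⟨a, ha⟩ := exists_param H.h₂ c
    obtain ⟨E, hE, e1⟩ := H.exists_rt hx hc ha
    obtain ⟨d, hd⟩ := hZ x hx hx0 ((E * t)⁻¹ * (t * E))
      (X.mul_mem (X.inv_mem (X.mul_mem hE ht)) (X.mul_mem ht hE)) fun v hv => by
        refine (E * t).injective ?_
        rw [LinearEquiv.mul_apply (E * t)⁻¹, apply_inv_apply, LinearEquiv.mul_apply,
          LinearEquiv.mul_apply, e v hv, e1, e1]
        simp only [map_add, hv, cR_apply, hx, hcx, zero_smul, smul_zero, map_zero,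
          LinearMap.zero_apply, sub_zero, add_zero, tL, e v hv]
    refine ⟨d, fun u u' => ?_⟩
    have h1 := congrArg (E * t) (hd (τ u x'))
    have h2 : cR h (P₂.B x) (t (τ u x')) = u := herm_ext H.n₁ fun y => by
      rw [← H.B_tau, ← tL, (H.hX ht).B_eq, H.eq, hxx', mul_one]
    rw [LinearEquiv.mul_apply (E * t)⁻¹, apply_inv_apply, LinearEquiv.mul_apply,
      LinearEquiv.mul_apply, e1, e1] at h1
    simp only [map_add, map_sub, cR_apply, hx, hcx, hxx', zero_smul, one_smul, add_zero, tL, h2,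
      e (τ u c) (by simp [hc]), LinearMap.sub_apply, map_smul, LinearMap.smul_apply,
      smul_zero] at h1
    have h3 : P₂.B c x' • u - cR h (P₂.B c) (t (τ u x')) - χ (τ u c) = d • u :=
      left_inj h hx0 (by
        simp only [map_sub, map_smul, LinearMap.sub_apply, LinearMap.smul_apply]
        linear_combination (norm := module) h1)
    have h4 := (H.hX ht).B_eq (τ u' c) (τ u x')
    rw [e _ (by simp [hc]), P.B_add_left, H.B_tau, H.B_tau, h2, H.eq] at h4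
    have h5 := congrArg (P₁.B u') h3
    simp only [map_sub, map_smul, smul_eq_mul] at h5
    linear_combination h5 + h4
  obtain ⟨u₀, u₁, hu⟩ := exists_B_ne H.n₁ H.ha 1
  simp only [LinearEquiv.coe_one, id_eq] at hu
  obtain ⟨c', hc'⟩ := P₂.exists_B_eq H.n₂ (P₁.B u₀ ∘ₗ χ ∘ₗ τ u₁)
  refine ⟨c', fun c hc u => ?_⟩
  obtain ⟨ω, hω⟩ := H.hH.exists_ne_conj
  obtain ⟨d, hd⟩ := key c hc
  obtain ⟨d', hd'⟩ := key (ω • c) (by simp [hc])
  have h1 : ∀ u, χ (τ u c) = ((d' - σ ω * d) / (σ ω - ω)) • u := fun u =>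
    herm_ext H.n₁ fun y => by
      have h2 := hd' u y
      have h3 := sub_ne_zero.2 hω
      simp only [map_smul, P₁.B_smul_left, smul_eq_mul] at h2 ⊢
      field_simp
      linear_combination h2 - σ ω * hd u y
  rw [hc']
  simp [h1, hu]

theorem exists_sim {x x' : W} (hx : P₂.B x x = 0) (hx0 : x ≠ 0) (hx' : P₂.B x' x' = 0)
    (hx'0 : x' ≠ 0) {g : V ≃ₗ[F] V} (hg : g ∈ X) {α : U ≃ₗ[F] U}
    (e : ∀ u, g (τ u x) = τ (α u) x') :
    ∃ ν : F, ν ≠ 0 ∧ σ ν = ν ∧ ∀ u u', P₁.B (α u) (α u') = ν * P₁.B u u' := by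
  obtain ⟨δ, hδ0, hδ⟩ := H.hH.exists_trace_zero
  obtain ⟨t, ht, e1⟩ := H.exists_tv hx hδ
  have h1 : ∀ u v, P₁.B (α u) (cR h (P₂.B x') (g v)) = P₁.B u (cR h (P₂.B x) v) := fun u v => by
    rw [← H.B_tau, ← e, (H.hX hg).B_eq, H.B_tau]
  obtain ⟨d, hd⟩ := hZ x' hx' hx'0 (g * t * g⁻¹)
    (X.mul_mem (X.mul_mem hg ht) (X.inv_mem hg)) fun v hv => by
      obtain ⟨v, rfl⟩ := g.surjective v
      have : cR h (P₂.B x) v = 0 := herm_ext H.n₁ fun u => by rw [← h1, hv]; simp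
      simp [e1, this]
  obtain ⟨y, -, hy⟩ := exists_iso_partner H.h₂ H.n₂ hx hx0
  have h2 : ∀ u u', P₁.B (α u) (α u') = d / δ * P₁.B u u' := fun u u' => by
    have h3 := hd (g (τ u' y))
    simp only [LinearEquiv.mul_apply, inv_apply_apply, e1, map_add, e, cR_apply, hy, one_smul,
      add_right_inj] at h3
    have h4 := congrArg (P₁.B (α u)) (left_inj h hx'0 h3)
    simp only [map_smul, h1, cR_apply, hy, one_smul, smul_eq_mul] at h4
    field_simp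
    linear_combination h4
  obtain ⟨u, u', hu⟩ := exists_B_ne H.n₁ H.ha α
  have h3 := h2 u u'
  have h4 := h2 u' u
  rw [← H.h₁.conj, hu, map_one, ← H.h₁.conj u] at h4
  have h5 := congrArg σ h3
  rw [hu, map_one, map_mul] at h5
  refine ⟨_, fun h0 => by simp [hu, h0] at h3, ?_, h2⟩
  refine mul_right_cancel₀ (b := σ (P₁.B u u')) (fun h0 => by simp [h0] at h4) (h5.symm.trans h4)

theorem map_orth {x x' : W} (hx : P₂.B x x = 0) (hx0 : x ≠ 0) (hx' : P₂.B x' x' = 0)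
    (hx'0 : x' ≠ 0) {g : V ≃ₗ[F] V} (hg : g ∈ X) {α : U ≃ₗ[F] U}
    (e : ∀ u, g (τ u x) = τ (α u) x') {c : W} (hc : P₂.B c c = 0) (hxc : P₂.B x c = 0) :
    ∃ c', ∀ u, g (τ u c) = τ (α u) c' := by
  by_cases hcx : c ∈ Submodule.span F {x}
  · obtain ⟨s, rfl⟩ := Submodule.mem_span_singleton.1 hcx
    exact ⟨s • x', fun u => by simp [e]⟩
  have hcx' := P₂.B_eq_zero_comm.1 hxc
  obtain ⟨ν, hν0, hν, hs⟩ := H.exists_sim hZ hx hx0 hx' hx'0 hg e
  have e' : ∀ u, g⁻¹ (τ u x') = τ (α.symm u) x := fun u => g.injective (by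
    rw [apply_inv_apply, e, α.apply_symm_apply])
  have h1 : ∀ v, cR h (P₂.B x') v = 0 → cR h (P₂.B x) (g⁻¹ v) = 0 := fun v hv =>
    herm_ext H.n₁ fun u => by
      rw [← H.B_tau, ← (H.hX hg).B_eq, apply_inv_apply, e, H.B_tau, hv]; simp
  let ρ : V →ₗ[F] U := cR h (P₂.B c) ∘ₗ (g⁻¹ : V ≃ₗ[F] V)
  have hρ : ∀ u v, P₁.B u (ρ v) = P.B (g (τ u c)) v := fun u v => by
    rw [← apply_inv_apply g v, (H.hX hg).B_eq, H.B_tau, apply_inv_apply]; rfl
  have hρ0 : ∀ u, ρ (τ u x') = 0 := fun u => by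
    change cR h (P₂.B c) (g⁻¹ _) = 0
    simp [e', hcx']
  obtain ⟨E, hE, e1⟩ := H.exists_rt hx hxc (e := 0) (by simp [hc])
  obtain ⟨c', hc'⟩ := H.eq_cR hZ hx' hx'0 (X.mul_mem (X.mul_mem hg hE) (X.inv_mem hg))
    (χ := (α : U →ₗ[F] U) ∘ₗ ρ) (fun v hv => by
      rw [LinearEquiv.mul_apply, LinearEquiv.mul_apply, e1, h1 v hv]
      simp [e, ρ]) (fun u => by simp [hρ0])
  simp only [LinearMap.comp_apply, LinearEquiv.coe_coe] at hc'
  obtain ⟨u₀, u₁, hu⟩ := exists_B_ne H.n₁ H.ha α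
  have hu0 : α u₀ ≠ 0 := by intro h0; simp [h0] at hu
  have h2 : P₂.B c' x' = 0 := by simpa [hρ0, hu0] using (hc' x' hx' (α u₀)).symm
  obtain ⟨y, -, hy⟩ := exists_iso_partner H.h₂ H.n₂ hx' hx'0
  have hy' : P₂.B y x' = 1 := by rw [← H.h₂.conj, hy, map_one]
  obtain ⟨z, rfl⟩ : ∃ z, c' = ν • z := ⟨ν⁻¹ • c', by simp [hν0]⟩
  simp only [P₂.B_smul_left, hν, mul_eq_zero, hν0, false_or] at hc' h2
  have h2' := P₂.B_eq_zero_comm.1 h2
  let γ : End F U := cR h (P₂.B y) ∘ₗ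
    ((g : V →ₗ[F] V) ∘ₗ τ.flip c - τ.flip z ∘ₗ (α : U →ₗ[F] U))
  have hγ : ∀ u, g (τ u c) = τ (α u) z + τ (γ u) x' := fun u => by
    obtain ⟨a, ha⟩ := H.exists_eq_tau hx'0 (v := g (τ u c) - τ (α u) z) fun u' w hw => by
      rw [P.B_eq_zero_comm, P.B_sub_left, ← hρ, H.eq]
      have h3 := hs u (ρ (τ u' w))
      rw [hc' w hw, map_smul, smul_eq_mul] at h3
      exact mul_left_cancel₀ hν0 (by linear_combination -h3)
    have : γ u = a := by
      change cR h (P₂.B y) (g (τ u c) - τ (α u) z) = a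
      rw [ha]; simp [hy']
    rw [this, ← ha]; abel
  have hz : P₂.B z z = 0 := by
    have := (H.hX hg).B_eq (τ u₀ c) (τ u₁ c)
    simpa [hγ, H.eq, hx', h2, h2', hc, hu] using this
  have hzx : z ∉ Submodule.span F {x'} := fun h3 => hcx (by
    obtain ⟨s, rfl⟩ := Submodule.mem_span_singleton.1 h3
    have h4 : τ u₀ c = τ (α.symm (s • α u₀ + γ u₀)) x := g.injective (by
      rw [hγ, e]; simp)
    exact mem_span_of_eq (flip h) (w := α.symm (s • α u₀ + γ u₀)) (w' := u₀)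
      (by rintro rfl; simp at hu0) h4)
  obtain ⟨w, hw, hw'⟩ := P₂.exists_dual_vec H.n₂ _ hzx
  have hw1 : P₂.B z w = 1 := by rw [← H.h₂.conj, hw, map_one]
  have hw2 := P₂.B_eq_zero_comm.1 (hw' x' (Submodule.mem_span_singleton_self _))
  obtain ⟨δ, hδ0, hδ⟩ := H.hH.exists_trace_zero
  obtain ⟨t, ht, e2⟩ := H.exists_tv hc hδ
  obtain ⟨t', ht', e3⟩ := H.exists_tv hz (d := -(δ * ν)) (by
    rw [map_neg, map_mul, hν]; linear_combination -ν * hδ)
  obtain ⟨a, ha⟩ := H.eq_cR hZ hx' hx'0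
    (X.mul_mem ht' (X.mul_mem (X.mul_mem hg ht) (X.inv_mem hg))) (χ := δ • γ ∘ₗ ρ) (fun v hv => by
      have h3 : α (ρ v) = ν • cR h (P₂.B z) v := herm_ext H.n₁ fun u => by
        obtain ⟨u, rfl⟩ := α.surjective u
        rw [hs, hρ, hγ, P.B_add_left, H.B_tau, H.B_tau, hv]; simp
      rw [LinearEquiv.mul_apply, LinearEquiv.mul_apply, LinearEquiv.mul_apply, e2, map_add,
        apply_inv_apply, hγ, e3]
      rw [show cR h (P₂.B c) (g⁻¹ v) = ρ v from rfl]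
      simp only [map_add, map_smul, h3, cR_apply, hz, h2, LinearMap.smul_apply,
        LinearMap.comp_apply, zero_smul, smul_zero, add_zero]
      module) (fun u => by simp [hρ0])
  refine ⟨z + (P₂.B a w / (δ * ν)) • x', fun u => ?_⟩
  have h3 := ha w hw2 (α u)
  have h4 : ρ (τ (α u) w) = ν • u := α.injective (by rw [hc' w hw2, hw1, mul_one, map_smul])
  simp only [LinearMap.smul_apply, LinearMap.comp_apply, h4, map_smul, smul_smul] at h3
  have h5 : γ u = (P₂.B a w / (δ * ν)) • α u := by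
    rw [div_eq_inv_mul, mul_smul, ← h3, inv_smul_smul₀ (mul_ne_zero hδ0 hν0)]
  simp [hγ, h5]

theorem mem_of_map {x x' : W} (hx0 : x ≠ 0) (hx' : P₂.B x' x' = 0) (hx'0 : x' ≠ 0)
    {g : V ≃ₗ[F] V} (hg : g ∈ X) (hs : ∀ u, ∃ u', g (τ u x) = τ u' x') : g ∈ Kron τ := by
  have : Nontrivial U := Module.nontrivial_of_finrank_pos (R := F) (by have := H.ha; omega)
  obtain ⟨θ₀, hθ₀⟩ := exists_dual_one_of_ne (F := F) hx'0
  let α₀ : U →ₗ[F] U := cR h θ₀ ∘ₗ (g : V →ₗ[F] V) ∘ₗ τ.flip x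
  have hα₀ : ∀ u, g (τ u x) = τ (α₀ u) x' := fun u => by
    obtain ⟨u', hu'⟩ := hs u
    have : α₀ u = u' := by simp [α₀, hu', hθ₀]
    rw [this, hu']
  have hinj : Function.Injective α₀ := by
    rw [← LinearMap.ker_eq_bot, LinearMap.ker_eq_bot']
    intro u hu
    have := hα₀ u
    rw [hu, map_zero, LinearMap.zero_apply, LinearEquiv.map_eq_zero_iff] at this
    by_contra h0
    exact ne_zero h h0 hx0 this
  let α := LinearEquiv.ofInjectiveEndo α₀ hinj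
  have hα : ∀ u, g (τ u x) = τ (α u) x' := hα₀
  obtain ⟨u₀, u₁, hu⟩ := exists_B_ne H.n₁ H.ha α
  obtain ⟨u₂, u₃, hu'⟩ := exists_B_ne H.n₁ H.ha 1
  have hx : P₂.B x x = 0 := by
    have := (H.hX hg).B_eq (τ u₂ x) (τ u₃ x)
    simp only [LinearEquiv.coe_one, id_eq] at hu'
    simpa [hα, H.eq, hx', hu'] using this.symm
  refine mem_Kron_of h α (iso_induction H.h₂ H.n₂ hx hx0 (fun z hz => ?_) ?_)
  · obtain ⟨c, hc0, hc, hxc, hzc⟩ := exists_iso_orth H.h₂ H.n₂ H.hb x z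
    obtain ⟨c', hc'⟩ := H.map_orth hZ hx hx0 hx' hx'0 hg hα hc hxc
    refine H.map_orth hZ hc hc0 ?_ ?_ hg hc' hz (P₂.B_eq_zero_comm.1 hzc)
    · have := (H.hX hg).B_eq (τ u₀ c) (τ u₁ c)
      simpa [hc', H.eq, hc, hu] using this
    · rintro rfl
      have := hc' u₀
      rw [map_zero, LinearEquiv.map_eq_zero_iff] at this
      exact ne_zero h (by rintro rfl; simp at hu) hc0 this
  · rintro v w ⟨v', h1⟩ ⟨w', h2⟩
    exact ⟨v' + w', fun u => by simp [h1, h2]⟩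

theorem mem_of_conj {g t : V ≃ₗ[F] V} (hg : g ∈ X) {w : W} {θ : Dual F W} (hw : P₂.B w w = 0)
    (hw0 : w ≠ 0) (hθ : θ ≠ 0) (ht : ∀ x, t x = x + τ (cR h θ x) w) (hs : g⁻¹ * t * g ∈ Kron τ) :
    g ∈ Kron τ := by
  have : Nontrivial U := Module.nontrivial_of_finrank_pos (R := F) (by have := H.ha; omega)
  have e : ∀ x, (g⁻¹ * t * g) x = x + g.symm (τ (cR h θ (g x)) w) := fun x => by
    change g.symm (t (g x)) = _
    rw [ht, map_add, LinearEquiv.symm_apply_apply]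
  obtain ⟨β, hβ⟩ := right_of_fix h H.hab hs (cR h θ ∘ₗ (g : V →ₗ[F] V)) (fun x hx => by
    have : cR h θ (g x) = 0 := hx
    simp [e, this])
  obtain ⟨z, hz⟩ : ∃ z, β z - z ≠ 0 := by
    by_contra h'
    push Not at h'
    obtain ⟨u₀, hu₀⟩ := exists_ne (0 : U)
    obtain ⟨y, hy⟩ := exists_apply_eq_one hθ
    have h1 : g⁻¹ * t * g = 1 := equiv_ext h fun u z => by rw [hβ, sub_eq_zero.1 (h' z)]; rfl
    have h2 := e (g.symm (τ u₀ y))
    rw [h1] at h2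
    simp [hy] at h2
    exact ne_zero h hu₀ hw0 h2
  refine H.mem_of_map hZ hz hw hw0 hg fun u => ⟨cR h θ (g (τ u z)), ?_⟩
  rw [map_sub, ← hβ, e]; simp

end UTen

end CfsgLib.SUMax
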