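import Mathlib
import Cfsg.Agent.Lib.SUMax.TenK
import Cfsg.Agent.Lib.SUMax.TenCW
import Cfsg.Agent.Lib.NonMax.Tens

/-!
Maximality of the stabiliser of a tensor decomposition in the special unitary group.
-/

set_option autoImplicit false

namespace CfsgLib.SUMax

open CfsgLib.Forms CfsgLib.ClMax CfsgLib.ClMax.Ten CfsgLib.RootMax Module

variable {F U W V : Type*} [Field F] {σ : F →+* F} [AddCommGroup U] [Module F U] [AddCommGroup W]
  [Module F W] [AddCommGroup V] [Module F V] {τ : U →ₗ[F] W →ₗ[F] V}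

/-- The map `1 ⊗ θ`. -/
noncomputable def oR (h : IsTensorProduct τ) : End F W →ₗ[F] End F V where
  toFun θ := h.map h LinearMap.id θ
  map_add' a b := ext h fun u w => by simp
  map_smul' c a := ext h fun u w => by simp

@[simp] theorem oR_apply (h : IsTensorProduct τ) (θ : End F W) (u : U) (w : W) :
    oR h θ (τ u w) = τ u (θ w) := h.map_eq h _ _ u w

/-- Skew-adjoint maps. -/
def Skew (P : PQ σ W) (θ : End F W) : Prop := ∀ w w', P.B (θ w) w' = -P.B w (θ w')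

/-- The map `w ↦ B(c,w) x - B(x,w) c`. -/
def skw (P : PQ σ W) (c x : W) : End F W := (P.B c).smulRight x - (P.B x).smulRight c

theorem skw_apply (P : PQ σ W) (c x w : W) : skw P c x w = P.B c w • x - P.B x w • c := rfl

theorem skew_skw {P : PQ σ W} (hH : P.IsHerm) (c x : W) : Skew P (skw P c x) := fun w w' => by
  simp only [skw_apply, P.B_sub_left, P.B_smul_left, P.B_sub_right, P.B_smul_right, hH.conj]
  ring

theorem real_indep {ω a b : F} (hω : σ ω ≠ ω) (ha : σ a = a) (hb : σ b = b) (h : a + b * ω = 0) :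
    a = 0 ∧ b = 0 := by
  have h1 := congrArg σ h
  rw [map_add, map_mul, ha, hb, map_zero] at h1
  have h2 : b = 0 := mul_right_cancel₀ (sub_ne_zero.2 hω) (by linear_combination h1 - h)
  exact ⟨by simpa [h2] using h, h2⟩

namespace UTen

variable {P₁ : PQ σ U} {P₂ : PQ σ W} {P : PQ σ V} {h : IsTensorProduct τ}
  {X : Subgroup (V ≃ₗ[F] V)} (H : UTen P₁ P₂ P h X)
include H

theorem skew_oR {θ : End F W} (hθ : Skew P₂ θ) : Skew P (oR h θ) := by
  intro v v'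
  induction v using h.inductionOn with
  | zero => simp
  | add a b ha hb => simp [ha, hb, add_comm]
  | tmul u w =>
    induction v' using h.inductionOn with
    | zero => simp
    | add a b ha hb => simp only [map_add, ha, hb, neg_add]
    | tmul u' w' => simp [H.eq, hθ w w']

theorem cR_oR {θ : End F W} (hθ : Skew P₂ θ) (w : W) (v : V) :
    cR h (P₂.B (θ w)) v = -cR h (P₂.B w) (oR h θ v) :=
  herm_ext H.n₁ fun u => by rw [map_neg, ← H.B_tau, ← H.B_tau, ← H.skew_oR hθ, oR_apply]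

variable [FiniteDimensional F U] [FiniteDimensional F W]

theorem exists_uni {θ : End F W} (hθ : Skew P₂ θ) (h2 : θ * θ = 0) :
    ∃ t ∈ X, ∀ v, t v = v + oR h θ v := by
  obtain ⟨t, ht, e⟩ := H.right (β := uni θ h2) ⟨(H.h₂.isIso_iff _).2 fun w w' => by
    have : θ (θ w') = 0 := LinearMap.congr_fun h2 w'
    simp [uni_apply, hθ w, this], uni_mem_SLV _ _⟩
  exact ⟨t, ht, LinearMap.congr_fun (ext h (f := (t : V →ₗ[F] V)) (g := 1 + oR h θ)
    fun u w => by simp [e, uni_apply])⟩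

variable [Finite F]

omit [FiniteDimensional F W] in
theorem exists_deg_aux {C : Submodule F U} (hC : C ≠ ⊥) (G : U →ₗ[F] V) {ι : Type*} [Fintype ι]
    (Θ : ι → End F W) (hΘ : ∀ i, Skew P₂ (Θ i)) {d : ℕ} {S : (ι → F) → Prop} (hS : Ind σ d S)
    (h0 : S 0) (hd : finrank F U + d < Fintype.card ι) :
    ∃ p : ι → F, (∀ i, σ (p i) = p i) ∧ p ≠ 0 ∧ S p ∧ Skew P₂ (∑ i, p i • Θ i) ∧
      ∃ u ∈ C, u ≠ 0 ∧ ∀ u' ∈ C, P.B (G u') (oR h (∑ i, p i • Θ i) (G u)) = 0 := by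
  classical
  have hsk : ∀ p : ι → F, (∀ i, σ (p i) = p i) → Skew P₂ (∑ i, p i • Θ i) := fun p hp w w' => by
    simp [hp, hΘ _ w w']
  obtain ⟨δ, hδ0, hδ⟩ := H.hH.exists_trace_zero
  let b := finBasis F C
  have : Nonempty (Fin (finrank F C)) := ⟨⟨0, Module.finrank_pos_iff.2 (Submodule.nontrivial_iff_ne_bot.2 hC)⟩⟩
  let M : (ι → F) → Matrix (Fin (finrank F C)) (Fin (finrank F C)) F := fun p j k =>
    δ * P.B (G (b j)) (oR h (∑ i, p i • Θ i) (G (b k)))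
  have h1 : PolyR σ _ fun p => (M p).det := PolyR.det fun j k =>
    (PolyR.lin fun i => δ * P.B (G (b j)) (oR h (Θ i) (G (b k)))).congr le_rfl fun p _ => by
      simp only [M, map_sum, map_smul, LinearMap.sum_apply, LinearMap.smul_apply, smul_eq_mul,
        Finset.mul_sum]
      exact Finset.sum_congr rfl fun i _ => by ring
  obtain ⟨p, hp, hp0, h2, h3⟩ := ((h1.ind fun p hp => by
    rw [RingHom.map_det, ← Matrix.det_transpose]
    congr 1
    ext j k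
    change σ (δ * _) = δ * _
    rw [map_mul, H.hH.conj, H.skew_oR (hsk p hp), eq_neg_of_add_eq_zero_right hδ]
    ring).and hS).exists_ne_zero ⟨by
      rw [show M 0 = 0 by ext j k; simp [M], Matrix.det_zero], h0⟩ (by
      have := C.finrank_le
      rw [Fintype.card_fin]; omega)
  obtain ⟨v, hv, h4⟩ := Matrix.exists_mulVec_eq_zero_iff.2 h2
  refine ⟨p, hp, hp0, h3, hsk p hp, (b.equivFun.symm v : C), (b.equivFun.symm v).2,
    fun h5 => hv (b.equivFun.symm.map_eq_zero_iff.1 (Subtype.ext h5)), fun u' hu' => ?_⟩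
  have h5 : ∀ j, P.B (G (b j)) (oR h (∑ i, p i • Θ i) (G (b.equivFun.symm v : C))) = 0 := fun j => by
    refine mul_left_cancel₀ hδ0 ?_
    rw [mul_zero, ← show (M p).mulVec v j = 0 from congrFun h4 j, Basis.equivFun_symm_apply]
    simp only [M, Matrix.mulVec, dotProduct, Submodule.coe_sum, Submodule.coe_smul,
      map_sum G, map_sum (oR h _), map_sum (P.B _), map_smul, smul_eq_mul, Finset.mul_sum]
    exact Finset.sum_congr rfl fun i _ => by ring
  have h6 : u' = ∑ j, b.repr ⟨u', hu'⟩ j • (b j : U) := by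
    simpa only [Submodule.coe_sum, Submodule.coe_smul] using
      congrArg Subtype.val (b.sum_repr ⟨u', hu'⟩).symm
  rw [h6, map_sum, map_sum, LinearMap.sum_apply]
  exact Finset.sum_eq_zero fun j _ => by rw [map_smul, P.B_smul_left, h5, mul_zero]

theorem exists_deg {C : Submodule F U} (hC : C ≠ ⊥) (G : U →ₗ[F] V) {x : W} (hx : P₂.B x x = 0)
    (hx0 : x ≠ 0) : ∃ θ : End F W, θ ≠ 0 ∧ Skew P₂ θ ∧ θ * θ = 0 ∧ θ x = 0 ∧
      ∃ u ∈ C, u ≠ 0 ∧ ∀ u' ∈ C, P.B (G u') (oR h θ (G u)) = 0 := by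
  classical
  obtain ⟨x', -, hxx'⟩ := exists_iso_partner H.h₂ H.n₂ hx hx0
  have hx'x : P₂.B x' x = 1 := by rw [← H.h₂.conj, hxx', map_one]
  obtain ⟨ω, hω⟩ := H.hH.exists_ne_conj
  by_cases h3 : finrank F U ≤ 3
  · obtain ⟨δ, hδ0, hδ⟩ := H.hH.exists_trace_zero
    obtain ⟨z, hz0, hz, hxz, hx'z⟩ := exists_iso_orth H.h₂ H.n₂ H.hb x x'
    have hzx := P₂.B_eq_zero_comm.1 hxz
    obtain ⟨a, ha, ha'⟩ := P₂.exists_dual_vec H.n₂ (Submodule.span F {x}) (u := z) fun h => by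
      obtain ⟨t, rfl⟩ := Submodule.mem_span_singleton.1 h
      simp [hx'x] at hx'z
      exact hz0 (by simp [hx'z])
    have hax := ha' x (Submodule.mem_span_singleton_self x)
    obtain ⟨p, hp, hp0, -, h1, h2⟩ := H.exists_deg_aux hC G
      ![skw P₂ (ω • x) x, skw P₂ z x, skw P₂ (ω • z) x, δ • (P₂.B z).smulRight z] (fun i => by
        fin_cases i
        · exact skew_skw H.h₂ _ _
        · exact skew_skw H.h₂ _ _
        · exact skew_skw H.h₂ _ _
        · intro w w'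
          simp [H.h₂.conj, eq_neg_of_add_eq_zero_right hδ, mul_comm])
      ((PolyR.const (d := 0) 0).ind fun _ _ => map_zero σ) rfl (by simp; omega)
    refine ⟨_, fun h0 => hp0 ?_, h1, ?_, ?_, h2⟩
    · have e1 := congrArg (P₂.B x') (LinearMap.congr_fun h0 x')
      have e2 := congrArg (P₂.B a) (LinearMap.congr_fun h0 x')
      have e3 := congrArg (P₂.B a) (LinearMap.congr_fun h0 a)
      simp [Fin.sum_univ_four, skw_apply, hxx', hx'x, hx'z, P₂.B_eq_zero_comm.1 hx'z, ha, hax,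
        P₂.B_eq_zero_comm.1 hax, ← H.h₂.conj a z, hδ0, sub_eq_zero, hω] at e1 e2 e3
      obtain ⟨e4, e5⟩ := real_indep hω (hp 1) (hp 2) (by linear_combination -e2)
      ext i
      fin_cases i <;> simp [e1, e3, e4, e5]
    · ext w
      simp [Fin.sum_univ_four, skw_apply, hx, hz, hxz, hzx]
    · simp [Fin.sum_univ_four, skw_apply, hx, hzx]
  let b := finBasis F W
  let v : Fin (finrank F W) × Bool → W := fun i => if i.2 then ω • b i.1 else b i.1
  let c : (Fin (finrank F W) × Bool → F) → W := fun p => ∑ i, p i • v i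
  have c1 : ∀ w, PolyR σ 1 fun p => P₂.B w (c p) := fun w =>
    (PolyR.lin fun i => P₂.B w (v i)).congr le_rfl fun p _ => by simp [c, mul_comm]
  have c2 : ∀ w, PolyR σ 1 fun p => P₂.B (c p) w := fun w =>
    (PolyR.lin fun i => P₂.B (v i) w).congr le_rfl fun p hp => by simp [c, mul_comm, hp]
  have c3 : ∀ (a : F) w, Ind σ 1 fun p => a * P₂.B w (c p) + σ a * P₂.B (c p) w = 0 := fun a w =>
    (((c1 w).cmul a).add ((c2 w).cmul (σ a))).ind fun p _ => by
      simp [H.h₂.conj, P₂.σσ, add_comm]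
  have c4 : Ind σ 2 fun p => P₂.B (c p) (c p) = 0 :=
    ((PolyR.sum Finset.univ fun i => (PolyR.var i).mul (c1 (v i))).congr le_rfl
      fun p hp => by
        conv_rhs => rw [show P₂.B (c p) = ∑ i, p i • P₂.B (v i) by simp [c, hp]]
        simp).ind fun p _ => H.h₂.conj _ _
  obtain ⟨t, ht⟩ := H.hH.exists_trace_one
  obtain ⟨p, hp, hp0, ⟨⟨⟨e1, e2⟩, e3⟩, e4⟩, h1, h2⟩ := H.exists_deg_aux hC G
    (fun i => skw P₂ (v i) x) (fun i => skew_skw H.h₂ _ _)
    ((((c3 1 x).and (c3 ω x)).and (c3 t x')).and c4) (by simp [c]) (by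
      have := H.hab
      simp; omega)
  have e5 : ∑ i, p i • skw P₂ (v i) x = skw P₂ (c p) x := by
    ext w
    simp [c, skw_apply, hp, smul_sub, Finset.sum_smul, Finset.smul_sum, smul_smul, mul_comm]
  have e6 : P₂.B x (c p) = 0 := mul_left_cancel₀ (sub_ne_zero.2 hω) (by
    rw [map_one] at e1; linear_combination σ ω * e1 - e2)
  have e7 := P₂.B_eq_zero_comm.1 e6
  rw [e5] at h1 h2
  refine ⟨_, fun h0 => hp0 ?_, h1, ?_, by simp [skw_apply, hx, e7], h2⟩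
  · have h4 := LinearMap.congr_fun h0 x'
    rw [skw_apply, hxx', one_smul, LinearMap.zero_apply, sub_eq_zero] at h4
    have h5 := congrArg (P₂.B x') h4
    rw [map_smul, hx'x, smul_eq_mul, mul_one] at h5
    have h6 : P₂.B (c p) x' = 0 := by rw [← h5] at e3; linear_combination e3 - P₂.B (c p) x' * ht
    rw [h6, zero_smul] at h4
    ext ⟨j, s⟩
    have h7 := congrArg (b.coord j) h4
    simp [c, v, Fintype.sum_prod_type, Finsupp.single_apply, Finset.sum_add_distrib] at h7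
    have := real_indep hω (hp (j, false)) (hp (j, true)) (by linear_combination -h7)
    cases s
    · exact this.1
    · exact this.2
  · ext w
    simp [skw_apply, hx, e4, e6, e7]

omit [FiniteDimensional F U] [FiniteDimensional F W] in
theorem exists_eigen {n : V ≃ₗ[F] V} (hn : n ∈ X) (hK : n ∈ Kron τ)
    (h2 : ∀ v, n (n v - v) = n v - v) :
    ∃ z, z ≠ 0 ∧ P₂.B z z = 0 ∧ ∀ u, ∃ u', n (τ u z) = τ u' z := by
  obtain ⟨α, β, e⟩ := hK
  obtain ⟨x, hx0, hx⟩ := exists_iso H.h₂ (by have := H.hb; omega)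
  by_cases hβ : β x ∈ Submodule.span F {x}
  · obtain ⟨s, hs⟩ := Submodule.mem_span_singleton.1 hβ
    exact ⟨x, hx0, hx, fun u => ⟨s • α u, by simp [e, ← hs]⟩⟩
  have h1 : ∀ u w, τ (α (α u)) (β (β w)) - τ (α u) (β w) = τ (α u) (β w) - τ u w := fun u w => by
    simpa [e] using h2 (τ u w)
  obtain ⟨φ, hφ1, hφ0⟩ := exists_dual_one_zero hβ
  obtain ⟨ψ, hψ1, hψ0⟩ := exists_dual_one_zero (F := F) (u := x) (v := β x) fun h3 => by
    obtain ⟨s, hs⟩ := Submodule.mem_span_singleton.1 h3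
    have := congrArg φ hs
    simp only [map_smul, hφ1, hφ0, smul_eq_mul, mul_one] at this
    exact hx0 (by simpa [this] using hs.symm)
  obtain ⟨u₀, u₁, hu⟩ := exists_B_ne H.n₁ H.ha 1
  simp only [LinearEquiv.coe_one, id_eq] at hu
  have hu0 : u₀ ≠ 0 := by rintro rfl; simp at hu
  have h3 : ∀ u, ψ (β (β x)) • α (α u) = -u := fun u => by
    simpa [hψ0, hψ1] using congrArg (cR h ψ) (h1 u x)
  have h4 : ∀ u, φ (β (β x)) • α (α u) = (2 : F) • α u := fun u => by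
    have := congrArg (cR h φ) (h1 u x)
    simp only [map_sub, cR_apply, hφ0, hφ1, one_smul, zero_smul, sub_zero] at this
    linear_combination (norm := module) this
  have h5 : ψ (β (β x)) ≠ 0 := fun h0 => hu0 (by simpa [h0] using h3 u₀)
  obtain ⟨l, hl⟩ : ∃ l : F, ∀ u, α (α u) = l • u := ⟨-(ψ (β (β x)))⁻¹, fun u => by
    rw [neg_smul, ← smul_neg, ← h3, inv_smul_smul₀ h5]⟩
  obtain ⟨κ, hκ, hκ'⟩ : ∃ κ : F, κ * κ = l ∧ ∀ u, (2 : F) • α u = (2 * κ) • u := by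
    by_cases h0 : (2 : F) = 0
    · have := Fintype.ofFinite F
      have : CharP F 2 := CharTwo.of_one_ne_zero_of_two_eq_zero one_ne_zero h0
      obtain ⟨κ, hκ⟩ := FiniteField.isSquare_of_char_two (ringChar.eq F 2) l
      exact ⟨κ, hκ.symm, fun u => by simp [h0]⟩
    have h6 : ∀ u, α u = (φ (β (β x)) * l / 2) • u := fun u => by
      rw [div_eq_inv_mul, mul_smul, mul_smul, ← hl, h4, inv_smul_smul₀ h0]
    refine ⟨_, smul_left_injective F hu0 ?_, fun u => by rw [h6, smul_smul]⟩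
    simp only [mul_smul, ← h6, hl]
  have h6 : κ • β (κ • β x - x) = κ • β x - x := right_inj h hu0 (by
    have h7 := h1 u₀ x
    have h8 := congrArg (τ · (β x)) (hκ' u₀)
    simp only [map_smul, LinearMap.smul_apply, hl, ← hκ, map_sub] at h7 h8 ⊢
    linear_combination (norm := module) h7 + h8)
  obtain ⟨v, hv⟩ : ∃ v, v = κ • β x - x := ⟨_, rfl⟩
  rw [← hv] at h6
  have hκ0 : κ ≠ 0 := by
    rintro rfl
    exact hx0 (by simpa [hv] using h6)
  refine ⟨v, fun h0 => hβ ?_, ?_, fun u => ⟨κ⁻¹ • α u, ?_⟩⟩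
  · exact Submodule.mem_span_singleton.2 ⟨κ⁻¹, by
      rw [inv_smul_eq_iff₀ hκ0, eq_comm, ← sub_eq_zero, ← hv, h0]⟩
  · have h7 : ∀ w w', P₁.B (α u₀) (α u₁) * P₂.B (κ • β w) (κ • β w') = σ κ * κ * P₂.B w w' :=
      fun w w' => by
        have := (H.hX hn).B_eq (τ u₀ w) (τ u₁ w')
        rw [e, e, H.eq, H.eq, hu, one_mul] at this
        simp only [P₂.B_smul_left, map_smul, smul_eq_mul]
        linear_combination σ κ * κ * this
    have h8 := h7 v v
    have h9 := h7 x v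
    rw [h6] at h8
    rw [h6, show κ • β x = x + v by rw [hv]; abel, P₂.B_add_left] at h9
    by_contra h0
    rw [mul_right_cancel₀ h0 h8] at h9
    exact mul_ne_zero (mul_ne_zero ((map_ne_zero σ).2 hκ0) hκ0) h0 (by linear_combination h9)
  · rw [e, show β v = κ⁻¹ • v by rw [eq_inv_smul_iff₀ hκ0, h6]]; simp

theorem le_Kron (hZ : Zs P₂ h X) : X ≤ Kron τ := by
  classical
  intro g₀ hg₀
  by_contra hg₀'
  have : Nontrivial U := Module.nontrivial_of_finrank_pos (R := F) (by have := H.ha; omega)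
  let D : (V ≃ₗ[F] V) → W → W → Submodule F U := fun g x z =>
    LinearMap.ker (cR h (P₂.B z) ∘ₗ (g : V →ₗ[F] V) ∘ₗ τ.flip x)
  have hD : ∀ g x z u, u ∈ D g x z ↔ cR h (P₂.B z) (g (τ u x)) = 0 := fun _ _ _ _ => Iff.rfl
  obtain ⟨x₀, hx₀0, hx₀⟩ := exists_iso H.h₂ (by have := H.hb; omega)
  have hP : ∃ n, ∃ g ∈ X, g ∉ Kron τ ∧ ∃ x z, x ≠ 0 ∧ P₂.B x x = 0 ∧ z ≠ 0 ∧ P₂.B z z = 0 ∧
      finrank F U - finrank F (D g x z) = n := ⟨_, g₀, hg₀, hg₀', x₀, x₀, hx₀0, hx₀, hx₀0, hx₀, rfl⟩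
  obtain ⟨g₁, hg₁, hg₁', x, z₁, hx0, hx, hz₁0, hz₁, hn⟩ := Nat.find_spec hP
  obtain ⟨S, hS⟩ : ∃ S, S = D g₁ x z₁ := ⟨_, rfl⟩
  have hmax : ∀ g ∈ X, g ∉ Kron τ → ∀ x z, x ≠ 0 → P₂.B x x = 0 → z ≠ 0 → P₂.B z z = 0 →
      S ≤ D g x z → D g x z ≤ S := fun g h1 h2 x z h3 h4 h5 h6 h7 => by
    have h8 := Nat.find_min' hP ⟨g, h1, h2, x, z, h3, h4, h5, h6, rfl⟩
    have h9 := (D g x z).finrank_le
    exact (Submodule.eq_of_le_of_finrank_le h7 (by rw [hS]; omega)).ge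
  have hBne : ∀ z, z ≠ 0 → P₂.B z ≠ 0 := fun z hz h0 => hz (H.n₂ z fun y => by simp [h0])
  obtain ⟨δ, hδ0, hδ⟩ := H.hH.exists_trace_zero
  obtain ⟨t₁, ht₁, e₁⟩ := H.exists_tv hz₁ hδ
  obtain ⟨g, hg, hg', gS⟩ : ∃ g ∈ X, g ∉ Kron τ ∧ ∀ u ∈ S, g (τ u x) = τ u x :=
    ⟨g₁⁻¹ * t₁ * g₁, X.mul_mem (X.mul_mem (X.inv_mem hg₁) ht₁) hg₁,
      fun h1 => hg₁' (H.mem_of_conj hZ hg₁ (θ := δ • P₂.B z₁) hz₁ hz₁0
        (smul_ne_zero hδ0 (hBne _ hz₁0)) (by simpa using e₁) h1),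
      fun u hu => by simp [e₁, (hD _ _ _ _).1 (hS ▸ hu)]⟩
  have hST : S ≠ ⊤ := fun h1 =>
    hg' (H.mem_of_map hZ hx0 hx hx0 hg fun u => ⟨u, gS u (by simp [h1])⟩)
  obtain ⟨C, hC⟩ := S.exists_isCompl
  obtain ⟨θ, hθ0, hθ, hθ2, hθx, u₀, hu₀, hu₀0, hdeg⟩ := H.exists_deg (C := C)
    (fun h1 => hST (by simpa [h1] using hC.sup_eq_top)) ((g : V →ₗ[F] V) ∘ₗ τ.flip x) hx hx0
  simp only [LinearMap.comp_apply, LinearMap.flip_apply, LinearEquiv.coe_coe] at hdeg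
  obtain ⟨t, ht, et⟩ := H.exists_uni hθ hθ2
  have N2 : ∀ v, oR h θ (oR h θ v) = 0 := LinearMap.congr_fun (ext h
    (f := oR h θ * oR h θ) (g := 0) fun u w => by
      simp [show θ (θ w) = 0 from LinearMap.congr_fun hθ2 w])
  have hθθ : ∀ w, P₂.B (θ w) (θ w) = 0 := fun w => by
    rw [hθ, show θ (θ w) = 0 from LinearMap.congr_fun hθ2 w]; simp
  obtain ⟨n, en⟩ : ∃ n, n = g⁻¹ * t * g := ⟨_, rfl⟩
  have hnX : n ∈ X := en ▸ X.mul_mem (X.mul_mem (X.inv_mem hg) ht) hg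
  have en' : ∀ v, g (n v) = g v + oR h θ (g v) := fun v => by simp [en, et]
  have nS : ∀ u ∈ S, n (τ u x) = τ u x := fun u hu => g.injective (by simp [en', gS u hu, hθx])
  have hnK : n ∈ Kron τ := by
    by_contra h1
    refine hu₀0 (Submodule.disjoint_def.1 hC.disjoint _ (hmax n hnX h1 x x hx0 hx hx0 hx
      (fun u hu => by simp [hD, nS u hu, hx]) ?_) hu₀)
    rw [hD]
    refine herm_ext H.n₁ fun u => ?_
    rw [← H.B_tau, ← (H.hX hg).B_eq, en', map_add, (H.hX hg).B_eq, H.eq, hx, map_zero]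
    obtain ⟨s, hs, c, hc, rfl⟩ := Submodule.mem_sup.1 (hC.sup_eq_top ▸ Submodule.mem_top : u ∈ S ⊔ C)
    have := H.skew_oR hθ (g (τ s x)) (g (τ u₀ x))
    simp only [gS s hs, oR_apply, hθx, map_zero, LinearMap.zero_apply, zero_eq_neg] at this
    simp [hdeg c hc, gS s hs, this]
  obtain ⟨w₀, hw₀⟩ : ∃ w, θ w ≠ 0 := by
    by_contra h1
    push Not at h1
    exact hθ0 (LinearMap.ext h1)
  -- the key step for an invariant subspace
  have key : ∀ z, z ≠ 0 → P₂.B z z = 0 → (∀ u, ∃ u', n (τ u z) = τ u' z) → S ≤ D g z (θ w₀) →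
      ∀ u, ∃ s ∈ S, oR h θ (g (τ u z)) = g (τ s z) := fun z hz0 hz h1 h2 u => by
    obtain ⟨u', hu'⟩ := h1 u
    have h3 : oR h θ (g (τ u z)) = g (τ (u' - u) z) := by simp [← hu', en']
    exact ⟨_, hmax g hg hg' z _ hz0 hz hw₀ (hθθ _) h2 (by
      rw [hD, H.cR_oR hθ, ← h3, N2]; simp), h3⟩
  by_cases hS0 : S = ⊥
  · obtain ⟨z, hz0, hz, h1⟩ := H.exists_eigen hnX hnK fun v => g.injective (by
      rw [en', map_sub g, en']; simp [N2])
    refine hST (eq_top_iff.2 fun u _ => hmax g hg hg' z _ hz0 hz hw₀ (hθθ _) (by simp [hS0]) ?_)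
    obtain ⟨s, hs, h2⟩ := key z hz0 hz h1 (by simp [hS0]) u
    rw [hD, H.cR_oR hθ, h2, show s = 0 by simpa [hS0] using hs]; simp
  have hSD : ∀ w, S ≤ D g x (θ w) := fun w u hu => by simp [hD, gS u hu, hθ w x, hθx]
  have h1 := key x hx0 hx (by
    obtain ⟨α, β, e⟩ := hnK
    obtain ⟨s, hs, hs0⟩ := (Submodule.ne_bot_iff _).1 hS0
    obtain ⟨c, hc⟩ := Submodule.mem_span_singleton.1 (mem_span_of_eq (flip h) (u := x)
      (u' := β x) (w := s) (w' := α s) (by simpa using hs0) ((e s x).symm.trans (nS s hs)))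
    exact fun u => ⟨c • α u, by simp [e, ← hc]⟩) (hSD _)
  have h2 : ∀ w, P₂.B x w = 0 → θ w = 0 := fun w hw => by
    by_contra h3
    refine hST (eq_top_iff.2 fun u _ => hmax g hg hg' x _ hx0 hx h3 (hθθ _) (hSD w) ?_)
    obtain ⟨s, hs, h4⟩ := h1 u
    rw [hD, H.cR_oR hθ, h4, gS s hs]
    simp [P₂.B_eq_zero_comm.1 hw]
  obtain ⟨x', -, hxx'⟩ := exists_iso_partner H.h₂ H.n₂ hx hx0
  have h3 : ∀ w, θ w = P₂.B x w • θ x' := fun w => by
    have := h2 (w - P₂.B x w • x') (by simp [hxx'])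
    rwa [map_sub, map_smul, sub_eq_zero] at this
  refine hg' (H.mem_of_conj hZ hg (t := t) (hθθ x') (fun h0 => hw₀ (by rw [h3, h0, smul_zero]))
    (hBne x hx0) (fun v => ?_) (en ▸ hnK))
  rw [et]
  congr 1
  exact LinearMap.congr_fun (ext h (f := oR h θ) (g := τ.flip (θ x') ∘ₗ cR h (P₂.B x))
    fun u w => by rw [oR_apply, h3]; simp) v

theorem tf_all (hq : (∃ c : F, σ c = c ∧ c ≠ 0 ∧ c ≠ 1) ∨ 3 ≤ finrank F U) (hX : ¬ X ≤ Kron τ)
    (v : V) (hv : P.B v v = 0) : TF P X v := by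
  by_cases hZ : Zs P₂ h X
  · exact absurd (H.le_Kron hZ) hX
  simp only [Zs, not_forall] at hZ
  obtain ⟨x, hx, hx0, g, hg, hf, hns⟩ := hZ
  obtain ⟨y, hy0, hy, h1⟩ := H.exists_tf hq hx hx0 hg hf hns
  exact H.tfOn_top (fun y' _ hx' => H.tf_pure (fun _ _ => H.tf_iso hy hy0 hx hx0 h1) y' hx') v
    trivial hv

end UTen

open Cfsg Cfsg.Geo CfsgLib.Unitary in
theorem exists_pq_of_unitaryFormPow [Fintype F] {q : ℕ} (hF : Fintype.card F = q ^ 2) {n : ℕ}
    {f : (Fin n → F) → (Fin n → F) → F} (hf : IsUnitaryFormPow q f) {c : F} (hc0 : c ≠ 0)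
    (hc : conj hF c = c) : ∃ P : PQ (conj hF) (Fin n → F), P.IsHerm ∧ P.Nondeg ∧
      ∀ u v, P.B u v = c * f v u := by
  have h1 : ∀ v w, f v w = conj hF (f w v) := hf.herm
  let B : (Fin n → F) →ₛₗ[conj hF] (Fin n → F) →ₗ[F] F :=
    LinearMap.mk₂'ₛₗ (conj hF) (RingHom.id F) (fun u v => c * f v u)
      (fun a b v => by rw [h1, hf.add_left, map_add, ← h1, ← h1, mul_add])
      (fun t a v => by rw [h1, hf.smul_left, map_mul, ← h1, smul_eq_mul]; ring)
      (fun u a b => by rw [hf.add_left, mul_add])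
      (fun t u a => by rw [hf.smul_left, smul_eq_mul, RingHom.id_apply]; ring)
  have hS : B.IsSymm := ⟨fun u v => by
    change conj hF (c * f v u) = c * f u v
    rw [map_mul, hc, ← h1]⟩
  refine ⟨ofHerm (conj_ne_id hF) (conj_conj hF) B hS, ofHerm_isHerm_of_finite _ _ _ _,
    fun u hu => ?_, fun _ _ => rfl⟩
  by_contra h0
  obtain ⟨x, hx⟩ := (hf.nondegenerate u h0).1
  exact mul_ne_zero hc0 hx (hu x)

open Cfsg Cfsg.Geo CfsgLib.Unitary in
/-- The stabiliser of a tensor decomposition is maximal in `SU_n(q)`. -/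
theorem isMaximalIn_su_tensor [Fintype F] {q : ℕ} (hF : Fintype.card F = q ^ 2) {n n₁ n₂ : ℕ}
    (h1 : 2 ≤ n₁) (h12 : n₁ < n₂) (h4 : 4 ≤ n₂) (hex : ¬ (n₁ = 2 ∧ q = 2))
    (e : Fin n ≃ Fin n₁ × Fin n₂) (P : GL (Fin n) F) {f₁ : (Fin n₁ → F) → (Fin n₁ → F) → F}
    {f₂ : (Fin n₂ → F) → (Fin n₂ → F) → F} (hf₁ : IsUnitaryFormPow q f₁)
    (hf₂ : IsUnitaryFormPow q f₂)
    (hT : IsTensorFormStructure (fun x : F => x ^ q) (hermForm n F q) f₁ f₂ e P) :
    IsMaximalIn (GU n F q ⊓ specialLinear (Fin n) F)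
      (tensorProductSubgroup n₁ n₂ e P ⊓ (GU n F q ⊓ specialLinear (Fin n) F)) := by
  have hH := uPQ_isHerm hF n
  have hP := uPQ_nondeg hF n
  have hn : n = n₁ * n₂ := by simpa using Fintype.card_congr e
  have ses : ∀ {m : ℕ} {f : (Fin m → F) → (Fin m → F) → F}, IsUnitaryFormPow q f →
      Asch.IsSesq0 (conj hF) f := fun {m f} hf =>
    have h1 : ∀ v w, f v w = conj hF (f w v) := hf.herm
    ⟨hf.add_left, hf.smul_left, fun v x y => by rw [h1, hf.add_left, map_add, ← h1, ← h1],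
      fun t v x => by rw [h1, hf.smul_left, map_mul, ← h1]⟩
  obtain ⟨c, hc0, hτ⟩ := NonMax.tau_form (ses hf₁) (ses hf₂) hT
  replace hτ : ∀ u w u' w', (uPQ hF n).B (tauOf e P u w) (tauOf e P u' w') =
      c * f₁ u' u * f₂ w' w := fun u w u' w' => hτ _ _ _ _
  have hc : conj hF c = c := by
    obtain ⟨x, hx⟩ := (hf₁.nondegenerate (Pi.single ⟨0, by omega⟩ 1) (by simp)).1
    obtain ⟨y, hy⟩ := (hf₂.nondegenerate (Pi.single ⟨0, by omega⟩ 1) (by simp)).1
    have := hH.conj (tauOf e P x y) (tauOf e P (Pi.single ⟨0, by omega⟩ 1)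
      (Pi.single ⟨0, by omega⟩ 1))
    rw [hτ, hτ, map_mul, map_mul, conj_apply hF (f₁ _ _), conj_apply hF (f₂ _ _), ← hf₁.herm,
      ← hf₂.herm] at this
    exact mul_right_cancel₀ hx (mul_right_cancel₀ hy this)
  obtain ⟨P₁, a1, a2, a3⟩ := exists_pq_of_unitaryFormPow hF hf₁ hc0 hc
  obtain ⟨P₂, b1, b2, b3⟩ := exists_pq_of_unitaryFormPow hF hf₂ one_ne_zero (map_one _)
  have ht := isTensorProduct_tauOf e P
  refine isMaximalIn_su hF (by nlinarith) _ (· ∈ Kron (tauOf e P))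
    (fun g _ => by rw [tensorProductSubgroup_eq]; rfl) ?_ fun X hX hM g hg hgs =>
      UTen.tf_all (h := ht) ⟨a1, a2, b1, b2, hH, hP, fun u w u' w' => by rw [hτ, a3, b3, one_mul],
        by simpa, by simpa, by simpa, fun g hg => (hX hg).1, fun g h1 h2 => hM g h2 h1⟩ ?_
        fun h => hgs (h hg)
  · obtain ⟨x, hx0, hx⟩ := exists_iso hH (by simp; nlinarith)
    obtain ⟨δ, hδ0, hδ⟩ := hH.exists_trace_zero
    obtain ⟨t, ht', e1⟩ := exists_tv_SUV hH hx hδ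
    exact ⟨t, ht', not_mem_Kron_of_tv ht (by simpa) (by simp; omega) (φ := δ • (uPQ hF n).B x)
      (smul_ne_zero hδ0 fun h0 => hx0 (hP x fun y => by simp [h0])) hx0 e1⟩
  · by_cases h2 : n₁ = 2
    · exact Or.inl (exists_fixed_ne_zero_one hF fun h => hex ⟨h2, h⟩)
    · right; simp; omega

end CfsgLib.SUMax
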