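import Mathlib
import Cfsg.Agent.Lib.SUMax.Mono2

/-!
The monomial subgroup of the special unitary group: odd characteristic, and maximality of the
stabilisers of non-degenerate decompositions.
-/

set_option autoImplicit false

namespace CfsgLib.SUMax

open CfsgLib.Forms CfsgLib.ClMax CfsgLib.RootMax Module

variable {F : Type*} [Field F] {σ : F →+* F} {V : Type*} [AddCommGroup V] [Module F V]
  {P : PQ σ V} {X : Subgroup (V ≃ₗ[F] V)} {ι : Type*} {e : ι → V}

/-- `j` is the product of the reflections in `u` and `w`. -/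
def I2 (P : PQ σ V) (u w : V) (j : V ≃ₗ[F] V) : Prop :=
  ∀ v, j v = v - (2 * P.B u v) • u - (2 * P.B w v) • w

theorem I2.conj {u w : V} {j g : V ≃ₗ[F] V} (h : I2 P u w j) (hg : P.IsIso g) :
    I2 P (g u) (g w) (g * j * g⁻¹) := fun v => by
  obtain ⟨v, rfl⟩ := g.surjective v
  rw [LinearEquiv.mul_apply, LinearEquiv.mul_apply, inv_apply_apply, h]
  simp only [map_sub, map_smul, hg.B_eq]

theorem I2.sq {u w : V} {j : V ≃ₗ[F] V} (h : I2 P u w j) (hu : P.B u u = 1) (hw : P.B w w = 1)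
    (huw : P.B u w = 0) : j * j = 1 := LinearEquiv.ext fun v => by
  rw [LinearEquiv.mul_apply, h, h]
  simp only [P.B_sub_right, P.B_smul_right, hu, hw, huw, P.B_eq_zero_comm.1 huw,
    LinearEquiv.coe_one, id]
  module

theorem I2.sub_mem {u w : V} {j : V ≃ₗ[F] V} (h : I2 P u w j) {Z : Submodule F V} (hu : u ∈ Z)
    (hw : w ∈ Z) (v : V) : j v - v ∈ Z := by
  rw [h, show ∀ a b : V, v - a - b - v = -a - b by intros; abel]
  exact Z.sub_mem (Z.neg_mem (Z.smul_mem _ hu)) (Z.smul_mem _ hw)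

theorem finrank_span_pair_le (u w : V) : finrank F (Submodule.span F {u, w}) ≤ 2 := by
  classical
  have := finrank_span_finset_le_card (R := F) ({u, w} : Finset V)
  rw [Finset.coe_pair] at this
  exact this.trans Finset.card_le_two

/-- The elements of `X` moving vectors only by elements of `Z`. -/
def movedIn (X : Subgroup (V ≃ₗ[F] V)) (Z : Submodule F V) : Subgroup (V ≃ₗ[F] V) where
  carrier := {x | x ∈ X ∧ ∀ v, x v - v ∈ Z}
  mul_mem' {a b} ha hb := ⟨X.mul_mem ha.1 hb.1, fun v => by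
    simpa using Z.add_mem (ha.2 (b v)) (hb.2 v)⟩
  one_mem' := ⟨X.one_mem, by simp⟩
  inv_mem' {a} ha := ⟨X.inv_mem ha.1, fun v => by
    simpa [apply_inv_apply] using Z.neg_mem (ha.2 (a⁻¹ v))⟩

namespace Frame

variable [Fintype ι] [FiniteDimensional F V] (h : Frame P e)
include h

omit [FiniteDimensional F V] in
theorem eq_one {g : V ≃ₗ[F] V} (hg : ∀ l, g (e l) = e l) : g = 1 := LinearEquiv.ext fun v => by
  conv_lhs => rw [h.sum_eq v]
  simpa [hg] using (h.sum_eq v).symm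

omit [Fintype ι] in
theorem card_moved_le {y : V ≃ₗ[F] V} (hy : Mon e y) {Y : Submodule F V} (hY : ∀ v, y v - v ∈ Y)
    (S : Finset ι) (hS : ∀ i ∈ S, y (e i) ≠ e i) : S.card ≤ 2 * finrank F Y := by
  classical
  have key : ∀ m, 2 * m ≤ S.card + 1 → ∃ (J : Finset ι) (W : Submodule F V), W ≤ Y ∧
      J.card ≤ 2 * m ∧ finrank F W = m ∧ ∀ w ∈ W, ∀ l, l ∉ J → P.B (e l) w = 0 := by
    intro m
    induction m with
    | zero => exact fun _ => ⟨∅, ⊥, bot_le, by simp, by simp, by simp⟩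
    | succ m ih =>
      intro hm
      obtain ⟨J, W, h1, h2, h3, h4⟩ := ih (by omega)
      obtain ⟨i, hi, hiJ⟩ := Finset.exists_mem_notMem_of_card_lt_card (s := J) (t := S) (by omega)
      obtain ⟨j, c, hc⟩ := hy i
      have h5 : y (e i) - e i ∉ W := fun h0 => by
        have h6 := h4 _ h0 i hiJ
        by_cases hij : i = j
        · subst hij
          rw [hc, P.B_sub_right, P.B_smul_right, h.unit, mul_one, sub_eq_zero] at h6
          exact hS i hi (by rw [hc, h6, one_smul])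
        · simp [hc, h.unit, h.orth hij] at h6
      refine ⟨insert i (insert j J), W ⊔ Submodule.span F {y (e i) - e i},
        sup_le h1 ((Submodule.span_singleton_le_iff_mem _ _).2 (hY _)), ?_,
        by rw [Submodule.finrank_sup_span_singleton h5, h3], fun w hw l hl => ?_⟩
      · have := Finset.card_insert_le i (insert j J)
        have := Finset.card_insert_le j J
        omega
      · simp only [Finset.mem_insert, not_or] at hl
        refine (show _ ≤ LinearMap.ker (P.B (e l)) from sup_le (fun w hw => h4 w hw l hl.2.2)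
          ((Submodule.span_singleton_le_iff_mem _ _).2 ?_)) hw
        simp [hc, h.orth hl.1, h.orth hl.2.1]
  by_contra h0
  obtain ⟨-, W, h1, -, h3, -⟩ := key (finrank F Y + 1) (by omega)
  have := Submodule.finrank_mono h1
  omega

theorem exists_moved {y : V ≃ₗ[F] V} (hy : Mon e y) {Y : Submodule F V} (hY : ∀ v, y v - v ∈ Y) :
    ∃ S : Finset ι, S.card ≤ 2 * finrank F Y ∧ ∀ l, l ∉ S → y (e l) = e l := by
  classical
  exact ⟨Finset.univ.filter fun i => y (e i) ≠ e i, h.card_moved_le hy hY _ (by simp), by simp⟩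

omit [Fintype ι] [FiniteDimensional F V] in
theorem diag_of {k j : V ≃ₗ[F] V} (hk : P.IsIso k) (hk' : Mon e k) {a b : ι} (hab : a ≠ b)
    (hj : I2 P (k (e a)) (k (e b)) j) (l : ι) : j (e l) = e l ∨ j (e l) = -e l := by
  have h1 := hk.B_eq (e a) (e a)
  have h2 := hk.B_eq (e b) (e b)
  have h3 := hk.B_eq (e a) (e b)
  obtain ⟨a', c, hc⟩ := hk' a
  obtain ⟨b', d, hd⟩ := hk' b
  rw [hj]
  simp only [hc, hd, P.B_smul_left, P.B_smul_right, h.unit, h.orth hab] at h1 h2 h3 ⊢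
  have h4 : a' ≠ b' := by
    rintro rfl
    rw [h.unit] at h3
    exact zero_ne_one (α := F) (by linear_combination (d * σ d) * h1 + h2 - (c * σ d) * h3)
  by_cases ha : a' = l
  · subst ha
    rw [h.unit, h.orth h4.symm]
    exact Or.inr (by linear_combination (norm := module) (-2 * h1) • e a')
  by_cases hb : b' = l
  · subst hb
    rw [h.unit, h.orth h4]
    exact Or.inr (by linear_combination (norm := module) (-2 * h2) • e b')
  · simp [h.orth ha, h.orth hb]

variable (hH : P.IsHerm) (hP : P.Nondeg) (hD : ∀ g ∈ SUV P, Mon e g → g ∈ X)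
include hH hP hD

omit [Fintype ι] in
theorem exists_d {a b : ι} (hab : a ≠ b) {η : F} (hη : σ η * η = 1) : ∃ d ∈ X, Mon e d ∧
    ∀ v, d v = v + ((η - 1) * P.B (e a) v) • e a + ((σ η - 1) * P.B (e b) v) • e b := by
  classical
  obtain ⟨d, h1, h2, h3⟩ := h.exists_dg hH hP (fun i => if i = a then η else σ η)
    (fun i => by split_ifs; exacts [hη, by rw [P.σσ, mul_comm, hη]]) {a, b}
  refine ⟨d, hD d ⟨h1, mem_SLV.2 ?_⟩ (h.mon_of_dg h3), h.mon_of_dg h3, fun v => h.ext fun l => ?_⟩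
  · rw [h2, Finset.prod_pair hab, if_pos rfl, if_neg hab.symm, mul_comm, hη]
  · rw [h3]
    by_cases ha : l = a
    · subst ha; simp [h.unit, h.orth hab]; ring
    by_cases hb : l = b
    · subst hb; simp [h.unit, h.orth ha, ha]; ring
    · simp [ha, hb, h.orth ha, h.orth hb]

omit [Fintype ι] in
theorem exists_i2 {a b : ι} (hab : a ≠ b) : ∃ d ∈ X, Mon e d ∧ I2 P (e a) (e b) d := by
  obtain ⟨d, h1, h2, h3⟩ := h.exists_d hH hP hD hab (η := -1) (by simp)
  exact ⟨d, h1, h2, fun v => by rw [h3, map_neg, map_one]; module⟩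

variable (h2 : (2 : F) ≠ 0) (hμ : MuData σ) (hX : X ≤ P.isom)
  (hst : ∀ g ∈ X, ∀ i, IsPt e (g (e i)) F → Mon e g)
include h2 hμ hX hst

theorem wb {g : V ≃ₗ[F] V} (hg : g ∈ X) {a : ι} (J : Finset ι) (hJ : J.card + 3 ≤ Fintype.card ι)
    (hz : ∀ l, l ∉ J → P.B (e l) (g (e a)) = 0) : Mon e g := by
  classical
  obtain ⟨c, d, f, hc, hd, hf, hcd, hcf, hdf⟩ := Finset.two_lt_card_iff.1
    (show 2 < Jᶜ.card by rw [Finset.card_compl]; omega)
  have hi := hX (X.inv_mem hg)
  have key : ∀ {c d i j : ι}, c ∈ Jᶜ → d ∈ Jᶜ → c ≠ d → i ≠ j →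
      P.B (g⁻¹ (e c)) (e i) * P.B (e j) (g⁻¹ (e c)) ≠ 0 →
      P.B (g⁻¹ (e c)) (e i) * P.B (e j) (g⁻¹ (e c)) =
        -(P.B (g⁻¹ (e d)) (e i) * P.B (e j) (g⁻¹ (e d))) := by
    intro c d i j hc hd hcd hij hA
    refine entry_lemma P.σσ h2 hμ (X := P.B (g⁻¹ (e c)) (e i) * P.B (e i) (g⁻¹ (e c)))
      (Y := P.B (g⁻¹ (e d)) (e i) * P.B (e i) (g⁻¹ (e d)))
      (by rw [map_mul, hH.conj, hH.conj, mul_comm]) (by rw [map_mul, hH.conj, hH.conj, mul_comm])
      hA fun η hη => ?_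
    obtain ⟨m, hm, -, e1⟩ := h.exists_d hH hP hD hcd hη
    have h3 := hst _ (X.mul_mem (X.mul_mem (X.inv_mem hg) hm) hg) a (by
      simpa [e1, hz c (Finset.mem_compl.1 hc), hz d (Finset.mem_compl.1 hd), inv_apply_apply]
        using isPt_self a) i
    have h4 : ∀ l v, P.B (e l) (g v) = P.B (g⁻¹ (e l)) v := fun l v => by
      rw [← hi.B_eq, inv_apply_apply]
    have h5 := h.pt_two h3 hij.symm
    simp only [LinearEquiv.mul_apply, e1, map_add, map_smul, inv_apply_apply, smul_eq_mul,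
      h.unit, h.orth hij.symm, h4] at h5
    exact h5.imp (fun h0 => by linear_combination h0) fun h0 => by linear_combination h0
  have h3 : IsPt e (g⁻¹ (e c)) F := by
    by_contra hpt
    obtain ⟨i, -, hi'⟩ := h.exists_two hpt a
    obtain ⟨j, hji, hj⟩ := h.exists_two hpt i
    have h4 := mul_ne_zero (fun h0 => hi' (P.B_eq_zero_comm.1 h0)) hj
    have h5 := key hc hd hcd hji.symm h4
    have h6 := key hc hf hcf hji.symm h4
    have h7 := key hd hf hdf hji.symm (fun h0 => h4 (by rw [h5, h0, neg_zero]))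
    exact mul_ne_zero h2 h4 (by linear_combination h5 + h6 - h7)
  simpa using h.mon_inv (hst _ (X.inv_mem hg) c h3)

theorem mon_cl (hι : 7 ≤ Fintype.card ι) {k j : V ≃ₗ[F] V} (hk : k ∈ X) {a b : ι} (hab : a ≠ b)
    (hj : I2 P (k (e a)) (k (e b)) j) (hj' : Mon e j) : Mon e k := by
  classical
  obtain ⟨S, h3, hS⟩ := h.exists_moved hj' (hj.sub_mem (Z := Submodule.span F {k (e a), k (e b)})
    (Submodule.subset_span (by simp)) (Submodule.subset_span (by simp)))
  have h4 := finrank_span_pair_le (F := F) (k (e a)) (k (e b))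
  refine h.wb hH hP hD h2 hμ hX hst hk (a := a) S (by omega) fun l hl => ?_
  have h5 := congrArg (P.B (k (e a))) (hS l hl)
  rw [hj] at h5
  simp only [P.B_sub_right, P.B_smul_right, (hX hk).B_eq, h.unit, h.orth hab] at h5
  exact P.B_eq_zero_comm.1 (mul_left_cancel₀ h2 (by linear_combination -h5))

theorem mon_cent (hι : 5 ≤ Fintype.card ι) {y j : V ≃ₗ[F] V} (hy : y ∈ X) {a b : ι} (hab : a ≠ b)
    (hj : I2 P (e a) (e b) j) (hc : y * j = j * y) : Mon e y := by
  classical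
  refine h.wb hH hP hD h2 hμ hX hst hy (a := a) {a, b}
    (le_trans (add_le_add_left Finset.card_le_two 3) hι) fun l hl => ?_
  simp only [Finset.mem_insert, Finset.mem_singleton, not_or] at hl
  have h5 := congrArg (fun g : V ≃ₗ[F] V => P.B (e l) (g (e a))) hc
  simp only [LinearEquiv.mul_apply, hj (e a), hj (y (e a)), map_sub, map_smul, smul_eq_mul, h.unit,
    h.orth hab.symm, h.orth hl.1, h.orth hl.2] at h5
  exact mul_left_cancel₀ h2 (by linear_combination -h5)

theorem exists_cl [Finite F] (hι : 9 ≤ Fintype.card ι) {g : V ≃ₗ[F] V} (hg : g ∈ X)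
    (hg' : ¬ Mon e g) {s t a b : ι} (hst' : s ≠ t) (hab : a ≠ b) :
    ∃ k ∈ movedIn X (Submodule.span F {e s, e t, g (e a), g (e b)}), Mon e (k⁻¹ * g) ∧
      ∃ u w, I2 P u w k := by
  classical
  have : Finite V := Module.finite_of_finite F
  have : Finite (V ≃ₗ[F] V) := Finite.of_injective (fun g : V ≃ₗ[F] V => (g : V → V))
    DFunLike.coe_injective
  obtain ⟨i, hi, hi1, hi2⟩ := h.exists_i2 hH hP hD hst'
  obtain ⟨i', hi', hi1', hi2'⟩ := h.exists_i2 hH hP hD hab
  have hj := hi2'.conj (hX hg)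
  have hii := hi2.sq (h.unit s) (h.unit t) (h.orth hst')
  have hii' := hi2'.sq (h.unit a) (h.unit b) (h.orth hab)
  have mcl := fun {k j : V ≃ₗ[F] V} (hk : k ∈ X) {a b : ι} (hab : a ≠ b)
    (hj : I2 P (k (e a)) (k (e b)) j) => h.mon_cl hH hP hD h2 hμ hX hst (by omega) hk hab hj
  have hiM : i ∈ movedIn X (Submodule.span F {e s, e t, g (e a), g (e b)}) :=
    ⟨hi, hi2.sub_mem (Submodule.subset_span (by simp)) (Submodule.subset_span (by simp))⟩
  rcases dihedral_cases hii (t := g * i' * g⁻¹) (by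
      rw [show g * i' * g⁻¹ * (g * i' * g⁻¹) = g * (i' * i') * g⁻¹ by group, hii']; simp) _ hiM
    ⟨X.mul_mem (X.mul_mem hg hi') (X.inv_mem hg),
      hj.sub_mem (Submodule.subset_span (by simp)) (Submodule.subset_span (by simp))⟩ with
    ⟨u, hu, e1⟩ | ⟨w, hw, hw1, e1, e2, ⟨u, hu, e3⟩, ⟨u', hu', e4⟩⟩
  · have hk := Subgroup.mul_mem _ (Subgroup.mul_mem _ hu hiM) (Subgroup.inv_mem _ hu)
    refine ⟨_, hk, ?_, _, _, hi2.conj (hX hu.1)⟩
    generalize u * i * u⁻¹ = k at hk e1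
    have h3 := X.mul_mem (X.inv_mem hk.1) hg
    refine mcl h3 hab (hi2'.conj (hX h3)) ?_
    rwa [show k⁻¹ * g * i' * (k⁻¹ * g)⁻¹ = k⁻¹ * (g * i' * g⁻¹) * k by group, ← e1,
      show k⁻¹ * (k * i * k⁻¹) * k = i by group]
  exfalso
  have cl : ∀ {x u : V ≃ₗ[F] V}, u ∈ X → x = u * i * u⁻¹ ∨ x = u * (g * i' * g⁻¹) * u⁻¹ →
      ∃ k ∈ X, ∃ c d, c ≠ d ∧ I2 P (k (e c)) (k (e d)) x := by
    rintro x u hu (rfl | rfl)
    · exact ⟨u, hu, s, t, hst', hi2.conj (hX hu)⟩
    · exact ⟨u * g, X.mul_mem hu hg, a, b, hab, hj.conj (hX hu)⟩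
  obtain ⟨k, hk, c, d, -, hc⟩ := cl hu.1 e3
  obtain ⟨k', hk', c', d', hcd', hc'⟩ := cl hu'.1 e4.symm
  obtain ⟨S, h3, hS⟩ := h.exists_moved
    ((h.mon_cent hH hP hD h2 hμ hX hst (by omega) hw.1 hst' hi2 e1).mul hi1)
    (hc.sub_mem (Z := Submodule.span F {k (e c), k (e d)})
    (Submodule.subset_span (by simp)) (Submodule.subset_span (by simp)))
  have h4 := finrank_span_pair_le (F := F) (k (e c)) (k (e d))
  have hw' := X.mul_mem (X.mul_mem (X.inv_mem hg) hw.1) hg
  have h5 := h.mon_cent hH hP hD h2 hμ hX hst (by omega) hw' hab hi2' (by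
    rw [show g⁻¹ * w * g * i' = g⁻¹ * (w * (g * i' * g⁻¹)) * g by group, e2]; group)
  have h6 : I2 P ((g⁻¹ * k') (e c')) ((g⁻¹ * k') (e d')) (g⁻¹ * w * g * i') := by
    have := hc'.conj (hX (X.inv_mem hg))
    rwa [show g⁻¹ * (w * (g * i' * g⁻¹)) * g⁻¹⁻¹ = g⁻¹ * w * g * i' by group] at this
  have hk'' := X.mul_mem (X.inv_mem hg) hk'
  have h7 := h.diag_of (hX hk'') (mcl hk'' hcd' h6 (h5.mul hi1')) hcd' h6
  have h8 := h.diag_of (k := 1) (PQ.IsIso.id P) isPt_self hab hi2'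
  obtain ⟨f, hf⟩ : ∃ f, w (g (e f)) = -g (e f) := by
    by_contra h0
    push Not at h0
    suffices h1 : g⁻¹ * w * g = 1 by
      exact hw1 (by rw [show w = g * (g⁻¹ * w * g) * g⁻¹ by group, h1]; simp)
    refine h.eq_one fun l => ?_
    have h9 : (g⁻¹ * w * g) (e l) = e l ∨ (g⁻¹ * w * g) (e l) = -e l := by
      have := h7 l
      rw [LinearEquiv.mul_apply] at this
      rcases h8 l with h1 | h1 <;> rw [h1] at this
      · exact this
      · simpa [neg_eq_iff_eq_neg, or_comm] using this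
    refine h9.resolve_right fun h1 => h0 l ?_
    simpa [apply_inv_apply] using congrArg g h1
  refine hg' (h.wb hH hP hD h2 hμ hX hst hg (a := f) (S ∪ {s, t}) ?_ fun l hl => ?_)
  · have := Finset.card_union_le S {s, t}
    have := Finset.card_le_two (a := s) (b := t)
    omega
  · simp only [Finset.mem_union, not_or, Finset.mem_insert, Finset.mem_singleton] at hl
    have h9 : w (e l) = e l := by
      simpa [hi2 (e l), h.orth (Ne.symm hl.2.1), h.orth (Ne.symm hl.2.2)] using hS l hl.1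
    have := (hX hw.1).B_eq (e l) (g (e f))
    rw [h9, hf, map_neg] at this
    exact mul_left_cancel₀ h2 (by linear_combination -this)

theorem mon_of_odd [Finite F] (hι : 9 ≤ Fintype.card ι) {g : V ≃ₗ[F] V} (hg : g ∈ X) :
    Mon e g := by
  classical
  by_contra hg'
  obtain ⟨f⟩ : Nonempty (Fin 9 ↪ ι) := Function.Embedding.nonempty_of_card_le (by simpa using hι)
  have hB : ∀ i j, P.B (e (f i)) (e (f j)) = if i = j then 1 else 0 := fun i j => by
    split_ifs with hij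
    · rw [hij, h.unit]
    · exact h.orth (f.injective.ne hij)
  obtain ⟨k, ⟨hk, -⟩, h3, u, w, hkI⟩ := h.exists_cl hH hP hD h2 hμ hX hst hι hg hg'
    (f.injective.ne (show (0 : Fin 9) ≠ 1 by simp)) (f.injective.ne (show (0 : Fin 9) ≠ 1 by simp))
  have hk' : ¬ Mon e k := fun h0 => hg' (by simpa using h0.mul h3)
  obtain ⟨W, hW⟩ : ∃ W, W = Submodule.span F {u, w} := ⟨_, rfl⟩
  have hW2 : finrank F W ≤ 2 := hW ▸ finrank_span_pair_le u w
  have hu : u ∈ W := hW ▸ Submodule.subset_span (by simp)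
  have hw : w ∈ W := hW ▸ Submodule.subset_span (by simp)
  have hkW := hkI.sub_mem hu hw
  have nf : ∀ c, k (e c) ≠ e c := fun c hc => hk' (hst k hk c (hc.symm ▸ isPt_self c))
  have four : ∀ s t a b : Fin 9, s ≠ t → a ≠ b → ∃ α β γ δ : F,
      α • e (f s) + β • e (f t) + γ • e (f a) + δ • e (f b) ∈ W ∧
        ¬ (α = 0 ∧ β = 0 ∧ γ = 0 ∧ δ = 0) := by
    intro s t a b hst' hab
    obtain ⟨j, hj, h4, u', w', hjI⟩ := h.exists_cl hH hP hD h2 hμ hX hst hι hk hk'
      (f.injective.ne hst') (f.injective.ne hab)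
    have h5 := finrank_span_pair_le (F := F) u' w'
    have h6 := Submodule.finrank_add_le_finrank_add_finrank (Submodule.span F {u', w'}) W
    have h7 : j⁻¹ * k ∈ movedIn X (Submodule.span F {u', w'} ⊔ W) :=
      Subgroup.mul_mem _ (Subgroup.inv_mem _ ⟨hj.1, hjI.sub_mem
        (Submodule.mem_sup_left (Submodule.subset_span (by simp)))
        (Submodule.mem_sup_left (Submodule.subset_span (by simp)))⟩)
        ⟨hk, fun v => Submodule.mem_sup_right (hkW v)⟩
    obtain ⟨S, h8, hS⟩ := h.exists_moved h4 h7.2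
    obtain ⟨c, hc⟩ := exists_notMem _ (lt_of_le_of_lt h8 (by omega))
    have h9 : k (e c) = j (e c) := by simpa [apply_inv_apply] using congrArg j (hS c hc)
    have h10 := hj.2 (e c)
    rw [← h9] at h10
    simp only [Submodule.mem_span_insert, Submodule.mem_span_singleton] at h10
    obtain ⟨α, _, ⟨β, _, ⟨γ, _, ⟨δ, rfl⟩, rfl⟩, rfl⟩, h10⟩ := h10
    refine ⟨α, β, γ, δ, ?_, ?_⟩
    · convert W.sub_mem (W.sub_mem (hkW (e c)) (W.smul_mem γ (hkW (e (f a)))))
        (W.smul_mem δ (hkW (e (f b)))) using 1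
      rw [h10]; module
    · rintro ⟨rfl, rfl, rfl, rfl⟩
      exact nf c (by simpa [sub_eq_zero] using h10)
  obtain ⟨α, β, γ, δ, h4, h5⟩ := four 0 1 2 3 (by simp) (by simp)
  obtain ⟨α', β', γ', δ', h4', h5'⟩ := four 4 5 6 7 (by simp) (by simp)
  have h6 : ∀ y ∈ W, P.B (e (f 8)) y = 0 := by
    intro y hy
    by_contra hy'
    obtain ⟨x, hx⟩ : ∃ x, x = α • e (f 0) + β • e (f 1) + γ • e (f 2) + δ • e (f 3) := ⟨_, rfl⟩
    obtain ⟨x', hx'⟩ : ∃ x, x = α' • e (f 4) + β' • e (f 5) + γ' • e (f 6) + δ' • e (f 7) :=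
      ⟨_, rfl⟩
    have c1 : x ≠ 0 := fun h0 => h5 ⟨by simpa [hx, hB] using congrArg (P.B (e (f 0))) h0,
      by simpa [hx, hB] using congrArg (P.B (e (f 1))) h0,
      by simpa [hx, hB] using congrArg (P.B (e (f 2))) h0,
      by simpa [hx, hB] using congrArg (P.B (e (f 3))) h0⟩
    have c2 : x' ∉ Submodule.span F {x} := fun h0 => by
      obtain ⟨t, h0⟩ := Submodule.mem_span_singleton.1 h0
      exact h5' ⟨by simpa [hx, hx', hB, eq_comm] using congrArg (P.B (e (f 4))) h0,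
        by simpa [hx, hx', hB, eq_comm] using congrArg (P.B (e (f 5))) h0,
        by simpa [hx, hx', hB, eq_comm] using congrArg (P.B (e (f 6))) h0,
        by simpa [hx, hx', hB, eq_comm] using congrArg (P.B (e (f 7))) h0⟩
    have c3 : y ∉ Submodule.span F {x} ⊔ Submodule.span F {x'} := fun h0 => hy'
      ((show _ ≤ LinearMap.ker (P.B (e (f 8))) from sup_le
        ((Submodule.span_singleton_le_iff_mem _ _).2 (by simp [hx, hB]))
        ((Submodule.span_singleton_le_iff_mem _ _).2 (by simp [hx', hB]))) h0)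
    have c4 := Submodule.finrank_mono (show Submodule.span F {x} ⊔ Submodule.span F {x'} ⊔
      Submodule.span F {y} ≤ W by simp [hx, hx', h4, h4', hy])
    rw [Submodule.finrank_sup_span_singleton c3, Submodule.finrank_sup_span_singleton c2,
      finrank_span_singleton c1] at c4
    omega
  exact nf (f 8) (by
    simp [hkI (e (f 8)), P.B_eq_zero_comm.1 (h6 u hu), P.B_eq_zero_comm.1 (h6 w hw)])

omit h2 hX hst in
/-- Overgroups of the monomial subgroup of the special unitary group contain all transvections. -/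
theorem tfOn_top_mono [Finite F] (hι : 7 ≤ Fintype.card ι) (hι' : (2 : F) ≠ 0 → 9 ≤ Fintype.card ι)
    (hX : X ≤ SUV P) {g : V ≃ₗ[F] V} (hg : g ∈ X) (hg' : ¬ Mon e g) : TFOn P X ⊤ := by
  obtain ⟨k, hk, i, hi, hk'⟩ : ∃ k ∈ X, ∃ i, IsPt e (k (e i)) F ∧ ¬ Mon e k := by
    by_contra hst
    push Not at hst
    by_cases h2 : (2 : F) = 0
    · exact hg' (h.mon_of_even hH hP h2 hμ hι hX hD hst hg)
    · exact hg' (h.mon_of_odd hH hP hD h2 hμ (fun g hg => (hX hg).1) hst (hι' h2) hg)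
  obtain ⟨m, hm, c, hc, hm'⟩ : ∃ m ∈ X, ∃ c : F, m (e i) = c • e i ∧ ¬ Mon e m := by
    obtain ⟨j, c, hc⟩ := hi
    by_cases hij : j = i
    · exact ⟨k, hk, c, hij ▸ hc, hk'⟩
    obtain ⟨s, hs, hs', s1, -⟩ := h.odec.exists_swap hH hP hij
    obtain ⟨d, hd⟩ := Submodule.mem_span_singleton.1 (s1 _ (Submodule.mem_span_singleton_self _))
    refine ⟨s * k, X.mul_mem (hD s hs (mon_of_permD hs')) hk, c * d, ?_, fun h0 => hk' ?_⟩
    · rw [LinearEquiv.mul_apply, hc, map_smul, ← hd, smul_smul]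
    · simpa using (h.mon_inv (mon_of_permD hs')).mul h0
  obtain ⟨Y, h3, h4, h5, h6⟩ := h.exists_hat hH hP hX hD i
  have h7 : TFOn P Y ⊤ := by
    by_cases hq : ∀ c, σ c = c → c = 0 ∨ c = 1
    · exact h.tfOn_top_of_two hH hP h3 hμ h4 (by omega) hq (h5 m hm c hc) hm'
    · push Not at hq
      obtain ⟨a, ha, ha0, ha1⟩ := hq
      exact h.tfOn_top_of_ne hH hP h3 hμ h4 (by omega) ha ha0 ha1 (h5 m hm c hc) hm'
  intro x _ hx d hd
  obtain ⟨t, ht, e1⟩ := h7 x trivial hx d hd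
  obtain ⟨t', ht', e2⟩ := exists_tv_SUV hH hx hd
  obtain rfl : t = t' := LinearEquiv.ext fun v => by rw [e1, e2]
  exact ⟨t, h6 t ht ht'.2, e1⟩

end Frame

/-- Maximality of the stabiliser of a non-degenerate decomposition in the special unitary group. -/
theorem isMaximalIn_su_nd [Fintype F] {q : ℕ} (hF : Fintype.card F = q ^ 2) {n : ℕ} (hn : 5 ≤ n)
    {t k : ℕ} (D : Fin t → Submodule F (Fin n → F))
    (hD : Cfsg.Geo.IsNondegenerateMDecomposition (Cfsg.hermForm n F q) k D)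
    (hex : ¬ (k = 2 ∧ q = 2)) (hk : k = 1 → 7 ≤ n ∧ ((2 : F) ≠ 0 → 9 ≤ n)) :
    Cfsg.Geo.IsMaximalIn (Cfsg.GU n F q ⊓ Cfsg.Geo.specialLinear (Fin n) F)
      (Cfsg.Geo.decompositionStabilizer D ⊓ (Cfsg.GU n F q ⊓ Cfsg.Geo.specialLinear (Fin n) F)) := by
  have hH := uPQ_isHerm hF n
  have hP := uPQ_nondeg hF n
  refine isMaximalIn_su_dec hF (by omega) D hD fun hO X hX hM g hg hg' => ?_
  have h1 := hO.finrank_le
  have h0 := hO.pos
  rw [finrank_fin_fun] at h1
  rcases show k = 1 ∨ k = 2 ∨ 3 ≤ k by omega with rfl | rfl | h3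
  · choose e he he' using hO.exists_unit hH
    have h2 : ∀ i, D i = Submodule.span F {e i} := fun i => (Submodule.eq_of_le_of_finrank_eq
      ((Submodule.span_singleton_le_iff_mem _ _).2 (he i))
      (by rw [hO.dim, finrank_span_singleton (fun h0 => by simpa [h0] using he' i)])).symm
    have hf : Frame (uPQ hF n) e := ⟨he', fun hij => hO.orth _ _ hij (he _) _ (he _),
      fun v hv => hO.eq_zero hP fun i => by rw [h2]; exact (uPQ hF n).mem_perp_span_singleton.2 (hv i)⟩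
    have h4 : ∀ g, Mon e g → PermD D g := fun g hg => hO.exists_perm fun i => by
      obtain ⟨j, c, hc⟩ := hg i
      refine ⟨j, fun v hv => ?_⟩
      rw [h2] at hv
      obtain ⟨d, rfl⟩ := Submodule.mem_span_singleton.1 hv
      rw [map_smul, hc]
      exact (D j).smul_mem _ ((D j).smul_mem _ (he j))
    exact hf.tfOn_top_mono hH hP (fun g hg hg' => hM g hg (h4 g hg')) (muData_conj hF)
      (by have := (hk rfl).1; omega) (fun h2 => by have := (hk rfl).2 h2; omega) hX hg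
      fun h0 => hg' (h4 g h0)
  · obtain ⟨c, hc, hc0, hc1⟩ := exists_fixed_ne_zero_one hF (fun h => hex ⟨rfl, h⟩)
    exact hO.tf_two hH hP (fun g hg => (hX hg).1) hM rfl (by omega) hc hc0 hc1 hg hg'
  · exact hO.tf_three hH hP (fun g hg => (hX hg).1) hM h3 hg hg'

end CfsgLib.SUMax
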