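import Mathlib
import Cfsg.Agent.Lib.SUMax.SubU
import Cfsg.Agent.Lib.ClMax.SpSubMat

/-!
Subfield subgroups (unitary, orthogonal and symplectic type) of the special unitary group are
maximal.
-/

set_option autoImplicit false

namespace CfsgLib.SUMax

open CfsgLib.Forms CfsgLib.ClMax CfsgLib.RootMax CfsgLib.Unitary Module Matrix

section sp

variable {F : Type*} [Field F] {σ : F →+* F} {V : Type*} [AddCommGroup V] [Module F V]
  {K : Type*} [Field K] [Algebra K F] {V₀ : Type*} [AddCommGroup V₀] [Module K V₀]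

/-- A symplectic rational structure over the fixed field. -/
structure SRat (P : PQ σ V) (B₀ : LinearMap.BilinForm K V₀) (j : V₀ →ₛₗ[algebraMap K F] V)
    (η : F) : Prop where
  hH : P.IsHerm
  hP : P.Nondeg
  hA : B₀.IsAlt
  hB : B₀.Nondegenerate
  hη : η ≠ 0
  hη' : η + σ η = 0
  hσ : ∀ a, σ (algebraMap K F a) = algebraMap K F a
  hfix : ∀ a, σ a = a → a ∈ (algebraMap K F).fieldRange
  hj : ∀ u v, P.B (j u) (j v) = η * algebraMap K F (B₀ u v)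
  span : Submodule.span F (Set.range j) = ⊤

namespace SRat

variable {P : PQ σ V} {B₀ : LinearMap.BilinForm K V₀} {j : V₀ →ₛₗ[algebraMap K F] V} {η : F}
  (h : SRat P B₀ j η) {M : Subgroup (V ≃ₗ[F] V)}
include h

theorem iso (x : V₀) : P.B (j x) (j x) = 0 := by rw [h.hj, h.hA.self_eq_zero]; simp

theorem mul_mem {d : F} (hd : d + σ d = 0) : ∃ k, algebraMap K F k = d * η :=
  h.hfix _ (by rw [map_mul]; linear_combination σ η * hd - d * h.hη')

theorem tv_rat {x : V₀} {d : F} (hd : d + σ d = 0) {g : V ≃ₗ[F] V}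
    (e : ∀ v, g v = v + (d * P.B (j x) v) • j x) (v : V₀) : ∃ w, g (j v) = j w := by
  obtain ⟨k, hk⟩ := h.mul_mem hd
  exact ⟨v + (k * B₀ x v) • x, by rw [e, h.hj, map_add, map_smulₛₗ, map_mul, hk, mul_assoc]⟩

variable [FiniteDimensional K V₀]

theorem lift (hT : ∀ x, TF P M (j x)) {g₀ : V₀ ≃ₗ[K] V₀} (hg₀ : (ofAlt B₀ h.hA).IsIso g₀) :
    ∃ g ∈ M, ∀ v, g (j v) = j (g₀ v) := by
  let T : Subgroup (V₀ ≃ₗ[K] V₀) :=
    { carrier := {g₀ | ∃ g ∈ M, ∀ v, g (j v) = j (g₀ v)}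
      mul_mem' := by
        rintro a b ⟨g, hg, e⟩ ⟨g', hg', e'⟩
        exact ⟨g * g', M.mul_mem hg hg', fun v => by simp [e, e']⟩
      one_mem' := ⟨1, M.one_mem, fun _ => rfl⟩
      inv_mem' := by
        rintro a ⟨g, hg, e⟩
        refine ⟨g⁻¹, M.inv_mem hg, fun v => g.injective ?_⟩
        rw [apply_inv_apply, e, apply_inv_apply] }
  refine (alt_mem_of_transvections B₀ h.hA h.hB (T ⊓ (ofAlt B₀ h.hA).isom) inf_le_right
    (fun k x d hk => ⟨?_, ?_⟩) g₀ hg₀).1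
  · obtain ⟨g, hg, e⟩ := hT x (algebraMap K F d / η) (by
      have : σ η = -η := by linear_combination h.hη'
      rw [map_div₀, h.hσ, this]; ring)
    refine ⟨g, hg, fun v => ?_⟩
    rw [e, hk, h.hj, map_add, map_smulₛₗ, map_mul, ← mul_assoc, div_mul_cancel₀ _ h.hη]
  · refine (ofAlt_isIso B₀ h.hA k).2 fun u v => ?_
    simp only [hk, map_add, map_smul, LinearMap.add_apply, LinearMap.smul_apply,
      h.hA.self_eq_zero, ← h.hA.neg_eq x u, smul_eq_mul]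
    ring

theorem tf_all (hM : M ≤ P.isom) (hT : ∀ x, TF P M (j x)) {g : V ≃ₗ[F] V} (hg : g ∈ M)
    (hgH : ¬ ∃ c : F, c ≠ 0 ∧ ∀ v, ∃ w, g (j v) = c • j w) (z : V) (hz : P.B z z = 0) :
    TF P M z := by
  obtain ⟨θ, hθ⟩ := h.hH.exists_ne_conj
  have hdec := span_decomp (fixed_decomp P.σσ h.hfix hθ) h.span
  have hP₀ := ofAlt_nondeg B₀ h.hA h.hB
  have key : ∀ z, P.B z z = 0 → (∃ (c : F) (w : V₀), z = c • j w) ∨
      ∃ a b, LinearIndependent K ![a, b] ∧ B₀ a b = 0 ∧ z = j a + θ • j b := by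
    intro z hz
    obtain ⟨a, b, rfl⟩ := hdec z
    by_cases hab : LinearIndependent K ![a, b]
    · refine Or.inr ⟨a, b, hab, ?_, rfl⟩
      simp only [P.B_add_left, P.B_add_right, P.B_smul_left, P.B_smul_right, h.hj,
        h.hA.self_eq_zero, ← h.hA.neg_eq a b, map_zero, map_neg] at hz
      have : (σ θ - θ) * η * algebraMap K F (B₀ a b) = 0 := by linear_combination -hz
      simpa [sub_ne_zero.2 hθ, h.hη] using this
    left
    by_cases ha : a = 0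
    · exact ⟨θ, b, by simp [ha]⟩
    rw [LinearIndependent.pair_iff' ha] at hab
    push Not at hab
    obtain ⟨t, rfl⟩ := hab
    exact ⟨1 + θ * algebraMap K F t, a, by rw [map_smulₛₗ]; module⟩
  by_cases h1 : ∀ x, ∃ (c : F) (w : V₀), g (j x) = c • j w
  swap
  · push Not at h1
    obtain ⟨x, hx⟩ := h1
    obtain ⟨c, w, e⟩ | ⟨a, b, hab, hab', e⟩ := key (g (j x)) (by rw [(hM hg).B_eq, h.iso])
    · exact absurd e (hx c w)
    obtain ⟨c, w, rfl⟩ | ⟨a', b', hab₁, hab₁', rfl⟩ := key z hz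
    · exact (hT w).smul c
    obtain ⟨g₀, hg₀, e₀⟩ := (ofAlt B₀ h.hA).witt_family hP₀ _ _ hab hab₁ (by
      intro i k
      fin_cases i <;> fin_cases k <;>
        simp [ofAlt_B, h.hA.self_eq_zero, ← h.hA.neg_eq a b, ← h.hA.neg_eq a' b', hab', hab₁'])
      fun _ => trivial
    obtain ⟨k, hk, ek⟩ := h.lift hT hg₀
    have := ((hT x).conj hg (hM hg)).conj hk (hM hk)
    rwa [e, map_add, map_smul, ek, ek, show g₀ a = a' from e₀ 0, show g₀ b = b' from e₀ 1] at this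
  exfalso
  apply hgH
  by_cases h0 : ∀ x : V₀, x = 0
  · exact ⟨1, one_ne_zero, fun v => ⟨0, by simp [h0 v]⟩⟩
  push Not at h0
  obtain ⟨x, hx0⟩ := h0
  obtain ⟨c, w, e⟩ := h1 x
  obtain ⟨y, hxy⟩ : ∃ y, B₀ x y ≠ 0 := by
    by_contra hcon
    push Not at hcon
    exact hx0 (h.hB.1 x hcon)
  have h2 : ∀ v, B₀ x v ≠ 0 → c ≠ 0 ∧ ∃ w, g (j v) = c • j w := by
    intro v hv
    obtain ⟨c', w', e'⟩ := h1 v
    have h3 := (hM hg).B_eq (j x) (j v)
    rw [e, e', P.B_smul_left, P.B_smul_right, h.hj, h.hj] at h3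
    have h4 : η * algebraMap K F (B₀ x v) ≠ 0 := mul_ne_zero h.hη (by simpa using hv)
    have hc : σ c ≠ 0 := fun h0 => h4 (by rw [← h3, h0, zero_mul])
    have hc' : c ≠ 0 := by simpa using hc
    have hw : algebraMap K F (B₀ w w') ≠ 0 := fun h0 => h4 (by rw [← h3, h0]; simp)
    obtain ⟨ν, hν⟩ := h.hfix (σ c * c) (by rw [map_mul, P.σσ, mul_comm])
    refine ⟨hc', (B₀ x v / B₀ w w' / ν) • w', ?_⟩
    rw [e', map_smulₛₗ, smul_smul, map_div₀, map_div₀, hν]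
    congr 1
    have := h.hη
    field_simp
    linear_combination (η⁻¹) * h3 + (-(c' * algebraMap K F (B₀ w w') * σ c) +
      algebraMap K F (B₀ x v)) * (mul_inv_cancel₀ this)
  refine ⟨c, (h2 y hxy).1, fun v => ?_⟩
  by_cases hv : B₀ x v = 0
  · obtain ⟨w₁, e₁⟩ := (h2 (v + y) (by simpa [hv] using hxy)).2
    obtain ⟨w₂, e₂⟩ := (h2 y hxy).2
    exact ⟨w₁ - w₂, by rw [map_sub, smul_sub, ← e₁, ← e₂, map_add, map_add, add_sub_cancel_right]⟩
  · exact (h2 v hv).2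

theorem exists_irr [FiniteDimensional F V] (hd : 3 ≤ finrank K V₀) :
    ∃ g ∈ SUV P, ¬ ∃ c : F, c ≠ 0 ∧ ∀ v, ∃ w, g (j v) = c • j w := by
  obtain ⟨θ, hθ⟩ := h.hH.exists_ne_conj
  obtain ⟨a, -, -, ha⟩ := exists_orth_ne_zero (ofAlt B₀ h.hA) ⊤ ![] (by rw [finrank_top]; omega)
  obtain ⟨b, -, hb, hba⟩ := exists_orth_not_mem (ofAlt B₀ h.hA) ⊤ (Submodule.span K {a}) ![a]
    (by have := finrank_span_one_le (F := K) a; rw [finrank_top]; omega)
  have hab : B₀ a b = 0 := hb 0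
  have hba' : B₀ b a = 0 := by rw [← h.hA.neg_eq, hab, neg_zero]
  have hP₀ := ofAlt_nondeg B₀ h.hA h.hB
  obtain ⟨f, hf1, hf2⟩ := (ofAlt B₀ h.hA).exists_dual_vec hP₀ _ hba
  have hfb : B₀ f b = 1 := hf1
  have hfa : B₀ f a = 0 := hf2 a (Submodule.mem_span_singleton_self a)
  obtain ⟨e, he1, he2⟩ := (ofAlt B₀ h.hA).exists_dual_vec hP₀ (Submodule.span K {b}) (u := a) (by
    intro hh
    obtain ⟨t, rfl⟩ := Submodule.mem_span_singleton.1 hh
    have : t = 0 := by simpa [hfb] using hfa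
    simp [this] at ha)
  have hea : B₀ e a = 1 := he1
  have heb : B₀ e b = 0 := he2 b (Submodule.mem_span_singleton_self b)
  obtain ⟨g, hg, eg⟩ := exists_tv_SUV h.hH (x := j a + θ • j b) (d := η⁻¹) (by
    simp only [P.B_add_left, P.B_add_right, P.B_smul_left, P.B_smul_right, h.hj,
      h.hA.self_eq_zero, hab, hba']; simp) (by
    have : σ η = -η := by linear_combination h.hη'
    rw [map_inv₀, this]; simp)
  refine ⟨g, hg, ?_⟩
  rintro ⟨c, hc, hgc⟩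
  obtain ⟨w, hw⟩ := hgc a
  obtain ⟨w', hw'⟩ := hgc e
  have h1 := congrArg (P.B (j e)) hw
  have h3 := congrArg (P.B (j f)) hw'
  simp only [eg, P.B_add_left, P.B_add_right, P.B_smul_left, P.B_smul_right, h.hj,
    h.hA.self_eq_zero, hba', hea, heb, hfa, hfb, ← h.hA.neg_eq e a, ← h.hA.neg_eq e b, map_zero,
    map_one, map_neg] at h1 h3
  have hη := h.hη
  have h4 : algebraMap K F (B₀ e w) ≠ 0 := fun h0 => hη (by rw [h0] at h1; simpa using h1)
  refine hθ ?_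
  have : θ = algebraMap K F (B₀ f e - B₀ f w' / B₀ e w) := by
    rw [map_sub, map_div₀]
    field_simp at h1 h3 ⊢
    linear_combination (-algebraMap K F (B₀ e w)) * h3 + algebraMap K F (B₀ f w') * h1
  rw [this, h.hσ]

end SRat

end sp

variable {F : Type*} [Field F] [Fintype F] {q : ℕ} (hF : Fintype.card F = q ^ 2) {n : ℕ}

/-- The restriction of `x ↦ x ^ q` to a subfield. -/
def conj₀ (F₀ : Subfield F) : F₀ →+* F₀ :=
  (conj hF).restrict F₀ F₀ fun _ hx => F₀.pow_mem hx q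

theorem conj₀_coe (F₀ : Subfield F) (a : F₀) : (conj₀ hF F₀ a : F) = conj hF a := rfl

/-- The rational form of a form-rational structure. -/
noncomputable def ratSesq (F₀ : Subfield F) (Q : GL (Fin n) F) (ζ : F)
    (hQ : Cfsg.Geo.IsFormRationalStructure (Cfsg.hermForm n F q) F₀ ζ Q) :
    (Fin n → F₀) →ₛₗ[conj₀ hF F₀] (Fin n → F₀) →ₗ[F₀] F₀ :=
  LinearMap.mk₂'ₛₗ _ _ (fun u v => ⟨ζ * (uPQ hF n).B (ratEmb F₀ Q u) (ratEmb F₀ Q v),
      hQ _ _ (fun i => (v i).2) fun i => (u i).2⟩)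
    (fun _ _ _ => Subtype.ext (by simp [mul_add]))
    (fun c u v => Subtype.ext (by
      simp only [map_smulₛₗ, LinearMap.smul_apply, smul_eq_mul]
      exact mul_left_comm _ _ _))
    (fun _ _ _ => Subtype.ext (by simp [mul_add]))
    (fun c u v => Subtype.ext (by
      simp only [map_smulₛₗ, smul_eq_mul]
      exact mul_left_comm _ _ _))

theorem ratSesq_coe (F₀ : Subfield F) (Q : GL (Fin n) F) (ζ : F)
    (hQ : Cfsg.Geo.IsFormRationalStructure (Cfsg.hermForm n F q) F₀ ζ Q) (u v : Fin n → F₀) :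
    (ratSesq hF F₀ Q ζ hQ u v : F) = ζ * (uPQ hF n).B (ratEmb F₀ Q u) (ratEmb F₀ Q v) := rfl

theorem ratSesq_left (F₀ : Subfield F) (Q : GL (Fin n) F) {ζ : F} (hζ : ζ ≠ 0)
    (hQ : Cfsg.Geo.IsFormRationalStructure (Cfsg.hermForm n F q) F₀ ζ Q) (x : Fin n → F₀)
    (hx : ∀ y, ratSesq hF F₀ Q ζ hQ x y = 0) : x = 0 := by
  apply ratEmb_injective F₀ Q
  rw [map_zero]
  refine eq_zero_of_span (uPQ_nondeg hF n) (ratEmb_span F₀ Q) fun e => ?_
  have := congrArg Subtype.val (hx e)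
  rw [ratSesq_coe] at this
  exact (uPQ hF n).B_eq_zero_comm.1 ((mul_eq_zero.1 this).resolve_left hζ)

theorem exists_iso_of_three {K : Type*} [Field K] [Finite K] {σ₀ : K →+* K} {V₀ : Type*}
    [AddCommGroup V₀] [Module K V₀] [FiniteDimensional K V₀] (hσ : ∀ a, σ₀ (σ₀ a) = a)
    (B : V₀ →ₛₗ[σ₀] V₀ →ₗ[K] K) (hS : B.IsSymm) (Z : Submodule K V₀) (hZ : 3 ≤ finrank K Z) :
    ∃ x ∈ Z, x ≠ 0 ∧ B x x = 0 := by
  by_cases h : σ₀ = RingHom.id K
  · subst h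
    exact quad_exists_sing (LinearMap.BilinMap.toQuadraticMap B) hZ
  · obtain ⟨x, hx, h0, hs⟩ := herm_exists_sing (ofHerm_isHerm_of_finite h hσ B hS) (Z := Z)
      (by omega)
    exact ⟨x, hx, h0, hs.self_eq⟩

theorem ratSesq_isSymm (F₀ : Subfield F) (Q : GL (Fin n) F)
    (hQ : Cfsg.Geo.IsFormRationalStructure (Cfsg.hermForm n F q) F₀ 1 Q) :
    (ratSesq hF F₀ Q 1 hQ).IsSymm := ⟨fun u v => Subtype.ext (by
  rw [conj₀_coe, ratSesq_coe, ratSesq_coe, one_mul, one_mul, (uPQ_isHerm hF n).conj])⟩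

theorem uRat_su (F₀ : Subfield F) (Q : GL (Fin n) F)
    (hQ : Cfsg.Geo.IsFormRationalStructure (Cfsg.hermForm n F q) F₀ 1 Q) (θ : F₀)
    (hθ : θ + conj₀ hF F₀ θ = 1)
    (hβ : ∀ β : F, (∀ l ∈ F₀, l * β - conj hF (l * β) ∈ F₀) → β ∈ F₀)
    (M : Subgroup ((Fin n → F) ≃ₗ[F] (Fin n → F))) (hM : M ≤ SUV (uPQ hF n))
    (hH : ∀ g ∈ SUV (uPQ hF n),
      (∃ c : F, c ≠ 0 ∧ ∀ v, ∃ w, g (ratEmb F₀ Q v) = c • ratEmb F₀ Q w) → g ∈ M) :
    URat (uPQ hF n) (ofHermθ (fun a => Subtype.ext (conj_conj hF a)) θ hθ (ratSesq hF F₀ Q 1 hQ)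
      (ratSesq_isSymm hF F₀ Q hQ)) (ratEmb F₀ Q) M := by
  have hr : ∀ a : F, a ∈ (algebraMap F₀ F).fieldRange ↔ a ∈ F₀ := fun a =>
    ⟨by rintro ⟨k, rfl⟩; exact k.2, fun h => ⟨⟨a, h⟩, rfl⟩⟩
  have hj : ∀ u v, (uPQ hF n).B (ratEmb F₀ Q u) (ratEmb F₀ Q v) =
      algebraMap F₀ F (ratSesq hF F₀ Q 1 hQ u v) := fun u v => (one_mul _).symm
  refine ⟨uPQ_isHerm hF n, uPQ_nondeg hF n, ratSesq_left hF F₀ Q one_ne_zero hQ, fun _ => rfl, hj,
    ratEmb_span F₀ Q, hM.trans inf_le_left, ⟨θ, hθ⟩,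
    exists_iso_of_three (fun a => Subtype.ext (conj_conj hF a)) _ (ratSesq_isSymm hF F₀ Q hQ),
    fun β h => (hr β).2 (hβ β fun l hl => (hr _).1 (h ⟨l, hl⟩)), fun x a c hx ha hc => ?_⟩
  change ratSesq hF F₀ Q 1 hQ _ _ = _ at hx ha
  change _ = ratSesq hF F₀ Q 1 hQ _ _ at hc
  obtain ⟨g, hg, e⟩ := exists_rt_SUV (uPQ_isHerm hF n) (x := ratEmb F₀ Q x) (a := ratEmb F₀ Q a)
    (c := algebraMap F₀ F c) (by rw [hj, hx, map_zero]) (by rw [hj, ha, map_zero])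
    (by rw [hj, ← hc, map_add]; rfl)
  refine ⟨g, hH g hg ⟨1, one_ne_zero, fun v => ⟨v + (ratSesq hF F₀ Q 1 hQ a v -
    c * ratSesq hF F₀ Q 1 hQ x v) • x - ratSesq hF F₀ Q 1 hQ x v • a, ?_⟩⟩,
    fun v => by rw [e, rt_herm (uPQ_isHerm hF n)]⟩
  rw [e, hj, hj, one_smul, map_sub, map_add, map_smulₛₗ, map_smulₛₗ, map_sub, map_mul]

theorem fieldRange_ne_top (F₀ : Subfield F) (h : finrank F₀ F ≠ 1) :
    (algebraMap F₀ F).fieldRange ≠ ⊤ := fun h0 => h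
  (Algebra.finrank_eq_one_iff_bijective_algebraMap.2 ⟨(algebraMap F₀ F).injective,
    fun a => (h0 ▸ Subfield.mem_top a : a ∈ (algebraMap F₀ F).fieldRange)⟩)

include hF in
/-- Subfield subgroups of unitary type are maximal in `SU_n(q)`, `n ≥ 5`. -/
theorem isMaximalIn_su_subfield (hn : 5 ≤ n) (F₀ : Subfield F) (r : ℕ) (hr : r.Prime)
    (hro : Odd r) (hcard : Fintype.card F = Nat.card F₀ ^ r) (Q : GL (Fin n) F)
    (hQ : Cfsg.Geo.IsFormRationalStructure (Cfsg.hermForm n F q) F₀ 1 Q) :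
    Cfsg.Geo.IsMaximalIn (Cfsg.GU n F q ⊓ Cfsg.Geo.specialLinear (Fin n) F)
      (Cfsg.Geo.subfieldSubgroup F₀ Q ⊓ (Cfsg.GU n F q ⊓ Cfsg.Geo.specialLinear (Fin n) F)) := by
  have hr' := finrank_eq_of_card_eq_pow F₀ hcard
  have hσ : conj₀ hF F₀ ≠ RingHom.id F₀ := by
    intro h
    let τ : F ≃ₐ[F₀] F := AlgEquiv.ofBijective
      { conj hF with commutes' := fun a => congrArg Subtype.val (RingHom.congr_fun h a) }
      (Function.Involutive.bijective (conj_conj hF))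
    have h1 : orderOf τ = 2 := orderOf_eq_prime (AlgEquiv.ext fun a => conj_conj hF a)
      fun h0 => conj_ne_id hF (RingHom.ext fun a => AlgEquiv.congr_fun h0 a)
    have h2 := orderOf_dvd_natCard τ
    rw [h1, IsGalois.card_aut_eq_finrank, hr'] at h2
    exact (Nat.not_even_iff_odd.2 hro) (even_iff_two_dvd.2 h2)
  have hσ2 : ∀ a, conj₀ hF F₀ (conj₀ hF F₀ a) = a := fun a => Subtype.ext (conj_conj hF a)
  obtain ⟨θ, hθ⟩ := exists_add_conj_eq_one hσ hσ2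
  obtain ⟨t, ht⟩ : ∃ t, conj₀ hF F₀ t ≠ t := by
    by_contra h; push Not at h; exact hσ (RingHom.ext h)
  have hβ : ∀ β : F, (∀ l ∈ F₀, l * β - conj hF (l * β) ∈ F₀) → β ∈ F₀ := by
    intro β h
    have h1 : (t : F) - conj₀ hF F₀ t ≠ 0 := sub_ne_zero.2 fun h => ht (Subtype.ext h.symm)
    convert F₀.div_mem (F₀.sub_mem (h t t.2) (F₀.mul_mem (conj₀ hF F₀ t).2 (h 1 F₀.one_mem)))
      (F₀.sub_mem t.2 (conj₀ hF F₀ t).2) using 1
    rw [eq_div_iff h1, map_mul, one_mul, conj₀_coe]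
    ring
  refine isMaximalIn_su hF (by omega) _
    (fun g => ∃ c : F, c ≠ 0 ∧ ∀ v, ∃ w, g (ratEmb F₀ Q v) = c • ratEmb F₀ Q w)
    (fun g _ => mem_subfieldSubgroup F₀ Q g)
    ((uRat_su hF F₀ Q hQ θ hθ hβ _ le_rfl fun g hg _ => hg).exists_irr (by simpa using hn)
      (fieldRange_ne_top F₀ (hr' ▸ hr.one_lt.ne')))
    fun M hM hH g hg hgH x hx => tf_of_allFull (uPQ_isHerm hF n)
      ((uRat_su hF F₀ Q hQ θ hθ hβ M hM hH).allFull_unitary (by simpa using hn) (hr' ▸ hr)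
        (hr' ▸ hro) (δ := t - conj₀ hF F₀ t) (sub_ne_zero.2 ht.symm)
        (by rw [map_sub, hσ2]; ring) hg hgH) hx

theorem mem_iff_conj (F₀ : Subfield F) (hcard : Fintype.card F = Nat.card F₀ ^ 2) (a : F) :
    a ∈ F₀ ↔ conj hF a = a := by
  have hq : Nat.card F₀ = q := Nat.pow_left_injective two_ne_zero (hcard.symm.trans hF)
  have h1 : F₀ ≤ fixedSubfield hF := fun x hx => by
    have : Fintype F₀ := Fintype.ofFinite F₀
    have h := FiniteField.pow_card (⟨x, hx⟩ : F₀)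
    rw [← Nat.card_eq_fintype_card, hq] at h
    exact (mem_fixedSubfield hF).2 (congrArg Subtype.val h)
  have h2 : F₀ = fixedSubfield hF := SetLike.ext' (Set.eq_of_subset_of_ncard_le h1
    (by rw [← Nat.card_coe_set_eq, ← Nat.card_coe_set_eq]
        exact ((card_fixedSubfield hF).trans hq.symm).le) (Set.toFinite _))
  rw [h2, mem_fixedSubfield hF, conj_apply]

include hF in
/-- Subfield subgroups of orthogonal type are maximal in `SU_n(q)`, `n ≥ 6`, `q` odd. -/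
theorem isMaximalIn_su_orth (hn : 6 ≤ n) (hodd : Odd q) (F₀ : Subfield F)
    (hcard : Fintype.card F = Nat.card F₀ ^ 2) (Q : GL (Fin n) F)
    (hQ : Cfsg.Geo.IsFormRationalStructure (Cfsg.hermForm n F q) F₀ 1 Q) :
    Cfsg.Geo.IsMaximalIn (Cfsg.GU n F q ⊓ Cfsg.Geo.specialLinear (Fin n) F)
      (Cfsg.Geo.subfieldSubgroup F₀ Q ⊓ (Cfsg.GU n F q ⊓ Cfsg.Geo.specialLinear (Fin n) F)) := by
  have hr' := finrank_eq_of_card_eq_pow F₀ hcard
  have hm := mem_iff_conj hF F₀ hcard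
  have h2 : (2 : F) ≠ 0 := by
    intro h2
    have : CharP F 2 := CharTwo.of_one_ne_zero_of_two_eq_zero one_ne_zero h2
    have := FiniteField.even_card_iff_char_two.1 (ringChar.eq F 2)
    have h3 := hodd.pow (n := 2)
    rw [← hF, Nat.odd_iff] at h3
    omega
  have hθ : (2⁻¹ : F₀) + conj₀ hF F₀ 2⁻¹ = 1 := by
    have : (2 : F₀) ≠ 0 := fun h => h2 (by
      have := congrArg F₀.subtype h; rwa [map_ofNat, map_zero] at this)
    rw [map_inv₀, map_ofNat]; field_simp; ring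
  have hβ : ∀ β : F, (∀ l ∈ F₀, l * β - conj hF (l * β) ∈ F₀) → β ∈ F₀ := by
    intro β h
    have h1 := (hm _).1 (h 1 F₀.one_mem)
    rw [one_mul, map_sub, conj_conj] at h1
    exact (hm β).2 (mul_left_cancel₀ h2 (by linear_combination h1))
  refine isMaximalIn_su hF (by omega) _
    (fun g => ∃ c : F, c ≠ 0 ∧ ∀ v, ∃ w, g (ratEmb F₀ Q v) = c • ratEmb F₀ Q w)
    (fun g _ => mem_subfieldSubgroup F₀ Q g)
    ((uRat_su hF F₀ Q hQ _ hθ hβ _ le_rfl fun g hg _ => hg).exists_irr (by simp; omega)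
      (fieldRange_ne_top F₀ (by omega)))
    fun M hM hH g hg hgH x hx => tf_of_allFull (uPQ_isHerm hF n)
      ((uRat_su hF F₀ Q hQ _ hθ hβ M hM hH).allFull_orth (by simpa using hn) hr'
        (fun a ha => ⟨⟨a, (hm a).2 ha⟩, rfl⟩) hg hgH) hx

include hF in
/-- Subfield subgroups of symplectic type are maximal in `SU_n(q)`, `n ≥ 4`. -/
theorem isMaximalIn_su_symp (hn : 4 ≤ n) (F₀ : Subfield F)
    (hcard : Fintype.card F = Nat.card F₀ ^ 2) (ζ : F) (hζ0 : ζ ≠ 0) (hζ : ζ + ζ ^ q = 0)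
    (Q : GL (Fin n) F) (hQ : Cfsg.Geo.IsFormRationalStructure (Cfsg.hermForm n F q) F₀ ζ Q)
    (halt : ∀ u : Fin n → F, (∀ i, u i ∈ F₀) → Cfsg.hermForm n F q
      ((Q : Matrix (Fin n) (Fin n) F) *ᵥ u) ((Q : Matrix (Fin n) (Fin n) F) *ᵥ u) = 0) :
    Cfsg.Geo.IsMaximalIn (Cfsg.GU n F q ⊓ Cfsg.Geo.specialLinear (Fin n) F)
      (Cfsg.Geo.subfieldSubgroup F₀ Q ⊓ (Cfsg.GU n F q ⊓ Cfsg.Geo.specialLinear (Fin n) F)) := by
  have hm := mem_iff_conj hF F₀ hcard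
  have hc : ∀ a : F₀, conj₀ hF F₀ a = a := fun a => Subtype.ext ((hm a).1 a.2)
  let B₀ : LinearMap.BilinForm F₀ (Fin n → F₀) :=
    LinearMap.mk₂ F₀ (fun u v => ratSesq hF F₀ Q ζ hQ u v) (fun _ _ _ => by simp)
      (fun _ _ _ => by simp [hc]) (fun _ _ _ => by simp) (fun _ _ _ => by simp)
  have hA : B₀.IsAlt := fun u => Subtype.ext (by
    change ζ * Cfsg.hermForm n F q _ _ = 0
    rw [ratEmb_apply, halt _ fun i => (u i).2, mul_zero])
  have h : SRat (uPQ hF n) B₀ (ratEmb F₀ Q) ζ⁻¹ := by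
    refine ⟨uPQ_isHerm hF n, uPQ_nondeg hF n, hA, ?_, inv_ne_zero hζ0, ?_,
      fun a => (hm a).1 a.2, fun a ha => ⟨⟨a, (hm a).2 ha⟩, rfl⟩, fun u v => ?_, ratEmb_span F₀ Q⟩
    · rw [LinearMap.BilinForm.Nondegenerate,
        LinearMap.IsRefl.nondegenerate_iff_separatingLeft hA.isRefl]
      exact ratSesq_left hF F₀ Q hζ0 hQ
    · have : conj hF ζ = -ζ := by rw [conj_apply]; linear_combination hζ
      rw [map_inv₀, this]; simp
    · exact (inv_mul_cancel_left₀ hζ0 _).symm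
  refine isMaximalIn_su hF hn _
    (fun g => ∃ c : F, c ≠ 0 ∧ ∀ v, ∃ w, g (ratEmb F₀ Q v) = c • ratEmb F₀ Q w)
    (fun g _ => mem_subfieldSubgroup F₀ Q g) (h.exists_irr (by simp; omega))
    fun M hM hH g hg hgH => h.tf_all (hM.trans inf_le_left) (fun x d hd => ?_) hg hgH
  obtain ⟨k, hk, e⟩ := exists_tv_SUV h.hH (h.iso x) hd
  exact ⟨k, hH k hk ⟨1, one_ne_zero, by simpa using h.tv_rat hd e⟩, e⟩

end CfsgLib.SUMax
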