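import Mathlib
import Cfsg.Agent.Lib.SUMax.Mono3

/-!
The monomial subgroup of the special unitary group in dimension at least six, odd characteristic.
-/

set_option autoImplicit false

namespace CfsgLib.SUMax

open CfsgLib.Forms CfsgLib.ClMax CfsgLib.RootMax Module

theorem dihedral_odd_or {G : Type*} [Group G] [Finite G] {s t : G} (hs : s * s = 1)
    (ht : t * t = 1) (M : Subgroup G) (hsM : s ∈ M) (htM : t ∈ M) :
    Odd (orderOf (s * t)) ∨ ∃ w ∈ M, w ≠ 1 ∧ w * s = s * w ∧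
      w * t = t * w ∧ (∃ u ∈ M, w * s = u * s * u⁻¹ ∨ w * s = u * t * u⁻¹) ∧
      ∃ u ∈ M, w * t = u * t * u⁻¹ ∨ w * t = u * s * u⁻¹ := by
  have hr : ∀ i : ℕ, (s * t) ^ i ∈ M := fun i => M.pow_mem (M.mul_mem hsM htM) i
  have hm := pow_orderOf_eq_one (s * t)
  have h0 := orderOf_pos (s * t)
  rcases Nat.even_or_odd' (orderOf (s * t)) with ⟨k, hk | hk⟩
  · right
    rw [hk] at hm
    have h1 : (t * s) ^ k = (s * t) ^ k := by
      rw [two_mul, pow_add, mul_eq_one_iff_eq_inv] at hm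
      rw [hm, ← inv_pow, mul_inv_rev, inv_eq_of_mul_eq_one_right hs,
        inv_eq_of_mul_eq_one_right ht]
    have h2 : ∀ a b : G, (a * b) ^ k * a = a * (b * a) ^ k := fun a b =>
      ((show SemiconjBy a (b * a) (a * b) from (mul_assoc _ _ _).symm).pow_right k).eq.symm
    refine ⟨_, hr k, pow_ne_one_of_lt_orderOf (by omega) (by omega), by rw [h2, h1],
      by rw [← h1, h2, h1], dihedral_even hs ht k M hsM htM, ?_⟩
    rw [← h1]
    exact dihedral_even ht hs k M htM hsM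
  · exact Or.inl ⟨k, hk⟩

theorem dihedral_of_odd {G : Type*} [Group G] {s t : G} (hs : s * s = 1) (ht : t * t = 1)
    (M : Subgroup G) (hsM : s ∈ M) (htM : t ∈ M) (ho : Odd (orderOf (s * t))) :
    ∃ u ∈ M, (u * s * u⁻¹) * s * (u * s * u⁻¹)⁻¹ = t := by
  have hr : ∀ i : ℕ, (s * t) ^ i ∈ M := fun i => M.pow_mem (M.mul_mem hsM htM) i
  have hm := pow_orderOf_eq_one (s * t)
  obtain ⟨k, hk⟩ := ho
  rw [hk] at hm
  refine ⟨_, hr (k * (k + 1)), ?_⟩
  have h6 := dihedral_conj hs ht k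
  rw [dihedral_conj hs ht, show 2 * (k * (k + 1)) = (2 * k + 1) * k + k by ring, pow_add,
    pow_mul, hm, one_pow, one_mul, mul_inv_rev, ← mul_assoc, mul_inv_cancel_right, h6]
  rw [pow_succ, ← mul_assoc, mul_eq_one_iff_eq_inv, inv_eq_of_mul_eq_one_right ht] at hm
  exact hm

theorem eq_of_sq_of_odd {G : Type*} [Group G] {x y : G} (hx : Odd (orderOf x))
    (hy : Odd (orderOf y)) (h : x * x = y * y) : x = y := by
  obtain ⟨m, hm⟩ := hx.mul hy
  have h1 : x ^ (2 * m + 1) = 1 := by rw [← hm, pow_mul, pow_orderOf_eq_one, one_pow]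
  have h2 : y ^ (2 * m + 1) = 1 := by rw [← hm, mul_comm, pow_mul, pow_orderOf_eq_one, one_pow]
  have h3 : ∀ z : G, z ^ (2 * m + 1) = 1 → z = (z * z) ^ (m + 1) := fun z hz => by
    rw [← sq, ← pow_mul, show 2 * (m + 1) = 2 * m + 1 + 1 by ring, pow_succ, hz, one_mul]
  rw [h3 x h1, h, ← h3 y h2]

/-- Four points in triangular position for a permutation without short cycles. -/
theorem exists_four {ι : Type*} [Fintype ι] (hι : 6 ≤ Fintype.card ι) (π : Equiv.Perm ι) (p : ι)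
    (hp : π p = p) (h2 : ∀ l, l ≠ p → π (π l) ≠ l) :
    ∃ a b c d, a ≠ p ∧ b ≠ p ∧ c ≠ p ∧ d ≠ p ∧ (b ≠ a ∧ b ≠ π a) ∧
      (c ≠ a ∧ c ≠ π a ∧ c ≠ b ∧ c ≠ π b) ∧
      d ≠ a ∧ d ≠ π a ∧ d ≠ b ∧ d ≠ π b ∧ d ≠ c ∧ d ≠ π c := by
  classical
  have h1 : ∀ l, l ≠ p → π l ≠ l := fun l hl h => h2 l hl (by rw [h, h])
  have h3 : ∀ l, π l ≠ p → l ≠ p := fun l hl h => hl (by rw [h, hp])
  obtain ⟨a, ha⟩ := exists_notMem {p} (by rw [Finset.card_singleton]; omega)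
  rw [Finset.mem_singleton] at ha
  obtain ⟨b, rfl⟩ := π.surjective a
  have hb := h3 b ha
  by_cases h4 : π (π (π b)) = b
  · obtain ⟨c, hc⟩ := exists_notMem {p, b, π b, π (π b)} (lt_of_le_of_lt Finset.card_le_four (by omega))
    simp only [Finset.mem_insert, Finset.mem_singleton, not_or] at hc
    obtain ⟨d, rfl⟩ := π.surjective c
    have hd := h3 d hc.1
    refine ⟨π b, b, π d, d, ha, hb, hc.1, hd, ⟨(h1 b hb).symm, (h2 b hb).symm⟩,
      ⟨hc.2.2.1, hc.2.2.2, hc.2.1, hc.2.2.1⟩, ?_, ?_, ?_, ?_, (h1 d hd).symm, (h2 d hd).symm⟩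
    · rintro rfl; exact hc.2.2.2 rfl
    · rintro rfl; exact hc.2.1 h4
    · rintro rfl; exact hc.2.2.1 rfl
    · rintro rfl; exact hc.2.2.2 rfl
  · obtain ⟨c, rfl⟩ := π.surjective b
    have hc := h3 c hb
    obtain ⟨d, hd⟩ := exists_notMem {p, c, π c, π (π c), π (π (π c))}
      (lt_of_le_of_lt Finset.card_le_five (by omega))
    simp only [Finset.mem_insert, Finset.mem_singleton, not_or] at hd
    refine ⟨π (π c), π c, c, d, ha, hb, hc, hd.1, ⟨(h1 _ hb).symm, (h2 _ hb).symm⟩,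
      ⟨(h2 c hc).symm, fun h => h4 (congrArg π h).symm, (h1 c hc).symm, (h2 c hc).symm⟩,
      hd.2.2.2.1, hd.2.2.2.2, hd.2.2.1, hd.2.2.2.1, hd.2.1, hd.2.2.1⟩

variable {F : Type*} [Field F] {σ : F →+* F} {V : Type*} [AddCommGroup V] [Module F V]
  {P : PQ σ V} {X : Subgroup (V ≃ₗ[F] V)} {ι : Type*} {e : ι → V}

theorem I2.unique {u w : V} {j j' : V ≃ₗ[F] V} (h : I2 P u w j) (h' : I2 P u w j') : j = j' :=
  LinearEquiv.ext fun v => by rw [h, h']

theorem I2.symm {u w : V} {j : V ≃ₗ[F] V} (h : I2 P u w j) : I2 P w u j := fun v => by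
  rw [h]; abel

theorem I2.of_smul {u w : V} {c d : F} {j : V ≃ₗ[F] V} (h : I2 P (c • u) (d • w) j)
    (hc : σ c * c = 1) (hd : σ d * d = 1) : I2 P u w j := fun v => by
  rw [h, P.B_smul_left, P.B_smul_left]
  linear_combination (norm := module) (-2 * P.B u v * hc) • u + (-2 * P.B w v * hd) • w

/-- The class of the diagonal involutions. -/
def Cl (P : PQ σ V) (X : Subgroup (V ≃ₗ[F] V)) (e : ι → V) (k : V ≃ₗ[F] V) : Prop :=
  ∃ u ∈ X, ∃ a b, a ≠ b ∧ I2 P (u (e a)) (u (e b)) k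

namespace Frame

variable [Fintype ι] [FiniteDimensional F V] (h : Frame P e)
include h

omit [Fintype ι] [FiniteDimensional F V] in
theorem norm_of {k : V ≃ₗ[F] V} (hk : P.IsIso k) {a b : ι} {c : F} (hc : k (e a) = c • e b) :
    σ c * c = 1 := by
  have := hk.B_eq (e a) (e a)
  rw [hc, P.B_smul_left, P.B_smul_right, h.unit, h.unit] at this
  linear_combination this

omit [Fintype ι] [FiniteDimensional F V] in
theorem i2_apply {a b : ι} {j : V ≃ₗ[F] V} (hj : I2 P (e a) (e b) j) {l : ι} (ha : l ≠ a)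
    (hb : l ≠ b) : j (e l) = e l := by
  simp [hj (e l), h.orth ha.symm, h.orth hb.symm]

omit [Fintype ι] [FiniteDimensional F V] in
theorem i2_left {a b : ι} (hab : a ≠ b) {j : V ≃ₗ[F] V} (hj : I2 P (e a) (e b) j) :
    j (e a) = -e a := by
  rw [hj, h.unit, h.orth hab.symm]; module

variable (hH : P.IsHerm) (hP : P.Nondeg) (hD : ∀ g ∈ SUV P, Mon e g → g ∈ X)
  (h2 : (2 : F) ≠ 0) (hμ : MuData σ) (hX : X ≤ P.isom)
  (hst : ∀ g ∈ X, ∀ i, IsPt e (g (e i)) F → Mon e g)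
include hH hP hD h2 hμ hX hst

theorem wb2 (hι : 5 ≤ Fintype.card ι) {g : V ≃ₗ[F] V} (hg : g ∈ X) {a : ι} (J : Finset ι)
    (hJ : J.card + 2 ≤ Fintype.card ι) (hz : ∀ l, l ∉ J → P.B (e l) (g (e a)) = 0) : Mon e g := by
  classical
  obtain ⟨c, d, hc, hd, hcd⟩ := Finset.one_lt_card_iff.1
    (show 1 < Jᶜ.card by rw [Finset.card_compl]; omega)
  have hi := hX (X.inv_mem hg)
  have key : ∀ {c d i j : ι}, c ∈ Jᶜ → d ∈ Jᶜ → c ≠ d → i ≠ j →
      P.B (g⁻¹ (e c)) (e i) * P.B (e j) (g⁻¹ (e c)) ≠ 0 →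
      P.B (g⁻¹ (e c)) (e i) * P.B (e j) (g⁻¹ (e c)) =
        -(P.B (g⁻¹ (e d)) (e i) * P.B (e j) (g⁻¹ (e d))) := by
    intro c d i j hc hd hcd hij hA
    refine entry_lemma P.σσ h2 hμ (X := P.B (g⁻¹ (e c)) (e i) * P.B (e i) (g⁻¹ (e c)))
      (Y := P.B (g⁻¹ (e d)) (e i) * P.B (e i) (g⁻¹ (e d)))
      (by rw [map_mul, hH.conj, hH.conj, mul_comm]) (by rw [map_mul, hH.conj, hH.conj, mul_comm])
      hA fun η hη => ?_
    obtain ⟨m, hm, -, e1⟩ := h.exists_d hH hP hD hcd hη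
    have h3 := hst _ (X.mul_mem (X.mul_mem (X.inv_mem hg) hm) hg) a (by
      simpa [e1, hz c (Finset.mem_compl.1 hc), hz d (Finset.mem_compl.1 hd), inv_apply_apply]
        using isPt_self a) i
    have h4 : ∀ l v, P.B (e l) (g v) = P.B (g⁻¹ (e l)) v := fun l v => by
      rw [← hi.B_eq, inv_apply_apply]
    have h5 := h.pt_two h3 hij.symm
    simp only [LinearEquiv.mul_apply, e1, map_add, map_smul, inv_apply_apply, smul_eq_mul,
      h.unit, h.orth hij.symm, h4] at h5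
    exact h5.imp (fun h0 => by linear_combination h0) fun h0 => by linear_combination h0
  obtain ⟨x, hx⟩ : ∃ x, x = g⁻¹ (e c) := ⟨_, rfl⟩
  obtain ⟨y, hy⟩ : ∃ y, y = g⁻¹ (e d) := ⟨_, rfl⟩
  have key2 : ∀ {i j : ι}, i ≠ j → P.B x (e i) * P.B (e j) x + P.B y (e i) * P.B (e j) y = 0 := by
    intro i j hij
    rw [hx, hy]
    by_cases h0 : P.B (g⁻¹ (e c)) (e i) * P.B (e j) (g⁻¹ (e c)) = 0
    · by_contra h1
      rw [h0, zero_add] at h1
      exact h1 (by rw [key hd hc hcd.symm hij h1, h0, neg_zero])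
    · rw [key hc hd hcd hij h0, neg_add_cancel]
  have hxx : P.B x x = 1 := by rw [hx, hi.B_eq, h.unit]
  have hxy : P.B x y = 0 := by rw [hx, hy, hi.B_eq, h.orth hcd]
  have mem : ∀ i, P.B (e i) x ≠ 0 → e i ∈ Submodule.span F {x, y} := by
    intro i hi'
    obtain ⟨ε, hε⟩ : ∃ ε : F, P.B x (e i) • x + P.B y (e i) • y = ε • e i :=
      ⟨P.B (e i) (P.B x (e i) • x + P.B y (e i) • y), h.ext fun l => by
        by_cases hl : l = i
        · rw [hl, P.B_smul_right, h.unit, mul_one]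
        · rw [P.B_smul_right, h.orth hl, mul_zero, P.B_add_right, P.B_smul_right, P.B_smul_right,
            key2 (Ne.symm hl)]⟩
    have h3 := congrArg (P.B x) hε
    rw [P.B_add_right, P.B_smul_right, P.B_smul_right, P.B_smul_right, hxx, hxy] at h3
    have h4 : P.B x (e i) ≠ 0 := fun h0 => hi' (P.B_eq_zero_comm.1 h0)
    have h5 : ε = 1 := mul_right_cancel₀ h4 (by linear_combination -h3)
    rw [h5, one_smul] at hε
    exact Submodule.mem_span_pair.2 ⟨_, _, hε⟩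
  have h3 : (Finset.univ.filter fun l => P.B (e l) x ≠ 0).card ≤ 2 := by
    rw [← h.finrank_span]
    refine le_trans (Submodule.finrank_mono (Submodule.span_le.2 ?_)) (finrank_span_pair_le x y)
    rintro _ ⟨l, hl, rfl⟩
    exact mem l (by simpa using hl)
  simpa using h.mon_inv (h.wb hH hP hD h2 hμ hX hst (X.inv_mem hg) (a := c)
    (Finset.univ.filter fun l => P.B (e l) x ≠ 0) (by omega) fun l hl => by simpa [hx] using hl)

variable (hι : 6 ≤ Fintype.card ι)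
include hι

theorem mon_cl2 {k j : V ≃ₗ[F] V} (hk : k ∈ X) {a b : ι} (hab : a ≠ b)
    (hj : I2 P (k (e a)) (k (e b)) j) (hj' : Mon e j) : Mon e k := by
  classical
  obtain ⟨S, h3, hS⟩ := h.exists_moved hj' (hj.sub_mem (Z := Submodule.span F {k (e a), k (e b)})
    (Submodule.subset_span (by simp)) (Submodule.subset_span (by simp)))
  have h4 := finrank_span_pair_le (F := F) (k (e a)) (k (e b))
  refine h.wb2 hH hP hD h2 hμ hX hst (by omega) hk (a := a) S (by omega) fun l hl => ?_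
  have h5 := congrArg (P.B (k (e a))) (hS l hl)
  rw [hj] at h5
  simp only [P.B_sub_right, P.B_smul_right, (hX hk).B_eq, h.unit, h.orth hab] at h5
  exact P.B_eq_zero_comm.1 (mul_left_cancel₀ h2 (by linear_combination -h5))

theorem odd_cl [Finite F] {k i : V ≃ₗ[F] V} (hk : Cl P X e k) (hk' : ¬ Mon e k) {s t : ι}
    (hst' : s ≠ t) (hi2 : I2 P (e s) (e t) i) : Odd (orderOf (i * k)) := by
  classical
  have : Finite V := Module.finite_of_finite F
  have : Finite (V ≃ₗ[F] V) := Finite.of_injective (fun g : V ≃ₗ[F] V => (g : V → V))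
    DFunLike.coe_injective
  obtain ⟨g, hg, a, b, hab, hkI⟩ := hk
  obtain ⟨i₀, hi, hi1, hi0⟩ := h.exists_i2 hH hP hD hst'
  obtain rfl := hi0.unique hi2
  obtain ⟨i', hi', hi1', hi2'⟩ := h.exists_i2 hH hP hD hab
  have hj := hi2'.conj (hX hg)
  obtain rfl := hj.unique hkI
  have hg' : ¬ Mon e g := fun h0 => hk' ((h0.mul hi1').mul (h.mon_inv h0))
  have hii := hi2.sq (h.unit s) (h.unit t) (h.orth hst')
  have hii' := hi2'.sq (h.unit a) (h.unit b) (h.orth hab)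
  have mcl := fun {k j : V ≃ₗ[F] V} (hk : k ∈ X) {a b : ι} (hab : a ≠ b)
    (hj : I2 P (k (e a)) (k (e b)) j) => h.mon_cl2 hH hP hD h2 hμ hX hst hι hk hab hj
  refine (dihedral_odd_or hii (t := g * i' * g⁻¹) (by
      rw [show g * i' * g⁻¹ * (g * i' * g⁻¹) = g * (i' * i') * g⁻¹ by group, hii']; simp) X hi
    (X.mul_mem (X.mul_mem hg hi') (X.inv_mem hg))).resolve_right ?_
  rintro ⟨w, hw, hw1, e1, e2, ⟨u, hu, e3⟩, ⟨u', hu', e4⟩⟩
  have cl : ∀ {x u : V ≃ₗ[F] V}, u ∈ X → x = u * i₀ * u⁻¹ ∨ x = u * (g * i' * g⁻¹) * u⁻¹ →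
      ∃ k ∈ X, ∃ c d, c ≠ d ∧ I2 P (k (e c)) (k (e d)) x := by
    rintro x u hu (rfl | rfl)
    · exact ⟨u, hu, s, t, hst', hi2.conj (hX hu)⟩
    · exact ⟨u * g, X.mul_mem hu hg, a, b, hab, hj.conj (hX hu)⟩
  obtain ⟨k, hk, c, d, hcd, hc⟩ := cl hu e3
  obtain ⟨k', hk', c', d', hcd', hc'⟩ := cl hu' e4.symm
  have h3 := mcl hk hcd hc ((h.mon_cent hH hP hD h2 hμ hX hst (by omega) hw hst' hi2 e1).mul hi1)
  obtain ⟨c₁, γ, hγ⟩ := h3 c
  obtain ⟨d₁, γ', hγ'⟩ := h3 d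
  rw [hγ, hγ'] at hc
  have hS := fun l => h.i2_apply (hc.of_smul (h.norm_of (hX hk) hγ) (h.norm_of (hX hk) hγ')) (l := l)
  have hw' := X.mul_mem (X.mul_mem (X.inv_mem hg) hw) hg
  have h5 := h.mon_cent hH hP hD h2 hμ hX hst (by omega) hw' hab hi2' (by
    rw [show g⁻¹ * w * g * i' = g⁻¹ * (w * (g * i' * g⁻¹)) * g by group, e2]; group)
  have h6 : I2 P ((g⁻¹ * k') (e c')) ((g⁻¹ * k') (e d')) (g⁻¹ * w * g * i') := by
    have := hc'.conj (hX (X.inv_mem hg))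
    rwa [show g⁻¹ * (w * (g * i' * g⁻¹)) * g⁻¹⁻¹ = g⁻¹ * w * g * i' by group] at this
  have hk'' := X.mul_mem (X.inv_mem hg) hk'
  have h7 := h.diag_of (hX hk'') (mcl hk'' hcd' h6 (h5.mul hi1')) hcd' h6
  have h8 := h.diag_of (k := 1) (PQ.IsIso.id P) isPt_self hab hi2'
  obtain ⟨f, hf⟩ : ∃ f, w (g (e f)) = -g (e f) := by
    by_contra h0
    push Not at h0
    suffices h1 : g⁻¹ * w * g = 1 by
      exact hw1 (by rw [show w = g * (g⁻¹ * w * g) * g⁻¹ by group, h1]; simp)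
    refine h.eq_one fun l => ?_
    have h9 : (g⁻¹ * w * g) (e l) = e l ∨ (g⁻¹ * w * g) (e l) = -e l := by
      have := h7 l
      rw [LinearEquiv.mul_apply] at this
      rcases h8 l with h1 | h1 <;> rw [h1] at this
      · exact this
      · simpa [neg_eq_iff_eq_neg, or_comm] using this
    refine h9.resolve_right fun h1 => h0 l ?_
    simpa [apply_inv_apply] using congrArg g h1
  refine hg' (h.wb2 hH hP hD h2 hμ hX hst (by omega) hg (a := f) {c₁, d₁, s, t}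
    (le_trans (add_le_add_left Finset.card_le_four 2) hι) fun l hl => ?_)
  simp only [not_or, Finset.mem_insert, Finset.mem_singleton] at hl
  have h9 : w (e l) = e l := by
    simpa [h.i2_apply hi2 hl.2.2.1 hl.2.2.2] using hS l hl.1 hl.2.1
  have := (hX hw).B_eq (e l) (g (e f))
  rw [h9, hf, map_neg] at this
  exact mul_left_cancel₀ h2 (by linear_combination -this)

theorem mon_of_odd6 [Finite F] {g : V ≃ₗ[F] V} (hg : g ∈ X) : Mon e g := by
  classical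
  by_contra hg'
  obtain ⟨f⟩ : Nonempty (Fin 4 ↪ ι) :=
    Function.Embedding.nonempty_of_card_le (by simp; omega)
  have h01 := f.injective.ne (show (0 : Fin 4) ≠ 1 by simp)
  obtain ⟨i₀, hi₀, hi₀1, hi₀2⟩ := h.exists_i2 hH hP hD h01
  have ocl := fun {k i : V ≃ₗ[F] V} (hk : Cl P X e k) (hk' : ¬ Mon e k) {s t : ι} (hst' : s ≠ t)
    (hi2 : I2 P (e s) (e t) i) => h.odd_cl hH hP hD h2 hμ hX hst hι hk hk' hst' hi2
  have hjc : Cl P X e (g * i₀ * g⁻¹) := ⟨g, hg, _, _, h01, hi₀2.conj (hX hg)⟩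
  have sq : ∀ {k}, Cl P X e k → k * k = 1 := by
    rintro k ⟨u, hu, a, b, hab, hk⟩
    exact hk.sq (by rw [(hX hu).B_eq, h.unit]) (by rw [(hX hu).B_eq, h.unit])
      (by rw [(hX hu).B_eq, h.orth hab])
  have hjm : ¬ Mon e (g * i₀ * g⁻¹) := fun h0 =>
    hg' (h.mon_cl2 hH hP hD h2 hμ hX hst hι hg h01 (hi₀2.conj (hX hg)) h0)
  have ex : ∀ t, t ≠ f 0 → ∃ k ∈ X, Cl P X e k ∧ Mon e (g⁻¹ * k) ∧
      (∀ i, I2 P (e (f 0)) (e t) i → k * i * k⁻¹ = g * i₀ * g⁻¹) ∧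
      ∃ r : Bool, ∃ c : F, (g⁻¹ * k) (e (f 0)) = c • e (f (if r then 0 else 1)) := by
    intro t ht
    obtain ⟨i, hi, hi1, hi2⟩ := h.exists_i2 hH hP hD ht.symm
    obtain ⟨u, hu, e1⟩ := dihedral_of_odd (hi2.sq (h.unit _) (h.unit _) (h.orth ht.symm)) (sq hjc)
      X hi (X.mul_mem (X.mul_mem hg hi₀) (X.inv_mem hg)) (ocl hjc hjm ht.symm hi2)
    have hk := X.mul_mem (X.mul_mem hu hi) (X.inv_mem hu)
    have hc : Cl P X e (u * i * u⁻¹) := ⟨u, hu, _, _, ht.symm, hi2.conj (hX hu)⟩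
    generalize u * i * u⁻¹ = k at hk hc e1
    have hm := X.mul_mem (X.inv_mem hg) hk
    have h3 := hi2.conj (hX hm)
    rw [show g⁻¹ * k * i * (g⁻¹ * k)⁻¹ = g⁻¹ * (k * i * k⁻¹) * g by group, e1,
      show g⁻¹ * (g * i₀ * g⁻¹) * g = i₀ by group] at h3
    have h4 := h.mon_cl2 hH hP hD h2 hμ hX hst hι hm ht.symm h3 hi₀1
    refine ⟨k, hk, hc, h4, fun i' hi' => by rw [hi'.unique hi2, e1], ?_⟩
    obtain ⟨l, c, hc⟩ := h4 (f 0)
    by_cases h5 : l = f 0
    · exact ⟨true, c, by rw [hc, h5]; rfl⟩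
    by_cases h6 : l = f 1
    · exact ⟨false, c, by rw [hc, h6]; rfl⟩
    exfalso
    have h7 := h3 ((g⁻¹ * k) (e (f 0)))
    rw [(hX hm).B_eq, (hX hm).B_eq, h.unit, h.orth ht, hc, map_smul, h.i2_apply hi₀2 h5 h6] at h7
    have h8 := congrArg (P.B (e l)) h7
    simp only [P.B_sub_right, P.B_smul_right, h.unit, mul_zero, zero_mul] at h8
    have h9 := h.norm_of (hX hm) hc
    exact h2 (by linear_combination (σ c) * h8 - 2 * h9)
  have main : ∀ t t', t ≠ f 0 → t' ≠ f 0 → t ≠ t' → ∀ k ∈ X, ∀ k' ∈ X, Cl P X e k → Cl P X e k' →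
      Mon e (g⁻¹ * k) → Mon e (g⁻¹ * k') →
      (∀ i, I2 P (e (f 0)) (e t) i → k * i * k⁻¹ = g * i₀ * g⁻¹) →
      (∀ i, I2 P (e (f 0)) (e t') i → k' * i * k'⁻¹ = g * i₀ * g⁻¹) →
      ∀ (r : ι) (c c' : F), (g⁻¹ * k) (e (f 0)) = c • e r → (g⁻¹ * k') (e (f 0)) = c' • e r →
      False := by
    intro t t' ht ht' htt k hk k' hk' hc hc' hm hm' e1 e1' r c c' e2 e2'
    have nm : ∀ {k}, Mon e (g⁻¹ * k) → ¬ Mon e k := fun {k} h0 h1 =>
      hg' (by simpa using h.mon_inv (h0.mul (h.mon_inv h1)))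
    have hs : Mon e (k'⁻¹ * k) := by
      have := (h.mon_inv hm').mul hm
      rwa [show (g⁻¹ * k')⁻¹ * (g⁻¹ * k) = k'⁻¹ * k by group] at this
    have hsX := X.mul_mem (X.inv_mem hk') hk
    have hne : k ≠ k' := by
      rintro rfl
      obtain ⟨i, -, -, hi⟩ := h.exists_i2 hH hP hD ht.symm
      obtain ⟨i', -, -, hi'⟩ := h.exists_i2 hH hP hD ht'.symm
      obtain rfl : i = i' := by simpa using (e1 i hi).trans (e1' i' hi').symm
      have h3 := (h.i2_left ht hi.symm).symm.trans (h.i2_apply hi' ht htt)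
      have h4 := congrArg (P.B (e t)) h3
      rw [map_neg, h.unit] at h4
      exact h2 (by linear_combination -h4)
    choose π γ hπ using hs
    have hγ : ∀ l, σ (γ l) * γ l = 1 := fun l => h.norm_of (hX hsX) (hπ l)
    have hγ0 : ∀ l, γ l ≠ 0 := fun l h0 => by simpa [h0] using hγ l
    have hinj : Function.Injective π := fun a b hab => by
      by_contra hne
      have := (hX hsX).B_eq (e a) (e b)
      simp [hπ, hab, h.unit, h.orth hne, hγ0] at this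
    have nf : ∀ a b, a ≠ b → ¬ ((π a = a ∧ π b = b) ∨ (π a = b ∧ π b = a)) := by
      intro a b hab h0
      obtain ⟨i, -, -, hi⟩ := h.exists_i2 hH hP hD hab
      have h3 := hi.conj (hX hsX)
      rw [hπ, hπ] at h3
      have h4 := h3.of_smul (hγ a) (hγ b)
      have h5 : k'⁻¹ * k * i * (k'⁻¹ * k)⁻¹ = i := by
        rcases h0 with ⟨h5, h6⟩ | ⟨h5, h6⟩ <;> rw [h5, h6] at h4
        · exact h4.unique hi
        · exact h4.unique hi.symm
      have h6 := eq_of_sq_of_odd (ocl hc (nm hm) hab hi) (ocl hc' (nm hm') hab hi) (by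
        have h7 : k * i * k⁻¹ = k' * i * k'⁻¹ := by
          conv_rhs => rw [← h5]
          group
        rw [inv_eq_of_mul_eq_one_right (sq hc), inv_eq_of_mul_eq_one_right (sq hc')] at h7
        rw [show i * k * (i * k) = i * (k * i * k) by group, h7]; group)
      exact hne (mul_left_cancel h6)
    have hp : π (f 0) = f 0 := by
      by_contra h0
      have h3 : (g⁻¹ * k') ((k'⁻¹ * k) (e (f 0))) = c • e r := by
        rw [← LinearEquiv.mul_apply, show g⁻¹ * k' * (k'⁻¹ * k) = g⁻¹ * k by group, e2]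
      have hm'' := hX (X.mul_mem (X.inv_mem hg) hk')
      have h4 := hm''.B_eq (e (f 0)) ((k'⁻¹ * k) (e (f 0)))
      rw [h3, e2', hπ, P.B_smul_left, P.B_smul_right, P.B_smul_right, h.unit,
        h.orth (Ne.symm h0)] at h4
      have h5 := h.norm_of hm'' e2'
      have h6 := h.norm_of (hX (X.mul_mem (X.inv_mem hg) hk)) e2
      exact one_ne_zero (α := F) (by linear_combination (σ c * c') * h4 - (σ c * c) * h5 - h6)
    have hpp : ∀ l, l ≠ f 0 → π (π l) ≠ l := fun l hl h0 => by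
      by_cases h3 : π l = l
      · exact nf l (f 0) hl (Or.inl ⟨h3, hp⟩)
      · exact nf l (π l) (Ne.symm h3) (Or.inr ⟨rfl, h0⟩)
    obtain ⟨a, b, c, d, ha, hb, hc₁, hd, h3, h4, h5⟩ := exists_four hι
      (Equiv.ofBijective π hinj.bijective_of_finite) (f 0) hp hpp
    simp only [Equiv.ofBijective_apply] at h3 h4 h5
    obtain ⟨u, hu, a₁, b₁, -, hkI⟩ := hc
    obtain ⟨u', hu', a₂, b₂, -, hkI'⟩ := hc'
    obtain ⟨L, hL⟩ : ∃ L, L = Submodule.span F {u (e a₁), u (e b₁)} ⊔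
      Submodule.span F {u' (e a₂), u' (e b₂)} := ⟨_, rfl⟩
    have hL4 : finrank F L ≤ 4 := by
      have h6 := Submodule.finrank_add_le_finrank_add_finrank
        (Submodule.span F {u (e a₁), u (e b₁)}) (Submodule.span F {u' (e a₂), u' (e b₂)})
      have h7 := finrank_span_pair_le (F := F) (u (e a₁)) (u (e b₁))
      have h8 := finrank_span_pair_le (F := F) (u' (e a₂)) (u' (e b₂))
      rw [hL]; omega
    have m1 : u (e a₁) ∈ L := hL ▸ Submodule.mem_sup_left (Submodule.subset_span (by simp))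
    have m2 : u (e b₁) ∈ L := hL ▸ Submodule.mem_sup_left (Submodule.subset_span (by simp))
    have hsL : k'⁻¹ * k ∈ movedIn X L := Subgroup.mul_mem _ (Subgroup.inv_mem _
      ⟨hk', hkI'.sub_mem (hL ▸ Submodule.mem_sup_right (Submodule.subset_span (by simp)))
        (hL ▸ Submodule.mem_sup_right (Submodule.subset_span (by simp)))⟩) ⟨hk, hkI.sub_mem m1 m2⟩
    have hlt : L ⊓ LinearMap.ker (P.B (e (f 0))) < L := lt_of_le_of_ne inf_le_left fun h0 => by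
      have h6 : ∀ v ∈ L, P.B v (e (f 0)) = 0 := fun v hv =>
        P.B_eq_zero_comm.1 (h0.symm ▸ hv : v ∈ L ⊓ LinearMap.ker (P.B (e (f 0)))).2
      exact nm hm (hst k hk (f 0) (by simpa [hkI (e (f 0)), h6 _ m1, h6 _ m2] using isPt_self _))
    have h6 := Submodule.finrank_lt_finrank_of_lt hlt
    obtain ⟨v, hv⟩ : ∃ v : ι → V, ∀ l, v l = γ l • e (π l) - e l := ⟨_, fun _ => rfl⟩
    have vm : ∀ l, l ≠ f 0 → v l ∈ L ⊓ LinearMap.ker (P.B (e (f 0))) := fun l hl =>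
      ⟨by rw [hv, ← hπ]; exact hsL.2 _, by
        have : f 0 ≠ π l := fun h0 => hl (hinj (h0.symm.trans hp.symm))
        simp [hv, h.orth this, h.orth hl.symm]⟩
    have v0 : ∀ l m, l ≠ m → l ≠ π m → v m ∈ LinearMap.ker (P.B (e l)) := fun l m h7 h8 => by
      simp [hv, h.orth h7, h.orth h8]
    have v1 : ∀ l, l ≠ f 0 → v l ∉ LinearMap.ker (P.B (e l)) := fun l hl => by
      have : l ≠ π l := fun h0 => hpp l hl (by rw [← h0, ← h0])
      simp [hv, h.orth this, h.unit]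
    have sl := fun (x : V) (Z : Submodule F V) => (Submodule.span_singleton_le_iff_mem x Z).2
    have c1 : v a ≠ 0 := fun h0 => v1 a ha (by simp [h0])
    have c2 : v b ∉ Submodule.span F {v a} := fun h0 => v1 b hb (sl _ _ (v0 b a h3.1 h3.2) h0)
    have c3 : v c ∉ Submodule.span F {v a} ⊔ Submodule.span F {v b} := fun h0 => v1 c hc₁
      (sup_le (sl _ _ (v0 c a h4.1 h4.2.1)) (sl _ _ (v0 c b h4.2.2.1 h4.2.2.2)) h0)
    have c4 : v d ∉ Submodule.span F {v a} ⊔ Submodule.span F {v b} ⊔ Submodule.span F {v c} :=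
      fun h0 => v1 d hd (sup_le (sup_le (sl _ _ (v0 d a h5.1 h5.2.1))
        (sl _ _ (v0 d b h5.2.2.1 h5.2.2.2.1))) (sl _ _ (v0 d c h5.2.2.2.2.1 h5.2.2.2.2.2)) h0)
    have c5 := Submodule.finrank_mono (sup_le (sup_le (sup_le (sl _ _ (vm a ha)) (sl _ _ (vm b hb)))
      (sl _ _ (vm c hc₁))) (sl _ _ (vm d hd)))
    rw [Submodule.finrank_sup_span_singleton c4, Submodule.finrank_sup_span_singleton c3,
      Submodule.finrank_sup_span_singleton c2, finrank_span_singleton c1] at c5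
    omega
  have n0 : ∀ i : Fin 4, i ≠ 0 → f i ≠ f 0 := fun i hi => f.injective.ne hi
  obtain ⟨k₁, a₁, b₁, c₁, d₁, r₁, γ₁, e₁⟩ := ex (f 1) (n0 1 (by simp))
  obtain ⟨k₂, a₂, b₂, c₂, d₂, r₂, γ₂, e₂⟩ := ex (f 2) (n0 2 (by simp))
  obtain ⟨k₃, a₃, b₃, c₃, d₃, r₃, γ₃, e₃⟩ := ex (f 3) (n0 3 (by simp))
  rcases (by decide : ∀ r₁ r₂ r₃ : Bool, r₁ = r₂ ∨ r₁ = r₃ ∨ r₂ = r₃) r₁ r₂ r₃ with rfl | rfl | rfl
  · exact main _ _ (n0 1 (by simp)) (n0 2 (by simp)) (f.injective.ne (by simp)) k₁ a₁ k₂ a₂ b₁ b₂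
      c₁ c₂ d₁ d₂ _ _ _ e₁ e₂
  · exact main _ _ (n0 1 (by simp)) (n0 3 (by simp)) (f.injective.ne (by simp)) k₁ a₁ k₃ a₃ b₁ b₃
      c₁ c₃ d₁ d₃ _ _ _ e₁ e₃
  · exact main _ _ (n0 2 (by simp)) (n0 3 (by simp)) (f.injective.ne (by simp)) k₂ a₂ k₃ a₃ b₂ b₃
      c₂ c₃ d₂ d₃ _ _ _ e₂ e₃

end Frame

end CfsgLib.SUMax
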