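import Mathlib
import Cfsg.Agent.Lib.SUMax.Low1

/-!
The monomial subgroup of the special unitary group in dimension at least six.
-/

set_option autoImplicit false

namespace CfsgLib.SUMax

open CfsgLib.Forms CfsgLib.ClMax CfsgLib.RootMax Module

variable {F : Type*} [Field F] {σ : F →+* F} {V : Type*} [AddCommGroup V] [Module F V]
  {P : PQ σ V} {X : Subgroup (V ≃ₗ[F] V)} {ι : Type*} {e : ι → V}

namespace Frame

variable [Fintype ι] (h : Frame P e) [FiniteDimensional F V] (hH : P.IsHerm) (hP : P.Nondeg)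
include h hH hP

/-- In characteristic two some non-monomial element maps a frame point to a frame point. -/
theorem mon_of_even5 [Finite F] (h2 : (2 : F) = 0) (hμ : MuData σ) (hι : 5 ≤ Fintype.card ι)
    {c₀ : F} (hc₀ : σ c₀ = c₀) (hc0 : c₀ ≠ 0) (hc1 : c₀ ≠ 1)
    (hX : X ≤ SUV P) (hD : ∀ g ∈ SUV P, Mon e g → g ∈ X)
    (hst : ∀ g ∈ X, ∀ i, IsPt e (g (e i)) F → Mon e g) {g : V ≃ₗ[F] V} (hg : g ∈ X) :
    Mon e g := by
  classical
  have hX' : X ≤ P.isom := fun g hg => (hX hg).1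
  have wb : ∀ {y : V}, Tv P X y 1 → Wt3 P e y → ∀ c, P.B (e c) y ≠ 0 := by
    rintro y ⟨k, hk, e1⟩ ⟨i, j, l, hi, hj, hl, hij, hil, hjl⟩ c hc
    have h1 := hst k hk c (by simpa [e1, P.B_eq_zero_comm.1 hc] using isPt_self c) i
    have h3 : P.B y (e i) ≠ 0 := fun h0 => hi (P.B_eq_zero_comm.1 h0)
    simpa [e1, h.orth hij.symm, h.orth hil.symm, h3, hj, hl] using h.pt_two h1 hjl
  refine h.mon_of_not_wt3 hμ (by omega) (hX' hg) fun a b hab c hc hw => ?_
  obtain ⟨hy, hT⟩ := h.tv_swap hH h2 hD hab hc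
  rw [← (hX' hg).B_eq] at hy
  replace hT := hT.conj hg (hX' hg)
  generalize g (e a + c • e b) = y at hy hT hw
  have full := wb hT hw
  obtain ⟨ν, hν⟩ : ∃ ν : ι → F, ∀ i, ν i = σ (P.B (e i) y) * P.B (e i) y := ⟨_, fun _ => rfl⟩
  have hν0 : ∀ i, ν i ≠ 0 := fun i => hν i ▸ mul_ne_zero ((map_ne_zero σ).2 (full _)) (full _)
  have hν1 : ∀ i, σ (ν i) = ν i := fun i => by rw [hν, map_mul, P.σσ, mul_comm]
  have core : ∀ (f : Fin 5 ↪ ι) (t : Fin 5 → F), (∀ i, σ (t i) * t i = 1) → ∏ i, t i = 1 →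
      t 4 = 1 → (∃ i j l, t i ≠ 1 ∧ t j ≠ 1 ∧ t l ≠ 1 ∧ i ≠ j ∧ i ≠ l ∧ j ≠ l) →
      ∀ β, σ β = β → β ≠ 0 → β = ∑ i, (t i - 1) * ν (f i) → False := by
    rintro f t ht hp h6 ⟨i, j, l, hi, hj, hl, hij, hil, hjl⟩ β hβ hβ0 hβ'
    have e0 : ∀ i, Function.extend f t 1 (f i) = t i := fun i => f.injective.extend_apply _ _ i
    obtain ⟨k, hk, hd, e1⟩ := h.exists_dg hH hP (Function.extend f t 1) (fun i => by
      by_cases hi : ∃ j, f j = i
      · obtain ⟨j, rfl⟩ := hi; rw [e0, ht]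
      · simp [Function.extend_apply' _ _ _ hi]) (Finset.univ.map f)
    have hkX := hD k ⟨hk, mem_SLV.2 (by simp [hd, e0, hp])⟩ (h.mon_of_dg e1)
    replace e1 : ∀ l, P.B (e l) (k y) = (if l ∈ Finset.univ.map f then Function.extend f t 1 l
      else 1) * P.B (e l) y := e1 y
    have hB : P.B y (k y) = β := by
      rw [← sub_zero (P.B y (k y)), ← hy, h.B_eq y y, h.B_eq y (k y), ← Finset.sum_sub_distrib,
        ← Finset.sum_subset (Finset.univ.map f).subset_univ fun l _ hl => by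
          rw [e1, if_neg hl]; simp, Finset.sum_map, hβ']
      refine Finset.sum_congr rfl fun l _ => ?_
      rw [e1, if_pos (by simp), e0, hν, ← hH.conj (e (f l)) y]; ring
    obtain ⟨z, hz, hzT, d, hd, e2⟩ := dihedral_tv hP hX' h2 hy (by rw [hk.B_eq, hy])
      (hB ▸ hβ0) hT (hT.conj hkX hk)
    have e3 : P.B z y • z = d • k y - y := by rw [← e2]; abel
    have hd1 : d = 1 := by
      have h3 : P.B (d • k y - y) (d • k y - y) = 0 := by rw [← e3]; simp [hz]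
      simp only [P.B_sub_left, P.B_sub_right, P.B_smul_left, P.B_smul_right, hk.B_eq, hy,
        ← hH.conj y (k y), hB, hβ] at h3
      have h4 : σ d = d := mul_right_cancel₀ hβ0 (by linear_combination -h3 - d * β * h2)
      rw [h4] at hd
      exact sub_eq_zero.1 (pow_eq_zero_iff two_ne_zero |>.1 (show (d - 1) ^ 2 = 0 by
        linear_combination hd + (1 - d) * h2))
    have e4 : ∀ m, P.B z y * P.B (e (f m)) z = (t m - 1) * P.B (e (f m)) y := fun m => by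
      rw [← P.B_smul_right, e3, hd1, one_smul, P.B_sub_right, e1, if_pos (by simp), e0]; ring
    have e5 : ∀ m, t m ≠ 1 → P.B (e (f m)) z ≠ 0 := fun m hm h0 =>
      mul_ne_zero (sub_ne_zero.2 hm) (full _) (by rw [← e4, h0, mul_zero])
    have e6 : P.B z y ≠ 0 := fun h0 =>
      mul_ne_zero (sub_ne_zero.2 hi) (full _) (by rw [← e4, h0, zero_mul])
    exact mul_ne_zero e6 (wb hzT ⟨_, _, _, e5 i hi, e5 j hj, e5 l hl, f.injective.ne hij,
      f.injective.ne hil, f.injective.ne hjl⟩ (f 4)) (by rw [e4, h6]; simp)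
  have hσ1 : ∀ {ζ : F}, ζ ≠ 1 → σ ζ ≠ 1 := fun {ζ} hζ h0 => hζ (by rw [← P.σσ ζ, h0, map_one])
  have hσ2 : ∀ {ζ : F}, σ ζ * ζ = 1 → σ (σ ζ) * σ ζ = 1 := fun hζ => by rw [P.σσ, mul_comm, hζ]
  have pl : ∀ f : Fin 5 ↪ ι, ¬ (ν (f 0) = ν (f 1) ↔ ν (f 2) = ν (f 3)) := fun f h3 => by
    obtain ⟨ζ, η, β, hζ, hη, hζ1, hη1, h4, h5, h6⟩ := pair_lemma P.σσ h2 hμ hc₀ hc0 hc1 (hν1 _)
      (hν1 _) (hν1 _) (hν1 _) (hν0 _) (hν0 _) h3
    exact core f ![ζ, σ ζ, η, σ η, 1] (fun i => by fin_cases i <;> simp [hζ, hσ2 hζ, hη, hσ2 hη])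
      (by simp [Fin.prod_univ_succ]; linear_combination (σ η * η) * hζ + hη) rfl
      ⟨0, 1, 2, hζ1, hσ1 hζ1, hη1, by simp, by simp, by simp⟩ β h4 h5
      (by simp [Fin.sum_univ_succ, h6]; ring)
  obtain ⟨f⟩ : Nonempty (Fin 5 ↪ ι) := Function.Embedding.nonempty_of_card_le (by simpa using hι)
  have h0 := pl f
  have h1 := pl ((Equiv.addRight (1 : Fin 5)).toEmbedding.trans f)
  have h3 := pl ((Equiv.addRight (2 : Fin 5)).toEmbedding.trans f)
  have h4 := pl ((Equiv.addRight (3 : Fin 5)).toEmbedding.trans f)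
  have h5 := pl ((Equiv.addRight (4 : Fin 5)).toEmbedding.trans f)
  change ¬ (ν (f 1) = ν (f 2) ↔ ν (f 3) = ν (f 4)) at h1
  change ¬ (ν (f 2) = ν (f 3) ↔ ν (f 4) = ν (f 0)) at h3
  change ¬ (ν (f 3) = ν (f 4) ↔ ν (f 0) = ν (f 1)) at h4
  change ¬ (ν (f 4) = ν (f 0) ↔ ν (f 1) = ν (f 2)) at h5
  tauto

/-- Overgroups of the monomial subgroup of the special unitary group contain all transvections. -/
theorem tfOn_top_mono6 [Finite F] (hD : ∀ g ∈ SUV P, Mon e g → g ∈ X) (hμ : MuData σ)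
    (hι : 6 ≤ Fintype.card ι)
    (hι' : 7 ≤ Fintype.card ι ∨ ∃ c, σ c = c ∧ c ≠ 0 ∧ c ≠ 1)
    (hX : X ≤ SUV P) {g : V ≃ₗ[F] V} (hg : g ∈ X) (hg' : ¬ Mon e g) : TFOn P X ⊤ := by
  obtain ⟨k, hk, i, hi, hk'⟩ : ∃ k ∈ X, ∃ i, IsPt e (k (e i)) F ∧ ¬ Mon e k := by
    by_contra hst
    push Not at hst
    by_cases h2 : (2 : F) = 0
    · rcases hι' with h7 | ⟨c, hc, hc0, hc1⟩
      · exact hg' (h.mon_of_even hH hP h2 hμ h7 hX hD hst hg)
      · exact hg' (h.mon_of_even5 hH hP h2 hμ (by omega) hc hc0 hc1 hX hD hst hg)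
    · exact hg' (h.mon_of_odd6 hH hP hD h2 hμ (fun g hg => (hX hg).1) hst hι hg)
  obtain ⟨m, hm, c, hc, hm'⟩ : ∃ m ∈ X, ∃ c : F, m (e i) = c • e i ∧ ¬ Mon e m := by
    obtain ⟨j, c, hc⟩ := hi
    by_cases hij : j = i
    · exact ⟨k, hk, c, hij ▸ hc, hk'⟩
    obtain ⟨s, hs, hs', s1, -⟩ := h.odec.exists_swap hH hP hij
    obtain ⟨d, hd⟩ := Submodule.mem_span_singleton.1 (s1 _ (Submodule.mem_span_singleton_self _))
    refine ⟨s * k, X.mul_mem (hD s hs (mon_of_permD hs')) hk, c * d, ?_, fun h0 => hk' ?_⟩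
    · rw [LinearEquiv.mul_apply, hc, map_smul, ← hd, smul_smul]
    · simpa using (h.mon_inv (mon_of_permD hs')).mul h0
  obtain ⟨Y, h3, h4, h5, h6⟩ := h.exists_hat hH hP hX hD i
  have h7 : TFOn P Y ⊤ := by
    by_cases hq : ∀ c, σ c = c → c = 0 ∨ c = 1
    · exact h.tfOn_top_of_two hH hP h3 hμ h4 (by omega) hq (h5 m hm c hc) hm'
    · push Not at hq
      obtain ⟨a, ha, ha0, ha1⟩ := hq
      exact h.tfOn_top_of_ne hH hP h3 hμ h4 (by omega) ha ha0 ha1 (h5 m hm c hc) hm'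
  intro x _ hx d hd
  obtain ⟨t, ht, e1⟩ := h7 x trivial hx d hd
  obtain ⟨t', ht', e2⟩ := exists_tv_SUV hH hx hd
  obtain rfl : t = t' := LinearEquiv.ext fun v => by rw [e1, e2]
  exact ⟨t, h6 t ht ht'.2, e1⟩

end Frame

/-- Maximality of the stabiliser of an orthonormal frame in the special unitary group. -/
theorem isMaximalIn_su_frame [Fintype F] {q : ℕ} (hF : Fintype.card F = q ^ 2) {n : ℕ} (hn : 6 ≤ n)
    (hq : 7 ≤ n ∨ q ≠ 2) {t : ℕ} (D : Fin t → Submodule F (Fin n → F))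
    (hD : Cfsg.Geo.IsNondegenerateMDecomposition (Cfsg.hermForm n F q) 1 D) :
    Cfsg.Geo.IsMaximalIn (Cfsg.GU n F q ⊓ Cfsg.Geo.specialLinear (Fin n) F)
      (Cfsg.Geo.decompositionStabilizer D ⊓ (Cfsg.GU n F q ⊓ Cfsg.Geo.specialLinear (Fin n) F)) := by
  have hH := uPQ_isHerm hF n
  have hP := uPQ_nondeg hF n
  refine isMaximalIn_su_dec hF (by omega) D hD fun hO X hX hM g hg hg' => ?_
  have h1 := hO.finrank_le
  rw [finrank_fin_fun] at h1
  choose e he he' using hO.exists_unit hH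
  have h2 : ∀ i, D i = Submodule.span F {e i} := fun i => (Submodule.eq_of_le_of_finrank_eq
    ((Submodule.span_singleton_le_iff_mem _ _).2 (he i))
    (by rw [hO.dim, finrank_span_singleton (fun h0 => by simpa [h0] using he' i)])).symm
  have hf : Frame (uPQ hF n) e := ⟨he', fun hij => hO.orth _ _ hij (he _) _ (he _),
    fun v hv => hO.eq_zero hP fun i => by rw [h2]; exact (uPQ hF n).mem_perp_span_singleton.2 (hv i)⟩
  have h4 : ∀ g, Mon e g → PermD D g := fun g hg => hO.exists_perm fun i => by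
    obtain ⟨j, c, hc⟩ := hg i
    refine ⟨j, fun v hv => ?_⟩
    rw [h2] at hv
    obtain ⟨d, rfl⟩ := Submodule.mem_span_singleton.1 hv
    rw [map_smul, hc]
    exact (D j).smul_mem _ ((D j).smul_mem _ (he j))
  exact hf.tfOn_top_mono6 hH hP (fun g hg hg' => hM g hg (h4 g hg')) (muData_conj hF)
    (by omega) (hq.imp (by omega) (exists_fixed_ne_zero_one hF)) hX hg
    fun h0 => hg' (h4 g h0)

end CfsgLib.SUMax
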