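import Mathlib
import Cfsg.Agent.Lib.SUMax.TenM
import Cfsg.Agent.Lib.MatConj.Unip

/-!
Overgroups of the stabiliser of a tensor decomposition `2 ⊗ 3` of a unitary space: basic calculus.
-/

set_option autoImplicit false

namespace CfsgLib.SUMax

open CfsgLib.Forms CfsgLib.ClMax CfsgLib.ClMax.Ten CfsgLib.RootMax Module

variable {F U W V : Type*} [Field F] {σ : F →+* F} [AddCommGroup U] [Module F U] [AddCommGroup W]
  [Module F W] [AddCommGroup V] [Module F V] {τ : U →ₗ[F] W →ₗ[F] V}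

theorem det_eq_one_of_cube [FiniteDimensional F V] {g : V →ₗ[F] V}
    (h : ∀ v, (g - 1) ((g - 1) ((g - 1) v)) = 0) : LinearMap.det g = 1 := by
  classical
  rw [← LinearMap.det_toMatrix (finBasis F V)]
  refine MatConj.det_eq_one_of_isNilpotent_sub_one ⟨3, ?_⟩
  have h1 : (g - 1) ^ 3 = 0 := LinearMap.ext fun v => by simpa [pow_succ] using h v
  have h2 := congrArg (LinearMap.toMatrixAlgEquiv (finBasis F V)) h1
  rw [map_pow, map_sub, map_one, map_zero] at h2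
  exact h2

/-- A standard basis of a three-dimensional unitary space. -/
structure Bas3 (P : PQ σ W) (x x' c : W) : Prop where
  xx : P.B x x = 0
  yy : P.B x' x' = 0
  xy : P.B x x' = 1
  yx : P.B x' x = 1
  cc : P.B c c = 1
  xc : P.B x c = 0
  cx : P.B c x = 0
  yc : P.B x' c = 0
  cy : P.B c x' = 0
  eq : ∀ w, w = P.B x' w • x + P.B x w • x' + P.B c w • c

theorem exists_bas3 [FiniteDimensional F W] {P : PQ σ W} (hH : P.IsHerm) (hP : P.Nondeg)
    (h3 : finrank F W = 3) {x : W} (hx : P.B x x = 0) (hx0 : x ≠ 0) : ∃ x' c, Bas3 P x x' c := by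
  obtain ⟨x', hx', hxx'⟩ := exists_iso_partner hH hP hx hx0
  have hx'x : P.B x' x = 1 := by rw [← hH.conj, hxx', map_one]
  have h1 := P.finrank_perp hP (Submodule.span F {x, x'})
  have h2 : finrank F (Submodule.span F {x, x'}) = 2 := by
    rw [Submodule.span_insert, Submodule.finrank_sup_span_singleton, finrank_span_singleton hx0]
    intro h0
    obtain ⟨t, rfl⟩ := Submodule.mem_span_singleton.1 h0
    simp [hx] at hxx'
  have h4 : ∀ w, w ∈ P.perp (Submodule.span F {x, x'}) ↔ P.B x w = 0 ∧ P.B x' w = 0 := fun w => by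
    simp [P.mem_perp_span]
  obtain ⟨z, hz0, hz⟩ := (finrank_eq_one_iff' (K := F)
    (V := P.perp (Submodule.span F {x, x'}))).1 (by omega)
  have h5 : ∀ w, ∃ t : F, w = P.B x' w • x + P.B x w • x' + t • (z : W) := fun w => by
    obtain ⟨t, ht⟩ := hz ⟨w - P.B x' w • x - P.B x w • x', (h4 _).2
      ⟨by simp [hx, hxx'], by simp [hx', hx'x]⟩⟩
    refine ⟨t, ?_⟩
    rw [show t • (z : W) = w - P.B x' w • x - P.B x w • x' from congrArg Subtype.val ht]
    abel
  obtain ⟨h6, h7⟩ := (h4 z).1 z.2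
  have h6' := P.B_eq_zero_comm.1 h6
  have h7' := P.B_eq_zero_comm.1 h7
  have h8 : P.B z z ≠ 0 := fun h0 => hz0 (Subtype.ext (hP _ fun w => by
    obtain ⟨t, ht⟩ := h5 w
    rw [ht]; simp [h0, h6', h7']))
  obtain ⟨s, hs⟩ := hH.norm_surj (P.B z z)⁻¹ (by rw [map_inv₀, hH.conj])
  have h9 : P.B (s • (z : W)) (s • (z : W)) = 1 := by
    rw [P.B_smul_left, P.B_smul_right, ← mul_assoc, hs, inv_mul_cancel₀ h8]
  refine ⟨x', s • z, hx, hx', hxx', hx'x, h9, by simp [h6], by simp [h6'], by simp [h7],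
    by simp [h7'], fun w => ?_⟩
  obtain ⟨t, ht⟩ := h5 w
  have h10 : P.B (s • (z : W)) w • s • (z : W) = t • (z : W) := by
    conv_lhs => rw [ht]
    simp only [P.B_smul_left, P.B_add_right, P.B_smul_right, h6', h7', smul_smul]
    congr 1
    linear_combination (t * P.B z z) * hs + t * mul_inv_cancel₀ h8
  rw [h10]; exact ht

/-- An overgroup in the special unitary group of the stabiliser of a decomposition `2 ⊗ 3`. -/
structure UT3 (P₁ : PQ σ U) (P₂ : PQ σ W) (P : PQ σ V) (h : IsTensorProduct τ)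
    (X : Subgroup (V ≃ₗ[F] V)) : Prop where
  h₁ : P₁.IsHerm
  n₁ : P₁.Nondeg
  h₂ : P₂.IsHerm
  n₂ : P₂.Nondeg
  hH : P.IsHerm
  hP : P.Nondeg
  eq : ∀ u w u' w', P.B (τ u w) (τ u' w') = P₁.B u u' * P₂.B w w'
  ha' : finrank F U = 2
  hb : finrank F W = 3
  hS : X ≤ SUV P
  hK : ∀ g ∈ Kron τ, g ∈ SUV P → g ∈ X

namespace UT3

variable {P₁ : PQ σ U} {P₂ : PQ σ W} {P : PQ σ V} {h : IsTensorProduct τ}
  {X : Subgroup (V ≃ₗ[F] V)} (H : UT3 P₁ P₂ P h X)
include H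

theorem ha : 2 ≤ finrank F U := H.ha'.ge

theorem hab : finrank F U < finrank F W := by rw [H.ha', H.hb]; omega

theorem hX : X ≤ P.isom := fun _ hg => (H.hS hg).1

theorem B_tau (u : U) (z : W) (v : V) : P.B (τ u z) v = P₁.B u (cR h (P₂.B z) v) := by
  induction v using h.inductionOn with
  | zero => simp
  | tmul u' w' => simp [H.eq, mul_comm]
  | add a b ha hb => simp [ha, hb]

theorem isIso {g : V ≃ₗ[F] V} (e : ∀ u w u' w', P.B (g (τ u w)) (g (τ u' w')) =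
    P.B (τ u w) (τ u' w')) : P.IsIso g := by
  refine (H.hH.isIso_iff _).2 fun v v' => ?_
  induction v using h.inductionOn with
  | zero => simp
  | add a b ha hb => simp [ha, hb]
  | tmul u w =>
    induction v' using h.inductionOn with
    | zero => simp
    | add a b ha hb => simp [ha, hb]
    | tmul u' w' => exact e u w u' w'

variable [FiniteDimensional F U] [FiniteDimensional F W]

theorem kron_mem {α : U ≃ₗ[F] U} {β : W ≃ₗ[F] W} (hα : α ∈ SUV P₁) (hβ : β ∈ SUV P₂) :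
    kron h α β ∈ X :=
  H.hK _ (Ten.kron_mem h α β) ⟨H.isIso fun u w u' w' => by
    rw [kron_apply, kron_apply, H.eq, H.eq, hα.1.B_eq, hβ.1.B_eq],
    mem_SLV.2 (by rw [det_kron, mem_SLV.1 hα.2, mem_SLV.1 hβ.2]; simp)⟩

theorem left {α : U ≃ₗ[F] U} (hα : α ∈ SUV P₁) : ∃ g ∈ X, ∀ u w, g (τ u w) = τ (α u) w :=
  ⟨_, H.kron_mem hα (SUV P₂).one_mem, fun u w => kron_apply h α 1 u w⟩

theorem right {β : W ≃ₗ[F] W} (hβ : β ∈ SUV P₂) : ∃ g ∈ X, ∀ u w, g (τ u w) = τ u (β w) :=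
  ⟨_, H.kron_mem (SUV P₁).one_mem hβ, fun u w => kron_apply h 1 β u w⟩

theorem exists_rt {x c : W} {e : F} (hx : P₂.B x x = 0) (hc : P₂.B x c = 0)
    (he : e + σ e = P₂.B c c) : ∃ g ∈ X, ∀ v, g v = v +
      τ (cR h (P₂.B c) v - e • cR h (P₂.B x) v) x - τ (cR h (P₂.B x) v) c := by
  obtain ⟨β, hβ, e1⟩ := exists_rt_SUV H.h₂ hx hc he
  obtain ⟨g, hg, e2⟩ := H.right hβ
  refine ⟨g, hg, fun v => ?_⟩
  induction v using h.inductionOn with
  | zero => simp
  | add a b ha hb => simp only [map_add, ha, hb, smul_add, map_sub, LinearMap.sub_apply,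
      LinearMap.add_apply]; abel
  | tmul u w =>
    simp only [e2, e1, map_add, map_sub, map_smul, cR_apply, LinearMap.sub_apply,
      LinearMap.smul_apply]
    module

theorem exists_tv {x : W} {d : F} (hx : P₂.B x x = 0) (hd : d + σ d = 0) :
    ∃ g ∈ X, ∀ v, g v = v + τ (d • cR h (P₂.B x) v) x := by
  obtain ⟨g, hg, e⟩ := H.exists_rt (c := 0) (e := -d) hx (by simp)
    (by simp only [map_neg, map_zero]; linear_combination -hd)
  exact ⟨g, hg, fun v => by simp [e]⟩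

theorem exists_scale {x : W} (hx : P₂.B x x = 0) (hx0 : x ≠ 0) {s : F} (hs : s ≠ 0) :
    ∃ g ∈ X, ∀ u, g (τ u x) = s • τ u x := by
  obtain ⟨β, hβ, -, e⟩ := exists_su_move H.h₂ H.n₂ (W := ⊤) (by simp [P₂.perp_top H.n₂])
    (w := x) (w' := s • x) trivial trivial hx0 (smul_ne_zero hs hx0) (by simp [hx])
    (Or.inl (by have := H.hb; rw [finrank_top]; omega))
  obtain ⟨g, hg, e2⟩ := H.right hβ
  exact ⟨g, hg, fun u => by rw [e2, e, map_smul]⟩

omit [FiniteDimensional F U] in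
theorem exists_eq_tau {x : W} (hx0 : x ≠ 0) {v : V}
    (hv : ∀ u c, P₂.B x c = 0 → P.B (τ u c) v = 0) : ∃ u, v = τ u x := by
  refine exists_eq_of_cR h hx0 fun θ hθ => ?_
  obtain ⟨c, rfl⟩ := P₂.exists_B_eq H.n₂ θ
  exact herm_ext H.n₁ fun u => by rw [← H.B_tau, hv u c (P₂.B_eq_zero_comm.1 hθ), map_zero]

omit [FiniteDimensional F U] in
/-- An isometry fixing the orthogonal complement of `U ⊗ x` pointwise. -/
theorem exists_eq_of_fix {x : W} (hx : P₂.B x x = 0) (hx0 : x ≠ 0) {g : V ≃ₗ[F] V}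
    (hg : g ∈ X) (hf : ∀ v, cR h (P₂.B x) v = 0 → g v = v) :
    ∃ m : End F U, (∀ u u', P₁.B (m u) u' = -P₁.B u (m u')) ∧
      ∀ v, g v = v + τ (m (cR h (P₂.B x) v)) x := by
  obtain ⟨x', hx', hxx'⟩ := exists_iso_partner H.h₂ H.n₂ hx hx0
  have hx'x : P₂.B x' x = 1 := by rw [← H.h₂.conj, hxx', map_one]
  let m : End F U := cR h (P₂.B x') ∘ₗ ((g : V →ₗ[F] V) - LinearMap.id) ∘ₗ τ.flip x'
  have hm : ∀ u, g (τ u x') = τ u x' + τ (m u) x := fun u => by
    obtain ⟨y, hy⟩ := H.exists_eq_tau hx0 (v := g (τ u x') - τ u x') fun u' c hc => by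
      rw [map_sub, ← hf (τ u' c) (by simp [hc]), (H.hX hg).B_eq, hf (τ u' c) (by simp [hc]),
        sub_self]
    have : m u = y := by
      change cR h (P₂.B x') (g (τ u x') - τ u x') = y
      rw [hy]; simp [hx'x]
    rw [this, ← hy]; abel
  refine ⟨m, fun u u' => ?_, fun v => ?_⟩
  · have := (H.hX hg).B_eq (τ u x') (τ u' x')
    simp only [hm, map_add, LinearMap.add_apply, H.eq, hx, hx', hxx', hx'x] at this
    linear_combination this
  · have := hf (v - τ (cR h (P₂.B x) v) x') (by simp [hxx'])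
    rw [map_sub, hm] at this
    linear_combination (norm := module) this

theorem tf_of_tv {y : U} {x : W} (hx : P₂.B x x = 0) (hx0 : x ≠ 0) {e : F} (he0 : e ≠ 0)
    (he : e + σ e = 0) (h1 : Tv P X (τ y x) e) : TF P X (τ y x) := by
  intro d hd
  obtain ⟨s, hs⟩ := H.hH.norm_surj (d / e) (by
    rw [map_div₀, eq_neg_of_add_eq_zero_right hd, eq_neg_of_add_eq_zero_right he, neg_div_neg_eq])
  by_cases hs0 : s = 0
  · rw [hs0, mul_zero, eq_comm, div_eq_zero_iff, or_iff_left he0] at hs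
    exact hs ▸ tv_zero _
  obtain ⟨g, hg, e1⟩ := H.exists_scale hx hx0 hs0
  have := h1.conj hg (H.hX hg)
  rw [e1, tv_smul, hs, div_mul_cancel₀ _ he0] at this
  exact this

theorem tf_of_rt_orth {y p : U} {x : W} (hy : P₁.B y y = 0) (hx : P₂.B x x = 0)
    (hp : p ∉ Submodule.span F {y}) (hyp : P₁.B y p = 0) {c : F}
    (h1 : Rt P X (τ y x) (τ p x) c) : TF P X (τ y x) := by
  intro d hd
  obtain ⟨t, rfl⟩ := exists_sub_conj H.hH hd
  obtain ⟨a, ha, ha'⟩ := P₁.exists_dual_vec H.n₁ _ hp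
  have h2 := ha' y (Submodule.mem_span_singleton_self y)
  obtain ⟨e, he⟩ := exists_param H.h₁ (σ t • a)
  obtain ⟨α, hα, e1⟩ := exists_rt_SUV H.h₁ hy (by simp [P₁.B_eq_zero_comm.1 h2]) he
  obtain ⟨g, hg, e2⟩ := H.left hα
  have h3 := h1.conj hg (H.hX hg)
  simp only [e2, e1, hy, hyp, h2, ha, P₁.B_smul_left, P₁.σσ, mul_zero, zero_smul, sub_zero,
    add_zero, mul_one, map_add, map_smul, LinearMap.add_apply, LinearMap.smul_apply] at h3
  exact (rt_div H.hH h1 ((rt_shift H.hH).1 h3) (by simp [H.eq, hx]) (by simp [H.eq, hx])).congr rfl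
    (by ring)

theorem exists_tf (hq : ∃ c : F, σ c = c ∧ c ≠ 0 ∧ c ≠ 1) {x : W}
    (hx : P₂.B x x = 0) (hx0 : x ≠ 0) {g : V ≃ₗ[F] V} (hg : g ∈ X)
    (hf : ∀ v, cR h (P₂.B x) v = 0 → g v = v)
    (hns : ¬ ∃ d : F, ∀ v, g v = v + τ (d • cR h (P₂.B x) v) x) :
    ∃ y, y ≠ 0 ∧ P₁.B y y = 0 ∧ TF P X (τ y x) := by
  obtain ⟨m, hm, e⟩ := H.exists_eq_of_fix hx hx0 hg hf
  obtain ⟨y, hy, hy'⟩ : ∃ y, P₁.B y y = 0 ∧ m y ∉ Submodule.span F {y} := by
    by_contra hcon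
    push Not at hcon
    obtain ⟨c, hc⟩ := scalar_of_iso H.h₁ H.n₁ H.ha hcon
    exact hns ⟨c, fun v => by rw [e, hc]⟩
  have hy0 : y ≠ 0 := by rintro rfl; simp at hy'
  have hrt : ∀ d, d + σ d = 0 → Rt P X (τ y x) (τ (d • m y) x) (d ^ 2 * P₁.B y (m y)) := by
    intro d hd
    obtain ⟨α, hα, e1⟩ := exists_tv_SUV H.h₁ hy hd
    obtain ⟨k, hk, e2⟩ := H.left hα
    have e3 : ∀ v, cR h (P₂.B x) (k⁻¹ v) = cR h (P₂.B x) v -
        (d * P₁.B y (cR h (P₂.B x) v)) • y := fun v => by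
      obtain ⟨v, rfl⟩ := k.surjective v
      rw [inv_apply_apply]
      induction v using h.inductionOn with
      | zero => simp
      | add a b ha hb => simp only [map_add, ha, hb]; module
      | tmul u w => simp [e2, e1, hy]; module
    have e4 : ∀ v, g⁻¹ v = v - τ (m (cR h (P₂.B x) v)) x := fun v => g.injective (by
      rw [apply_inv_apply, e]; simp [hx])
    refine ⟨k * g * k⁻¹ * g⁻¹, X.mul_mem (X.mul_mem (X.mul_mem hk hg) (X.inv_mem hk))
      (X.inv_mem hg), fun v => ?_⟩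
    have h1 : P₁.B (m y) (cR h (P₂.B x) v) = -P₁.B y (m (cR h (P₂.B x) v)) := hm _ _
    rw [LinearEquiv.mul_apply, LinearEquiv.mul_apply, LinearEquiv.mul_apply, e, map_add,
      apply_inv_apply, e2, e3, e1, e4, rt_herm H.hH, H.B_tau, H.B_tau]
    simp only [map_add, map_sub, map_smul, cR_apply, hx, zero_smul, sub_zero, LinearMap.add_apply,
      LinearMap.sub_apply, LinearMap.smul_apply, P₁.B_smul_left, h1, smul_eq_mul,
      eq_neg_of_add_eq_zero_right hd]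
    module
  refine ⟨y, hy0, hy, ?_⟩
  obtain ⟨δ, hδ0, hδ⟩ := H.hH.exists_trace_zero
  by_cases hκ : P₁.B y (m y) = 0
  · exact H.tf_of_rt_orth hy hx (fun h1 => hy' ((Submodule.smul_mem_iff _ hδ0).1 h1))
      (by simp [hκ]) (hrt δ hδ)
  obtain ⟨c, hc, hc0, hc1⟩ := hq
  obtain ⟨s, hs⟩ := H.hH.norm_surj c hc
  have hs0 : s ≠ 0 := by rintro rfl; exact hc0 (by simpa using hs.symm)
  obtain ⟨k, hk, e1⟩ := H.exists_scale hx hx0 hs0
  have h1 := (hrt δ hδ).conj hk (H.hX hk)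
  rw [e1, e1, rt_smul H.hH, smul_smul, hs, ← LinearMap.smul_apply, ← map_smul, smul_smul] at h1
  have h2 := rt_div H.hH h1 (hrt (c * δ) (by rw [map_mul, hc]; linear_combination c * hδ))
    (by simp [H.eq, hx]) (by simp [H.eq, hx])
  refine H.tf_of_tv hx hx0 (e := c * (c - 1) * δ ^ 2 * P₁.B y (m y))
    (by simp [hc0, sub_ne_zero.2 hc1, hδ0, hκ]) ?_ (h2.congr rfl (by ring))
  simp only [map_mul, map_sub, map_pow, map_one, hc, H.h₁.conj, hm,
    eq_neg_of_add_eq_zero_right hδ]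
  ring

theorem tf_iso {y : U} {x : W} (hy : P₁.B y y = 0) (hy0 : y ≠ 0) (hx : P₂.B x x = 0) (hx0 : x ≠ 0)
    (h1 : TF P X (τ y x)) {y' : U} {x' : W} (hy' : P₁.B y' y' = 0) (hx' : P₂.B x' x' = 0) :
    TF P X (τ y' x') := by
  by_cases hy'0 : y' = 0
  · simpa [hy'0] using tf_zero
  by_cases hx'0 : x' = 0
  · simpa [hx'0] using tf_zero
  obtain ⟨α, hα, c, hc⟩ := exists_suv_trans H.h₁ H.n₁ hy hy0 hy' hy'0
  obtain ⟨β, hβ, d, hd⟩ := exists_suv_trans H.h₂ H.n₂ hx hx0 hx' hx'0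
  have h2 := h1.conj (H.kron_mem hα hβ) (H.hX (H.kron_mem hα hβ))
  have hc0 : c ≠ 0 := by rintro rfl; exact hy0 (by simpa using hc)
  have hd0 : d ≠ 0 := by rintro rfl; exact hx0 (by simpa using hd)
  rw [kron_apply, hc, hd, map_smul, map_smul, LinearMap.smul_apply] at h2
  exact (h2.of_smul hd0).of_smul hc0

theorem tfOn_top (hq : ∃ c : F, σ c = c ∧ c ≠ 0 ∧ c ≠ 1)
    (h1 : ∀ y x, P₁.B y y = 0 → P₂.B x x = 0 → TF P X (τ y x)) : TFOn P X ⊤ := by
  have := finiteDimensional h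
  obtain ⟨x, hx0, hx⟩ := exists_iso H.h₂ (by have := H.hb; omega)
  obtain ⟨x', c, b⟩ := exists_bas3 H.h₂ H.n₂ H.hb hx hx0
  obtain ⟨y, hy0, hy⟩ := exists_iso H.h₁ H.ha
  obtain ⟨y', hy', hyy'⟩ := exists_iso_partner H.h₁ H.n₁ hy hy0
  have hy'y : P₁.B y' y = 1 := by rw [← H.h₁.conj, hyy', map_one]
  have hsp : ∀ Z : Submodule F V, (∀ y x, P₁.B y y = 0 → P₂.B x x = 0 → τ y x ∈ Z) →
      ∀ v, v ∈ Z := by
    intro Z hZ v
    induction v using h.inductionOn with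
    | zero => exact Z.zero_mem
    | add a b ha hb => exact Z.add_mem ha hb
    | tmul u w =>
      refine iso_induction H.h₂ H.n₂ (p := fun w => τ u w ∈ Z) hx hx0 (fun w hw => ?_)
        (fun a b h1 h2 => by rw [map_add]; exact Z.add_mem h1 h2) w
      exact iso_induction H.h₁ H.n₁ (p := fun u => τ u w ∈ Z) hy hy0 (fun u hu => hZ u w hu hw)
        (fun a b h1 h2 => by rw [map_add, LinearMap.add_apply]; exact Z.add_mem h1 h2) u
  obtain ⟨p, hp⟩ : ∃ p, p = τ y x := ⟨_, rfl⟩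
  obtain ⟨r, hr⟩ : ∃ r, r = τ y' x' := ⟨_, rfl⟩
  have pp : P.B p p = 0 := by simp [hp, H.eq, hy]
  have rr : P.B r r = 0 := by simp [hr, H.eq, hy']
  have pr : P.B p r = 1 := by simp [hp, hr, H.eq, hyy', b.xy]
  have rp : P.B r p = 1 := by simp [hp, hr, H.eq, hy'y, b.yx]
  have hW : Disjoint (Submodule.span F {p, r}) (P.perp (Submodule.span F {p, r})) := by
    rw [P.disjoint_perp_iff]
    intro v hv hv'
    obtain ⟨s, t, rfl⟩ := Submodule.mem_span_pair.1 hv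
    have h2 := hv' p (Submodule.subset_span (by simp))
    have h3 := hv' r (Submodule.subset_span (by simp))
    simp [pp, rr, pr, rp] at h2 h3
    simp [h2, h3]
  have hd : finrank F (Submodule.span F {p, r}) = 2 := by
    rw [Submodule.span_insert, Submodule.finrank_sup_span_singleton,
      finrank_span_singleton (P.ne_zero_of_B_ne (a := p) (b := r) (by simp [pr]))]
    intro h0
    obtain ⟨t, rfl⟩ := Submodule.mem_span_singleton.1 h0
    simp [pp] at pr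
  have hT : TFOn P X (Submodule.span F {p, r}) := by
    intro v hv hvv
    obtain ⟨s, t, rfl⟩ := Submodule.mem_span_pair.1 hv
    exact TF.line H.hH H.hX (hp ▸ h1 y x hy hx) (hr ▸ h1 y' x' hy' b.yy) pp rr (by simp [pr]) hvv
  obtain ⟨δ, hδ0, hδ⟩ := H.hH.exists_trace_zero
  have hδ' := eq_neg_of_add_eq_zero_right hδ
  obtain ⟨e, he⟩ := H.hH.exists_ne_conj
  obtain ⟨a, ha⟩ := H.hH.norm_surj (-(e + σ e)) (by rw [map_neg, map_add, P.σσ, add_comm])
  obtain ⟨z, hz⟩ : ∃ z, z = τ (y + δ • y') (x' + a • c + e • x) := ⟨_, rfl⟩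
  have z1 : P₁.B (y + δ • y') (y + δ • y') = 0 := by simp [hy, hy', hyy', hy'y, hδ']
  have zz : P.B z z = 0 := by rw [hz, H.eq, z1, zero_mul]
  have pz : P.B p z = δ := by simp [hp, hz, H.eq, hy, hyy', b.xx, b.xy, b.xc]
  have rz : P.B r z = e := by simp [hr, hz, H.eq, hy', hy'y, b.yy, b.yx, b.yc]
  have zp : P.B z p = -δ := by rw [← H.hH.conj, pz, hδ']
  have zr : P.B z r = σ e := by rw [← H.hH.conj, rz]
  have hu : z - (e • p + δ • r) ∈ P.perp (Submodule.span F {p, r}) := by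
    simp [P.mem_perp_span, pp, rr, pr, rp, pz, rz]
  have huu : P.B (z - (e • p + δ • r)) (z - (e • p + δ • r)) ≠ 0 := by
    simp only [P.B_sub_left, P.B_sub_right, P.B_add_left, P.B_add_right, P.B_smul_left,
      P.B_smul_right, pp, rr, pr, rp, pz, rz, zp, zr, zz, hδ']
    exact fun h0 => mul_ne_zero hδ0 (sub_ne_zero.2 he) (by linear_combination -h0)
  have hm : e • p + δ • r ∈ Submodule.span F {p, r} := Submodule.mem_span_pair.2 ⟨_, _, rfl⟩
  have h2 := hT.grow H.hX (trOn_of_tfOn H.hH hW hd.ge (Or.inr hq) hT) hm hu huu (by simpa using zz)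
    (by
      rw [add_sub_cancel, hz]
      refine h1 _ _ z1 ?_
      simp only [P₂.B_add_left, P₂.B_add_right, P₂.B_smul_left, P₂.B_smul_right, b.xx, b.yy, b.xy,
        b.yx, b.cc, b.xc, b.cx, b.yc, b.cy]
      linear_combination ha)
  have hW' := P.disjoint_perp_sup_span hW hu huu
  have hd' := Submodule.finrank_sup_span_singleton
    (fun h0 => P.ne_zero_of_B_ne huu (Submodule.disjoint_def.1 hW _ h0 hu))
  obtain ⟨Z, h3, -, h4, h5⟩ := exists_dichotomy H.hH H.hP H.hX (fun v hv => by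
    by_contra hcon
    push Not at hcon
    exact hv (H.hP v (hsp (LinearMap.ker (P.B v)) fun y x hy hx =>
      hcon _ (by simp [H.eq, hx]) (h1 y x hy hx)))) hW' (by omega) h2
    (trOn_of_tfOn H.hH hW' (by omega) (Or.inr hq) h2)
  have step : ∀ {u w u' w'}, τ u w ∈ Z → P₁.B u' u' = 0 → P₂.B w' w' = 0 → P₁.B u u' ≠ 0 →
      P₂.B w w' ≠ 0 → τ u' w' ∈ Z := fun {u w u' w'} h6 h7 h8 h9 h10 =>
    (h5 _ (by simp [H.eq, h7]) (h1 _ _ h7 h8)).resolve_right fun h0 =>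
      mul_ne_zero h9 h10 (by rw [← H.eq]; exact h0 _ h6)
  rwa [show Z = ⊤ from eq_top_iff.2 fun v _ => hsp Z (fun u w hu hw => ?_) v] at h4
  by_cases hu0 : u = 0
  · simp [hu0]
  by_cases hw0 : w = 0
  · simp [hw0]
  obtain ⟨f, hf, f1, f2⟩ := exists_iso_not_orth H.h₁ H.n₁ hy hy0 hu hu0
  obtain ⟨k, hk, k1, k2⟩ := exists_iso_not_orth H.h₂ H.n₂ hx hx0 hw hw0
  exact step (step (hp ▸ h3 (Submodule.mem_sup_left (Submodule.subset_span (by simp)))) hf hk
    (fun h0 => f1 (P₁.B_eq_zero_comm.1 h0)) (fun h0 => k1 (P₂.B_eq_zero_comm.1 h0))) hu hw f2 k2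

theorem eq_cR (hZ : Zs P₂ h X) {x : W} (hx : P₂.B x x = 0) (hx0 : x ≠ 0) {t : V ≃ₗ[F] V} (ht : t ∈ X)
    {χ : V →ₗ[F] U} (e : ∀ v, cR h (P₂.B x) v = 0 → t v = v + τ (χ v) x)
    (h0 : ∀ u, χ (τ u x) = 0) : ∃ c', ∀ c, P₂.B x c = 0 → ∀ u, χ (τ u c) = P₂.B c' c • u := by
  obtain ⟨x', -, hxx'⟩ := exists_iso_partner H.h₂ H.n₂ hx hx0
  have tL : ∀ u, t (τ u x) = τ u x := fun u => by simp [e (τ u x) (by simp [hx]), h0]
  have key : ∀ c, P₂.B x c = 0 → ∃ d : F, ∀ u u',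
      P₁.B (χ (τ u' c)) u - P₁.B u' (χ (τ u c)) = d * P₁.B u' u := fun c hc => by
    have hcx := P₂.B_eq_zero_comm.1 hc
    obtain ⟨a, ha⟩ := exists_param H.h₂ c
    obtain ⟨E, hE, e1⟩ := H.exists_rt hx hc ha
    obtain ⟨d, hd⟩ := hZ x hx hx0 ((E * t)⁻¹ * (t * E))
      (X.mul_mem (X.inv_mem (X.mul_mem hE ht)) (X.mul_mem ht hE)) fun v hv => by
        refine (E * t).injective ?_
        rw [LinearEquiv.mul_apply (E * t)⁻¹, apply_inv_apply, LinearEquiv.mul_apply,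
          LinearEquiv.mul_apply, e v hv, e1, e1]
        simp only [map_add, hv, cR_apply, hx, hcx, zero_smul, smul_zero, map_zero,
          LinearMap.zero_apply, sub_zero, add_zero, tL, e v hv]
    refine ⟨d, fun u u' => ?_⟩
    have h1 := congrArg (E * t) (hd (τ u x'))
    have h2 : cR h (P₂.B x) (t (τ u x')) = u := herm_ext H.n₁ fun y => by
      rw [← H.B_tau, ← tL, (H.hX ht).B_eq, H.eq, hxx', mul_one]
    rw [LinearEquiv.mul_apply (E * t)⁻¹, apply_inv_apply, LinearEquiv.mul_apply,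
      LinearEquiv.mul_apply, e1, e1] at h1
    simp only [map_add, map_sub, cR_apply, hx, hcx, hxx', zero_smul, one_smul, add_zero, tL, h2,
      e (τ u c) (by simp [hc]), LinearMap.sub_apply, map_smul, LinearMap.smul_apply,
      smul_zero] at h1
    have h3 : P₂.B c x' • u - cR h (P₂.B c) (t (τ u x')) - χ (τ u c) = d • u :=
      left_inj h hx0 (by
        simp only [map_sub, map_smul, LinearMap.sub_apply, LinearMap.smul_apply]
        linear_combination (norm := module) h1)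
    have h4 := (H.hX ht).B_eq (τ u' c) (τ u x')
    rw [e _ (by simp [hc]), P.B_add_left, H.B_tau, H.B_tau, h2, H.eq] at h4
    have h5 := congrArg (P₁.B u') h3
    simp only [map_sub, map_smul, smul_eq_mul] at h5
    linear_combination h5 + h4
  obtain ⟨u₀, u₁, hu⟩ := exists_B_ne H.n₁ H.ha 1
  simp only [LinearEquiv.coe_one, id_eq] at hu
  obtain ⟨c', hc'⟩ := P₂.exists_B_eq H.n₂ (P₁.B u₀ ∘ₗ χ ∘ₗ τ u₁)
  refine ⟨c', fun c hc u => ?_⟩
  obtain ⟨ω, hω⟩ := H.hH.exists_ne_conj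
  obtain ⟨d, hd⟩ := key c hc
  obtain ⟨d', hd'⟩ := key (ω • c) (by simp [hc])
  have h1 : ∀ u, χ (τ u c) = ((d' - σ ω * d) / (σ ω - ω)) • u := fun u =>
    herm_ext H.n₁ fun y => by
      have h2 := hd' u y
      have h3 := sub_ne_zero.2 hω
      simp only [map_smul, P₁.B_smul_left, smul_eq_mul] at h2 ⊢
      field_simp
      linear_combination h2 - σ ω * hd u y
  rw [hc']
  simp [h1, hu]

end UT3

end CfsgLib.SUMax
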