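import Mathlib
import Cfsg.Agent.Lib.SUMax.Low3

/-!
Maximality of the stabiliser of a tensor decomposition `2 ⊗ 3` in the special unitary group.
-/

set_option autoImplicit false

namespace CfsgLib.SUMax

open CfsgLib.Forms CfsgLib.ClMax CfsgLib.ClMax.Ten CfsgLib.RootMax Module

variable {F U W V : Type*} [Field F] {σ : F →+* F} [AddCommGroup U] [Module F U] [AddCommGroup W]
  [Module F W] [AddCommGroup V] [Module F V] {τ : U →ₗ[F] W →ₗ[F] V}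

theorem Bas3.eq_tau {P₂ : PQ σ W} {x x' c : W} (b : Bas3 P₂ x x' c) (h : IsTensorProduct τ)
    (v : V) : v = τ (cR h (P₂.B x') v) x + τ (cR h (P₂.B x) v) x' + τ (cR h (P₂.B c) v) c := by
  induction v using h.inductionOn with
  | zero => simp
  | add a b ha hb =>
    conv_lhs => rw [ha, hb]
    simp only [map_add, LinearMap.add_apply]; abel
  | tmul u w =>
    conv_lhs => rw [b.eq w]
    simp

theorem Bas3.exists_diag {P₂ : PQ σ W} {x x' c : W} (b : Bas3 P₂ x x' c) {μ : F}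
    (hμ : μ ≠ 0) : ∃ β : W ≃ₗ[F] W, (∀ w w', P₂.B (β w) (β w') = P₂.B w w') ∧ β x = μ • x ∧
      β c = c := by
  let f : F → W →ₗ[F] W := fun μ => μ • (P₂.B x').smulRight x + (σ μ)⁻¹ • (P₂.B x).smulRight x' +
    (P₂.B c).smulRight c
  have hf : ∀ μ w, f μ w = (μ * P₂.B x' w) • x + ((σ μ)⁻¹ * P₂.B x w) • x' + P₂.B c w • c :=
    fun μ w => by simp [f, smul_smul]
  have hi : ∀ μ, μ ≠ 0 → f μ ∘ₗ f μ⁻¹ = LinearMap.id := fun μ hμ => LinearMap.ext fun w => by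
    have : σ μ ≠ 0 := (map_ne_zero σ).2 hμ
    conv_rhs => rw [LinearMap.id_apply, b.eq w]
    simp [hf, b.xx, b.yy, b.xy, b.yx, b.cc, b.xc, b.cx, b.yc, b.cy, hμ, this]
  refine ⟨LinearEquiv.ofLinearMap (f μ) (f μ⁻¹) (hi μ hμ)
    (by simpa using hi μ⁻¹ (inv_ne_zero hμ)), fun w w' => ?_, by simp [hf, b.xx, b.yx, b.cx],
    by simp [hf, b.xc, b.yc, b.cc]⟩
  have : σ μ ≠ 0 := (map_ne_zero σ).2 hμ
  conv_rhs => rw [b.eq w, b.eq w']
  simp only [LinearEquiv.coe_ofLinearMap, hf, P₂.B_add_left, P₂.B_add_right, P₂.B_smul_left,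
    P₂.B_smul_right, b.xx, b.yy, b.xy, b.yx, b.cc, b.xc, b.cx, b.yc, b.cy, map_mul, map_inv₀,
    P₂.σσ]
  field_simp
  ring

theorem kron_act (h : IsTensorProduct τ) [Nontrivial U] {w : V ≃ₗ[F] V} (hw : w ∈ Kron τ) {x : W}
    (hx0 : x ≠ 0) {a : U → U} (ha : ∀ u, w (τ u x) = τ (a u) x) (θ : Dual F W) (c : W) :
    ∃ κ : F, ∀ u, cR h θ (w (τ u c)) = κ • a u := by
  obtain ⟨α, β, e⟩ := hw
  obtain ⟨u₀, hu₀⟩ := exists_ne (0 : U)
  obtain ⟨s, hs⟩ := Submodule.mem_span_singleton.1 (mem_span_of_eq (flip h) (u := x)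
    (u' := β x) (w := a u₀) (w' := α u₀) (by simpa using hu₀) ((e u₀ x).symm.trans (ha u₀)))
  have hs0 : s ≠ 0 := by rintro rfl; exact hx0 (by simpa using hs.symm)
  refine ⟨θ (β c) / s, fun u => ?_⟩
  have : a u = s • α u := left_inj h hx0 (by rw [← ha, e, ← hs]; simp)
  rw [e, this, cR_apply, smul_smul, div_mul_cancel₀ _ hs0]

theorem exists_smul_of_not_inj [FiniteDimensional F U] (h2 : finrank F U = 2) {f : U →ₗ[F] U}
    {a u₁ : U} (ha : a ≠ 0) (hf : f a = 0) (h1 : f u₁ ≠ 0) (u : U) : ∃ t : F, t • f u₁ = f u := by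
  have h3 := f.finrank_range_add_finrank_ker
  have h4 : finrank F (LinearMap.ker f) ≠ 0 := fun h0 =>
    ha (by simpa [Submodule.finrank_eq_zero.1 h0] using (show a ∈ LinearMap.ker f from hf))
  have h5 : finrank F (LinearMap.range f) ≠ 0 := fun h0 =>
    h1 (by simpa [Submodule.finrank_eq_zero.1 h0] using (show f u₁ ∈ LinearMap.range f from ⟨_, rfl⟩))
  obtain ⟨t, ht⟩ := (finrank_eq_one_iff_of_nonzero' (K := F) (⟨f u₁, _, rfl⟩ : LinearMap.range f)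
    (fun h0 => h1 (congrArg Subtype.val h0))).1 (by omega) ⟨f u, _, rfl⟩
  exact ⟨t, congrArg Subtype.val ht⟩

theorem exists_quad [FiniteDimensional F U] {P₁ : PQ σ U} (hP : P₁.Nondeg) (h2 : finrank F U = 2)
    {ψ : U →ₗ[F] U} (hψ : ∀ u u', P₁.B (ψ u) u' = P₁.B u (ψ u'))
    (hns : ¬ ∃ ν : F, ∀ u, ψ u = ν • u) :
    ∃ α β : F, σ α = α ∧ σ β = β ∧ ∀ u, ψ (ψ u) = α • ψ u + β • u := by
  obtain ⟨u₁, hu₁⟩ : ∃ u, ψ u ∉ Submodule.span F {u} := by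
    by_contra h0
    push Not at h0
    exact hns (scalar_of_forall_mem_span h0)
  have hu0 : u₁ ≠ 0 := by rintro rfl; simp at hu₁
  have h3 : ∀ u, ∃ p r : F, p • u₁ + r • ψ u₁ = u := fun u => by
    rw [← Submodule.mem_span_pair, Submodule.span_insert, Submodule.eq_top_of_finrank_eq
      (S := Submodule.span F {u₁} ⊔ Submodule.span F {ψ u₁})
      (by rw [Submodule.finrank_sup_span_singleton hu₁, finrank_span_singleton hu0, h2])]
    trivial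
  obtain ⟨β, α, e⟩ := h3 (ψ (ψ u₁))
  have h4 : ∀ u, ψ (ψ u) = α • ψ u + β • u := fun u => by
    obtain ⟨p, r, rfl⟩ := h3 u
    have := congrArg ψ e
    simp only [map_add, map_smul] at this ⊢
    rw [← this, ← e]; module
  have h5 : (σ α - α) • ψ u₁ = (β - σ β) • u₁ := herm_ext hP fun u => by
    have := (hψ (ψ u) u₁).trans (hψ u (ψ u₁))
    rw [h4, h4, P₁.B_add_left, P₁.B_smul_left, P₁.B_smul_left, hψ u] at this
    simp only [P₁.B_add_right, P₁.B_smul_right] at this ⊢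
    linear_combination this
  have h6 : σ α = α := by
    by_contra h0
    exact hu₁ (Submodule.mem_span_singleton.2 ⟨(σ α - α)⁻¹ * (β - σ β), by
      rw [mul_smul, ← h5, inv_smul_smul₀ (sub_ne_zero.2 h0)]⟩)
  refine ⟨α, β, h6, ?_, h4⟩
  rw [h6, sub_self, zero_smul, eq_comm, smul_eq_zero, or_iff_left hu0, sub_eq_zero] at h5
  exact h5.symm

namespace UT3

variable {P₁ : PQ σ U} {P₂ : PQ σ W} {P : PQ σ V} {h : IsTensorProduct τ}
  {X : Subgroup (V ≃ₗ[F] V)} (H : UT3 P₁ P₂ P h X) [FiniteDimensional F U]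
  [FiniteDimensional F W] (hZ : Zs P₂ h X)
include H hZ

omit [FiniteDimensional F U] [FiniteDimensional F W] H hZ in
theorem _root_.CfsgLib.SUMax.Bas3.dec {x x' c : W} (b : Bas3 P₂ x x' c) (h : IsTensorProduct τ)
    {v : V} (hv : cR h (P₂.B x) v = 0) : ∃ y z, v = τ y x + τ z c :=
  ⟨_, _, by simpa [hv] using b.eq_tau h v⟩

theorem mem_of_unip {x x' c : W} (b : Bas3 P₂ x x' c) (hx0 : x ≠ 0) {q : V ≃ₗ[F] V} (hq : q ∈ X)
    (q1 : ∀ u, q (τ u x) = τ u x) (q2 : ∀ u, ∃ y, q (τ u c) = τ u c + τ y x) : q ∈ Kron τ := by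
  have : Nontrivial U := Module.nontrivial_of_finrank_pos (R := F) (by have := H.ha; omega)
  obtain ⟨c'', hc''⟩ := H.eq_cR hZ b.xx hx0 hq
    (χ := cR h (P₂.B x') ∘ₗ ((q : V →ₗ[F] V) - LinearMap.id)) (fun v hv => by
      obtain ⟨y, z, rfl⟩ := b.dec h hv
      obtain ⟨y', hy'⟩ := q2 z
      simp [q1, hy', b.yx, add_assoc]) (fun u => by simp [q1])
  obtain ⟨θ', hθ'⟩ := exists_param H.h₂ (σ (P₂.B c'' c) • c)
  obtain ⟨E', hE', e2⟩ := H.exists_rt b.xx (by simp [b.xc]) hθ'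
  obtain ⟨d, hd⟩ := hZ x b.xx hx0 (E'⁻¹ * q) (X.mul_mem (X.inv_mem hE') hq) fun v hv =>
    E'.injective (by
      obtain ⟨y, z, rfl⟩ := b.dec h hv
      obtain ⟨y', hy'⟩ := q2 z
      have h1 : y' = P₂.B c'' c • z := by simpa [hy', b.yx] using hc'' c b.xc z
      rw [LinearEquiv.mul_apply, apply_inv_apply, e2, hv, map_add q, q1, hy', h1]
      simp [b.cx, b.cc, P₂.σσ, add_assoc])
  have h1 : E' ∈ Kron τ := mem_Kron_of h 1 fun z =>
    ⟨z + (P₂.B (σ (P₂.B c'' c) • c) z - θ' * P₂.B x z) • x - P₂.B x z • σ (P₂.B c'' c) • c,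
      fun u => by
        rw [e2]
        simp only [cR_apply, map_add, map_sub, map_smul, LinearMap.sub_apply, LinearMap.smul_apply,
          LinearEquiv.coe_one, id_eq]
        module⟩
  have h2 : E'⁻¹ * q ∈ Kron τ := mem_Kron_of h 1 fun z => ⟨z + (d * P₂.B x z) • x, fun u => by
    rw [hd]
    simp only [cR_apply, map_add, map_smul, LinearMap.smul_apply, LinearEquiv.coe_one, id_eq]
    module⟩
  simpa using (Kron τ).mul_mem h1 h2

theorem mem_of_stab {x : W} (hx : P₂.B x x = 0) (hx0 : x ≠ 0) {g : V ≃ₗ[F] V} (hg : g ∈ X)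
    (hs : ∀ u, ∃ u', g (τ u x) = τ u' x) : g ∈ Kron τ := by
  have := finiteDimensional h
  obtain ⟨x', c, b⟩ := exists_bas3 H.h₂ H.n₂ H.hb hx hx0
  obtain ⟨α, hα⟩ : ∃ α : U ≃ₗ[F] U, ∀ u, g (τ u x) = τ (α u) x := by
    let α₀ : U →ₗ[F] U := cR h (P₂.B x') ∘ₗ (g : V →ₗ[F] V) ∘ₗ τ.flip x
    have hα₀ : ∀ u, g (τ u x) = τ (α₀ u) x := fun u => by
      obtain ⟨u', hu'⟩ := hs u
      have : α₀ u = u' := by simp [α₀, hu', b.yx]
      rw [this, hu']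
    exact ⟨LinearEquiv.ofInjectiveEndo α₀ fun u u' e =>
      left_inj h hx0 (g.injective (by rw [hα₀, hα₀, e])), hα₀⟩
  have e' : ∀ u, g.symm (τ u x) = τ (α.symm u) x := fun u => g.injective (by
    rw [g.apply_symm_apply, hα, α.apply_symm_apply])
  have pp : ∀ {k : V ≃ₗ[F] V}, P.IsIso k → (∀ u, ∃ u', k (τ u' x) = τ u x) →
      ∀ v, cR h (P₂.B x) v = 0 → cR h (P₂.B x) (k v) = 0 := fun {k} hk h1 v hv =>
    herm_ext H.n₁ fun u => by
      obtain ⟨u', h2⟩ := h1 u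
      rw [← H.B_tau, ← h2, hk.B_eq, H.B_tau, hv]; simp
  have p1 := pp (H.hX hg) fun u => ⟨α.symm u, by rw [hα, α.apply_symm_apply]⟩
  have p2 := pp (H.hX (X.inv_mem hg)) fun u => ⟨α u, by rw [← hα, inv_apply_apply]⟩
  obtain ⟨α', hα', hi⟩ : ∃ α' : U ≃ₗ[F] U, (∀ u, ∃ y, g (τ u c) = τ (α y) x + τ (α' u) c) ∧
      ∀ u u', P₁.B (α' u) (α' u') = P₁.B u u' := by
    let α₁ : U →ₗ[F] U := cR h (P₂.B c) ∘ₗ (g : V →ₗ[F] V) ∘ₗ τ.flip c
    have hα₁ : ∀ u, ∃ y, g (τ u c) = τ (α y) x + τ (α₁ u) c := fun u => by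
      obtain ⟨y, z, h1⟩ := b.dec h (p1 (τ u c) (by simp [b.xc]))
      have : α₁ u = z := by simp [α₁, h1, b.cx, b.cc]
      exact ⟨α.symm y, by rw [this, h1, α.apply_symm_apply]⟩
    have hi₁ : ∀ u u', P₁.B (α₁ u) (α₁ u') = P₁.B u u' := fun u u' => by
      have := (H.hX hg).B_eq (τ u c) (τ u' c)
      obtain ⟨y, hy⟩ := hα₁ u
      obtain ⟨y', hy'⟩ := hα₁ u'
      rw [hy, hy'] at this
      simpa [H.eq, b.xx, b.xc, b.cx, b.cc] using this
    exact ⟨LinearEquiv.ofInjectiveEndo α₁ fun u u' e => herm_ext H.n₁ fun y => by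
      rw [← hi₁, e, hi₁], hα₁, hi₁⟩
  obtain ⟨θ, hθ⟩ := exists_param H.h₂ c
  obtain ⟨E, hE, e1⟩ := H.exists_rt hx b.xc hθ
  obtain ⟨c', hc'⟩ := H.eq_cR hZ hx hx0 (X.mul_mem (X.mul_mem hg hE) (X.inv_mem hg))
    (χ := (α : U →ₗ[F] U) ∘ₗ cR h (P₂.B c) ∘ₗ (g⁻¹ : V ≃ₗ[F] V)) (fun v hv => by
      rw [LinearEquiv.mul_apply, LinearEquiv.mul_apply, e1, p2 v hv]
      simp [hα]) (fun u => by simp [e', b.cx])
  have hμ : ∀ u, α u = P₂.B c' c • α' u := fun u => by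
    have h1 := hc' c b.xc (α' u)
    obtain ⟨y, hy⟩ := hα' u
    have h2 : g.symm (τ (α' u) c) = τ u c - τ y x :=
      g.injective (by rw [g.apply_symm_apply, map_sub, hα, hy]; simp)
    simpa [h2, b.cc, b.cx] using h1
  obtain ⟨u₀, u₁, hu⟩ := exists_B_ne H.n₁ H.ha α
  obtain ⟨β, hβ, hβx, hβc⟩ := b.exists_diag (μ := P₂.B c' c) fun h0 => by simp [hμ, h0] at hu
  have hk : P.IsIso (kron h α' β) := H.isIso fun u w u' w' => by
    rw [kron_apply, kron_apply, H.eq, H.eq, hβ, hi]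
  have hK := Ten.kron_mem h α' β
  have k1 : ∀ u, kron h α' β (τ u x) = g (τ u x) := fun u => by
    rw [hα, kron_apply, hβx, hμ]; simp
  have k2 : ∀ u, kron h α' β (τ u c) = τ (α' u) c := fun u => by rw [kron_apply, hβc]
  generalize kron h α' β = k at hk hK k1 k2
  obtain ⟨q, rfl⟩ : ∃ q, g = k * q := ⟨k⁻¹ * g, by simp⟩
  have hqi : P.IsIso q := show q ∈ P.isom by
    simpa using P.isom.mul_mem (P.isom.inv_mem hk) (H.hX hg)
  have q1 : ∀ u, q (τ u x) = τ u x := fun u => k.injective (k1 u).symm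
  have q2 : ∀ u, ∃ y, q (τ u c) = τ u c + τ y x := fun u => by
    obtain ⟨y, hy⟩ := hα' u
    refine ⟨y, k.injective ?_⟩
    rw [map_add, k2, k1, hα, add_comm, ← hy]; rfl
  have q3 : ∀ v, cR h (P₂.B x) (q v - v) = 0 := fun v => herm_ext H.n₁ fun u => by
    rw [← H.B_tau, map_sub, ← q1 u, hqi.B_eq, q1]; simp
  have hqd : LinearMap.det (q : V →ₗ[F] V) = 1 := det_eq_one_of_cube fun v => by
    obtain ⟨y, z, h1⟩ := b.dec h (q3 v)
    obtain ⟨y', hy'⟩ := q2 z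
    simp only [LinearMap.sub_apply, LinearEquiv.coe_coe, Module.End.one_apply]
    simp [h1, q1, hy']
  have hkX : k ∈ X := H.hK _ hK ⟨hk, mem_SLV.2 (by
    have h1 := mem_SLV.1 (H.hS hg).2
    rwa [det_mul, hqd, mul_one] at h1)⟩
  exact (Kron τ).mul_mem hK
    (H.mem_of_unip hZ b hx0 (by simpa using X.mul_mem (X.inv_mem hkX) hg) q1 q2)

theorem mem_of_map {x x' : W} (hx0 : x ≠ 0) (hx' : P₂.B x' x' = 0) (hx'0 : x' ≠ 0)
    {g : V ≃ₗ[F] V} (hg : g ∈ X) (hs : ∀ u, ∃ u', g (τ u x) = τ u' x') : g ∈ Kron τ := by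
  obtain ⟨u₂, u₃, hu'⟩ := exists_B_ne H.n₁ H.ha 1
  have hx : P₂.B x x = 0 := by
    obtain ⟨a, ha⟩ := hs u₂
    obtain ⟨b, hb⟩ := hs u₃
    have := (H.hX hg).B_eq (τ u₂ x) (τ u₃ x)
    simp only [LinearEquiv.coe_one, id_eq] at hu'
    simpa [ha, hb, H.eq, hx', hu'] using this.symm
  obtain ⟨β, hβ, c, hc⟩ := exists_suv_trans H.h₂ H.n₂ hx' hx'0 hx hx0
  have h1 := H.mem_of_stab hZ hx hx0 (X.mul_mem (H.kron_mem (SUV P₁).one_mem hβ) hg) fun u => by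
    obtain ⟨u', hu'⟩ := hs u
    exact ⟨c • u', by simp [hu', hc]⟩
  simpa using (Kron τ).mul_mem ((Kron τ).inv_mem (Ten.kron_mem h 1 β)) h1

theorem mem_of_conj {g t : V ≃ₗ[F] V} (hg : g ∈ X) {w : W} {θ : Dual F W} (hw : P₂.B w w = 0)
    (hw0 : w ≠ 0) (hθ : θ ≠ 0) (ht : ∀ x, t x = x + τ (cR h θ x) w) (hs : g⁻¹ * t * g ∈ Kron τ) :
    g ∈ Kron τ := by
  have : Nontrivial U := Module.nontrivial_of_finrank_pos (R := F) (by have := H.ha; omega)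
  have e : ∀ x, (g⁻¹ * t * g) x = x + g.symm (τ (cR h θ (g x)) w) := fun x => by
    change g.symm (t (g x)) = _
    rw [ht, map_add, LinearEquiv.symm_apply_apply]
  obtain ⟨β, hβ⟩ := right_of_fix h H.hab hs (cR h θ ∘ₗ (g : V →ₗ[F] V)) (fun x hx => by
    have : cR h θ (g x) = 0 := hx
    simp [e, this])
  obtain ⟨z, hz⟩ : ∃ z, β z - z ≠ 0 := by
    by_contra h'
    push Not at h'
    obtain ⟨u₀, hu₀⟩ := exists_ne (0 : U)
    obtain ⟨y, hy⟩ := exists_apply_eq_one hθ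
    have h1 : g⁻¹ * t * g = 1 := equiv_ext h fun u z => by rw [hβ, sub_eq_zero.1 (h' z)]; rfl
    have h2 := e (g.symm (τ u₀ y))
    rw [h1] at h2
    simp [hy] at h2
    exact ne_zero h hu₀ hw0 h2
  refine H.mem_of_map hZ hz hw hw0 hg fun u => ⟨cR h θ (g (τ u z)), ?_⟩
  rw [map_sub, ← hβ, e]; simp

end UT3

end CfsgLib.SUMax
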