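import Mathlib
import Cfsg.Agent.Lib.SUMax.Low4

/-!
Maximality of the stabiliser of a tensor decomposition `2 ⊗ 3` in the special unitary group.
-/

set_option autoImplicit false

namespace CfsgLib.SUMax

open CfsgLib.Forms CfsgLib.ClMax CfsgLib.ClMax.Ten CfsgLib.RootMax Module

variable {F U W V : Type*} [Field F] {σ : F →+* F} [AddCommGroup U] [Module F U] [AddCommGroup W]
  [Module F W] [AddCommGroup V] [Module F V] {τ : U →ₗ[F] W →ₗ[F] V}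

/-- The pairing between `U ⊗ x` and `g (U ⊗ x₀)`. -/
noncomputable def pr (P₂ : PQ σ W) (h : IsTensorProduct τ) (g : V ≃ₗ[F] V) (x₀ x : W) : End F U :=
  cR h (P₂.B x) ∘ₗ (g : V →ₗ[F] V) ∘ₗ τ.flip x₀

theorem pr_apply (P₂ : PQ σ W) (h : IsTensorProduct τ) (g : V ≃ₗ[F] V) (x₀ x : W) (u : U) :
    pr P₂ h g x₀ x u = cR h (P₂.B x) (g (τ u x₀)) := rfl

namespace UT3

variable {P₁ : PQ σ U} {P₂ : PQ σ W} {P : PQ σ V} {h : IsTensorProduct τ}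
  {X : Subgroup (V ≃ₗ[F] V)} (H : UT3 P₁ P₂ P h X)
include H

theorem pr_adj {g : V ≃ₗ[F] V} (hg : g ∈ X) (x₀ x : W) (u u' : U) :
    P₁.B (pr P₂ h g x₀ x u) u' = P₁.B u (pr P₂ h g⁻¹ x x₀ u') := by
  rw [pr_apply, pr_apply, ← H.h₁.conj, ← H.B_tau, H.hH.conj, ← H.B_tau, ← (H.hX hg).B_eq (τ u x₀),
    apply_inv_apply]

variable [FiniteDimensional F U] [FiniteDimensional F W]

theorem exists_tv2 {g : V ≃ₗ[F] V} (hg : g ∈ X) {x : W} {d : F} (hx : P₂.B x x = 0)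
    (hd : d + σ d = 0) : ∃ t ∈ X, ∀ v, t v = v + g (τ (d • cR h (P₂.B x) (g⁻¹ v)) x) := by
  obtain ⟨t, ht, e⟩ := H.exists_tv hx hd
  exact ⟨_, X.mul_mem (X.mul_mem hg ht) (X.inv_mem hg), fun v => by
    rw [LinearEquiv.mul_apply, LinearEquiv.mul_apply, e, map_add, apply_inv_apply]⟩

variable (hZ : Zs P₂ h X) {g : V ≃ₗ[F] V} (hg : g ∈ X) {x₀ x : W} (hx₀ : P₂.B x₀ x₀ = 0)
  (h0 : x₀ ≠ 0) (hx : P₂.B x x = 0) (hx0 : x ≠ 0)
include hZ hg hx₀ h0 hx hx0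

theorem mem_of_zero (hm : ∀ u, pr P₂ h g x₀ x (pr P₂ h g⁻¹ x x₀ u) = 0) : g ∈ Kron τ := by
  have hBne : ∀ z, z ≠ 0 → P₂.B z ≠ 0 := fun z hz h0 => hz (H.n₂ z fun y => by simp [h0])
  obtain ⟨δ, hδ0, hδ⟩ := H.hH.exists_trace_zero
  obtain ⟨t, ht, e1⟩ := H.exists_tv hx hδ
  obtain ⟨t₀, ht₀, e0⟩ := H.exists_tv hx₀ hδ
  have hz := X.mul_mem (X.mul_mem hg ht₀) (X.inv_mem hg)
  have h1 := H.mem_of_conj hZ hz (θ := δ • P₂.B x) hx hx0 (smul_ne_zero hδ0 (hBne _ hx0))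
    (by simpa using e1) (H.mem_of_stab hZ hx hx0
      (X.mul_mem (X.mul_mem (X.inv_mem hz) ht) hz) fun u => ⟨u, (g * t₀ * g⁻¹).injective (by
        rw [LinearEquiv.mul_apply (_ * t), LinearEquiv.mul_apply _ t, apply_inv_apply, e1,
          LinearEquiv.mul_apply, LinearEquiv.mul_apply, e0, map_add g, apply_inv_apply,
          ← pr_apply, map_add, ← pr_apply, map_smul (pr P₂ h g x₀ x), hm]
        simp [hx])⟩)
  simpa using (Kron τ).inv_mem (H.mem_of_conj hZ (X.inv_mem hg) (θ := δ • P₂.B x₀) hx₀ h0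
    (smul_ne_zero hδ0 (hBne _ h0)) (by simpa using e0) (by simpa using h1))

theorem inj_of {c₀ : F} (hc : σ c₀ = c₀) (hc0 : c₀ ≠ 0) (hc1 : c₀ ≠ 1) (hg' : g ∉ Kron τ)
    {a₀ : U} (ha : pr P₂ h g⁻¹ x x₀ a₀ = 0) : a₀ = 0 := by
  have : Nontrivial U := Module.nontrivial_of_finrank_pos (R := F) (by have := H.ha; omega)
  by_contra ha0
  obtain ⟨u₁, hu₁⟩ := not_forall.1 fun h1 => hg' (H.mem_of_zero hZ hg hx₀ h0 hx hx0 h1)
  obtain ⟨u₂, hu₂⟩ := not_forall.1 fun h1 => hg' (by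
    simpa using (Kron τ).inv_mem (H.mem_of_zero hZ (X.inv_mem hg) hx hx0 hx₀ h0 h1))
  have adj := H.pr_adj hg x₀ x
  have f1 : ∀ u, cR h (P₂.B x) (g (τ u x₀)) = pr P₂ h g x₀ x u := fun _ => rfl
  have f2 : ∀ u, cR h (P₂.B x₀) (g⁻¹ (τ u x)) = pr P₂ h g⁻¹ x x₀ u := fun _ => rfl
  rw [inv_inv] at hu₂
  generalize pr P₂ h g x₀ x = m, pr P₂ h g⁻¹ x x₀ = m' at *
  have r1 := exists_smul_of_not_inj H.ha' ha0 ha (u₁ := u₁) fun h1 => hu₁ (by simp [h1])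
  obtain ⟨b₀, hb0, hb₀⟩ : ∃ b₀, b₀ ≠ 0 ∧ m b₀ = 0 := by
    by_contra h1
    push Not at h1
    have h2 := LinearMap.surjective_of_injective (f := m)
      ((injective_iff_map_eq_zero m).2 fun a ha => by_contra fun h3 => h1 a h3 ha)
    refine ha0 (H.n₁ _ fun u => P₁.B_eq_zero_comm.1 ?_)
    obtain ⟨u, rfl⟩ := h2 u
    simp [adj, ha]
  have r2 := exists_smul_of_not_inj H.ha' hb0 hb₀ hu₁
  obtain ⟨l, hl⟩ := r1 (m (m' u₁))
  have hl0 : l ≠ 0 := by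
    rintro rfl
    obtain ⟨t, ht⟩ := r2 u₂
    exact hu₂ (by simp [← ht, ← hl])
  have hbb : P₁.B (m' u₁) (m' u₁) ≠ 0 := fun h1 => hu₁ (H.n₁ _ fun u => by
    obtain ⟨t, ht⟩ := r1 u
    simp [adj, ← ht, h1])
  have hlr : σ l = l := by
    have h1 := adj (m' u₁) (m (m' u₁))
    have h2 := H.h₁.conj (m (m' u₁)) (m (m' u₁))
    rw [← hl, P₁.B_smul_right] at h1
    rw [h1, map_mul, H.h₁.conj] at h2
    exact mul_right_cancel₀ hbb h2
  have m1 : ∀ u, m' (m (m' u)) = l • m' u := fun u => by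
    obtain ⟨t, ht⟩ := r1 u
    rw [← ht, map_smul, map_smul, ← hl, smul_comm]
  have m2 : ∀ u, m (m' (m u)) = l • m u := fun u => by
    obtain ⟨t, ht⟩ := r2 u
    rw [← ht, map_smul, map_smul, m1, map_smul, smul_comm]
  obtain ⟨δ, hδ0, hδ⟩ := H.hH.exists_trace_zero
  have hδ' := eq_neg_of_add_eq_zero_right hδ
  obtain ⟨s, hs, hs'⟩ : ∃ s : F, s + σ s = 0 ∧ δ * c₀ * l * s = 1 - c₀ :=
    ⟨(1 - c₀) / (δ * c₀ * l), by simp [hc, hlr, hδ', div_neg], by field_simp⟩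
  obtain ⟨t₁, ht₁, e1⟩ := H.exists_tv2 hg hx₀ hδ
  obtain ⟨t₂, ht₂, e2⟩ := H.exists_tv hx hs
  obtain ⟨t₃, ht₃, e3⟩ := H.exists_tv2 hg hx₀ (d := -(c₀ * δ)) (by simp [hc, hδ'])
  have hw := X.mul_mem (X.mul_mem ht₁ ht₂) ht₃
  have g0 : ∀ u, cR h (P₂.B x₀) (g⁻¹ (g (τ u x₀))) = 0 := fun u => by simp [inv_apply_apply, hx₀]
  have ew : ∀ v, cR h (P₂.B x) v = 0 → (t₁ * t₂ * t₃) v = v -
      τ ((s * c₀ * δ) • m (cR h (P₂.B x₀) (g⁻¹ v))) x + g (τ ((δ - c₀ * δ) •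
      cR h (P₂.B x₀) (g⁻¹ v) - (δ * s * c₀ * δ) • m' (m (cR h (P₂.B x₀) (g⁻¹ v)))) x₀) := by
    intro v hv
    simp only [LinearEquiv.mul_apply, e1, e2, e3, map_add, f1, f2, g0, hv, map_smul, map_sub,
      LinearMap.sub_apply, LinearMap.smul_apply, map_zero, LinearMap.zero_apply, smul_zero,
      LinearMap.add_apply]
    module
  generalize t₁ * t₂ * t₃ = w at hw ew
  have wa : ∀ u, w (τ u x) = τ (u - (s * c₀ * δ) • m (m' u)) x := fun u => by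
    rw [ew _ (by simp [hx]), f2, m1, smul_smul, ← sub_smul,
      show δ - c₀ * δ - δ * s * c₀ * δ * l = 0 by linear_combination -δ * hs']
    simp
  obtain ⟨x', c, b⟩ := exists_bas3 H.h₂ H.n₂ H.hb hx hx0
  obtain ⟨κ, hκ⟩ := kron_act h (H.mem_of_stab hZ hx hx0 hw fun u => ⟨_, wa u⟩) hx0 wa (P₂.B c) c
  obtain ⟨n, hn⟩ : ∃ n : U → U, ∀ u, n u = κ • (u - (s * c₀ * δ) • m (m' u)) := ⟨_, fun _ => rfl⟩
  have nn : ∀ u, n (n u - u) = n u - u := fun u => by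
    obtain ⟨y, hy⟩ : ∃ y, y = (δ - c₀ * δ) • cR h (P₂.B x₀) (g⁻¹ (τ u c)) -
      (δ * s * c₀ * δ) • m' (m (cR h (P₂.B x₀) (g⁻¹ (τ u c)))) := ⟨_, rfl⟩
    have h1 : cR h (P₂.B x) (g (τ y x₀)) = 0 := by
      rw [f1, hy, map_sub, map_smul, map_smul, m2, smul_smul, ← sub_smul,
        show δ - c₀ * δ - δ * s * c₀ * δ * l = 0 by linear_combination -δ * hs', zero_smul]
    have h2 : w (g (τ y x₀)) = g (τ y x₀) := by rw [ew _ h1, g0]; simp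
    have h3 := hκ u
    rw [ew _ (by simp [b.xc]), ← hy, ← hn] at h3
    obtain ⟨y', z, h4⟩ := b.dec h h1
    rw [h4] at h2 h3
    have h5 : z = n u - u := by
      rw [← h3]; simp [b.cx, b.cc]
    have h6 := congrArg (cR h (P₂.B c)) h2
    rw [map_add w, wa, map_add, hκ, ← hn] at h6
    simpa [b.cx, b.cc, h5] using h6
  have n1 : ∀ (u : U) (r : F), u ≠ 0 → (s * c₀ * δ) • m (m' u) = (1 - r) • u → κ * r = 1 := by
    intro u r hu h1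
    have h2 : ∀ t : F, n (t • u) = (t * (κ * r)) • u := fun t => by
      rw [hn, map_smul, map_smul, smul_comm (s * c₀ * δ), h1]; module
    have h3 := nn u
    rw [← one_smul F u, h2, ← sub_smul, h2] at h3
    have h4 := smul_left_injective F hu h3
    exact sub_eq_zero.1 (pow_eq_zero_iff two_ne_zero |>.1 (show (κ * r - 1) ^ 2 = 0 by
      linear_combination h4))
  have n2 := n1 a₀ 1 ha0 (by simp [ha])
  have n3 := n1 (m (m' u₁)) c₀ hu₁ (by rw [m2, smul_smul, ← hs']; ring_nf)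
  exact hc1 (by linear_combination n3 - c₀ * n2)

theorem exists_scalar {c₀ : F} (hc : σ c₀ = c₀) (hc0 : c₀ ≠ 0) (hc1 : c₀ ≠ 1) (hg' : g ∉ Kron τ) :
    ∃ ν : F, ν ≠ 0 ∧ ∀ u, pr P₂ h g x₀ x (pr P₂ h g⁻¹ x x₀ u) = ν • u := by
  have : Nontrivial U := Module.nontrivial_of_finrank_pos (R := F) (by have := H.ha; omega)
  suffices h1 : ∃ ν : F, ∀ u, pr P₂ h g x₀ x (pr P₂ h g⁻¹ x x₀ u) = ν • u by
    obtain ⟨ν, hν⟩ := h1
    exact ⟨ν, fun h2 => hg' (H.mem_of_zero hZ hg hx₀ h0 hx hx0 fun u => by simp [hν, h2]), hν⟩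
  by_contra hns
  have i1 := fun a => H.inj_of hZ hg hx₀ h0 hx hx0 hc hc0 hc1 hg' (a₀ := a)
  have i2 := fun a => H.inj_of hZ (X.inv_mem hg) hx hx0 hx₀ h0 hc hc0 hc1
    (fun h1 => hg' (by simpa using (Kron τ).inv_mem h1)) (a₀ := a)
  have adj := H.pr_adj hg x₀ x
  have adj' := H.pr_adj (X.inv_mem hg) x x₀
  have f1 : ∀ u, cR h (P₂.B x) (g (τ u x₀)) = pr P₂ h g x₀ x u := fun _ => rfl
  have f2 : ∀ u, cR h (P₂.B x₀) (g⁻¹ (τ u x)) = pr P₂ h g⁻¹ x x₀ u := fun _ => rfl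
  rw [inv_inv] at i2 adj'
  generalize pr P₂ h g x₀ x = m, pr P₂ h g⁻¹ x x₀ = m' at *
  obtain ⟨α, β, hα, hβ, e⟩ := exists_quad H.n₁ H.ha' (ψ := m ∘ₗ m') (fun u u' => by
    simp [adj, adj']) hns
  simp only [LinearMap.comp_apply] at e
  have hβ0 : β ≠ 0 := by
    rintro rfl
    exact hns ⟨α, fun u => sub_eq_zero.1 (i1 _ (i2 _ (by simp [e])))⟩
  obtain ⟨δ, hδ0, hδ⟩ := H.hH.exists_trace_zero
  have hδ' := eq_neg_of_add_eq_zero_right hδ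
  obtain ⟨d, s₁, hd, hs₁, hd0, hs0, e1⟩ : ∃ d s₁ : F, d + σ d = 0 ∧ s₁ + σ s₁ = 0 ∧ d ≠ 0 ∧ s₁ ≠ 0 ∧
      δ * s₁ * (d - δ) * β = α * d := by
    by_cases h1 : α = 0
    · exact ⟨δ, δ, hδ, hδ, hδ0, hδ0, by simp [h1]⟩
    · have := sub_ne_zero.2 hc1
      refine ⟨c₀ * δ, α * c₀ / (β * δ * (c₀ - 1)), by simp [hc, hδ'],
        by simp [hc, hα, hβ, hδ', div_neg], mul_ne_zero hc0 hδ0, by simp [*], by field_simp⟩
  obtain ⟨s₂, hs₂, e2⟩ : ∃ s₂ : F, s₂ + σ s₂ = 0 ∧ δ * δ * β * s₁ * s₂ = 1 :=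
    ⟨(δ * δ * β * s₁)⁻¹, by simp [hβ, hδ', eq_neg_of_add_eq_zero_right hs₁], by field_simp⟩
  obtain ⟨t₁, ht₁, a1⟩ := H.exists_tv2 hg hx₀ hδ
  obtain ⟨t₂, ht₂, a2⟩ := H.exists_tv hx hs₁
  obtain ⟨t₃, ht₃, a3⟩ := H.exists_tv2 hg hx₀ (d := -δ) (by simp [hδ'])
  obtain ⟨t₄, ht₄, a4⟩ := H.exists_tv hx hs₂
  obtain ⟨t₅, ht₅, a5⟩ := H.exists_tv2 hg hx₀ hd
  have hw := X.mul_mem (X.mul_mem (X.mul_mem (X.mul_mem ht₁ ht₂) ht₃) ht₄) ht₅
  have g0 : ∀ u, cR h (P₂.B x₀) (g⁻¹ (g (τ u x₀))) = 0 := fun u => by simp [inv_apply_apply, hx₀]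
  have g1 : ∀ u, cR h (P₂.B x) (τ u x) = 0 := fun u => by simp [hx]
  have wa : ∀ u, (t₁ * t₂ * t₃ * t₄ * t₅) (τ u x) =
      τ ((1 - s₁ * δ * s₂ * d * β) • u + (s₂ * d) • m (m' u)) x := fun u => by
    have e3 := congrArg (fun y => g (τ (m' y) x₀)) (e u)
    have e4 := congrArg (fun y => τ y x) (e u)
    simp only [LinearEquiv.mul_apply, a1, a2, a3, a4, a5, map_add, f1, f2, g0, g1, map_smul,
      LinearMap.add_apply, LinearMap.smul_apply, map_zero, LinearMap.zero_apply, smul_zero,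
      add_zero, zero_add] at e3 e4 ⊢
    have K : s₁ * (d - δ) - d * s₂ * δ * s₁ * α = 0 := by
      linear_combination δ * s₁ * s₂ * e1 - s₁ * (d - δ) * e2
    rw [e3, e4]
    linear_combination (norm := module) K • τ (m (m' u)) x + (δ * K) • g (τ (m' (m (m' u))) x₀)
      + (-d * e2) • g (τ (m' u) x₀)
  have wf : ∀ v, cR h (P₂.B x) v = 0 → cR h (P₂.B x₀) (g⁻¹ v) = 0 →
      (t₁ * t₂ * t₃ * t₄ * t₅) v = v := fun v h1 h2 => by
    simp [LinearEquiv.mul_apply, a1, a2, a3, a4, a5, h1, h2, -LinearEquiv.coe_inv]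
  generalize t₁ * t₂ * t₃ * t₄ * t₅ = w at hw wa wf
  obtain ⟨x', c, b⟩ := exists_bas3 H.h₂ H.n₂ H.hb hx hx0
  obtain ⟨κ, hκ⟩ := kron_act h (H.mem_of_stab hZ hx hx0 hw fun u => ⟨_, wa u⟩) hx0 wa (P₂.B c) c
  have h1 : ∀ u, κ • ((1 - s₁ * δ * s₂ * d * β) • u + (s₂ * d) • m (m' u)) = u := fun u => by
    obtain ⟨y, hy⟩ := LinearMap.surjective_of_injective (f := m')
      ((injective_iff_map_eq_zero m').2 i1) (cR h (P₂.B x₀) (g⁻¹ (τ u c)))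
    have h2 := wf (τ u c - τ y x) (by simp [b.xc, hx]) (by rw [map_sub, map_sub, f2, hy, sub_self])
    rw [map_sub, wa, sub_eq_iff_eq_add] at h2
    rw [← hκ, h2]
    simp [b.cx, b.cc]
  obtain ⟨u₀, hu₀⟩ := exists_ne (0 : U)
  have hκ0 : κ ≠ 0 := by rintro rfl; exact hu₀ (by simpa using (h1 u₀).symm)
  have hs2 : s₂ ≠ 0 := by rintro rfl; simp at e2
  refine hns ⟨(κ * (s₂ * d))⁻¹ * (1 - κ * (1 - s₁ * δ * s₂ * d * β)), fun u => ?_⟩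
  rw [mul_smul, eq_inv_smul_iff₀ (mul_ne_zero hκ0 (mul_ne_zero hs2 hd0))]
  linear_combination (norm := module) h1 u

omit hx hx0 in
theorem mem_of_zs {c₀ : F} (hc : σ c₀ = c₀) (hc0 : c₀ ≠ 0) (hc1 : c₀ ≠ 1) : g ∈ Kron τ := by
  by_contra hg'
  have sim : ∀ x, P₂.B x x = 0 → x ≠ 0 → ∃ ν : F, ν ≠ 0 ∧ ∀ u u',
      P₁.B (pr P₂ h g x₀ x u) (pr P₂ h g x₀ x u') = ν * P₁.B u u' := fun x hx hx0 => by
    obtain ⟨ν, h1, h2⟩ := H.exists_scalar hZ (X.inv_mem hg) hx hx0 hx₀ h0 hc hc0 hc1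
      fun h1 => hg' (by simpa using (Kron τ).inv_mem h1)
    rw [inv_inv] at h2
    exact ⟨ν, h1, fun u u' => by rw [H.pr_adj hg, h2, P₁.B_smul_right]⟩
  obtain ⟨x', c, b⟩ := exists_bas3 H.h₂ H.n₂ H.hb hx₀ h0
  obtain ⟨ν₀, hν₀, s₀⟩ := sim x₀ hx₀ h0
  obtain ⟨p, hp⟩ : ∃ p : U ≃ₗ[F] U, ∀ u, p u = pr P₂ h g x₀ x₀ u :=
    ⟨LinearEquiv.ofInjectiveEndo (pr P₂ h g x₀ x₀) fun u u' e => herm_ext H.n₁ fun y =>
      mul_left_cancel₀ hν₀ (by rw [← s₀, e, s₀]), fun _ => rfl⟩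
  obtain ⟨r, hr⟩ : ∃ r : U → U, ∀ u, r u = pr P₂ h g x₀ x' (p.symm u) := ⟨_, fun _ => rfl⟩
  obtain ⟨n, hn⟩ : ∃ n : U → U, ∀ u, n u = pr P₂ h g x₀ c (p.symm u) := ⟨_, fun _ => rfl⟩
  have e1 : ∀ u, g (τ (p.symm u) x₀) = τ (r u) x₀ + τ u x' + τ (n u) c := fun u => by
    rw [b.eq_tau h (g _), hr, hn, ← pr_apply, ← pr_apply, ← pr_apply, ← hp, p.apply_symm_apply]
  have sc : ∀ a e : F, e + σ e + σ a * a = 0 → ∃ ν : F, ∀ u u',
      P₁.B (r u + σ a • n u + σ e • u) (r u' + σ a • n u' + σ e • u') = ν * P₁.B u u' := by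
    intro a e he
    obtain ⟨ν, -, h1⟩ := sim (x' + a • c + e • x₀) (by
      simp only [P₂.B_add_left, P₂.B_add_right, P₂.B_smul_left, P₂.B_smul_right, b.xx, b.yy, b.xy,
        b.yx, b.cc, b.xc, b.cx, b.yc, b.cy]
      linear_combination he) (P₂.ne_zero_of_B_ne (b := x₀) (by simp [b.yx, b.cx, b.xx]))
    have h2 : ∀ u, pr P₂ h g x₀ (x' + a • c + e • x₀) (p.symm u) = r u + σ a • n u + σ e • u :=
      fun u => by simp [pr_apply, e1, b.xx, b.yy, b.xy, b.yx, b.cc, b.xc, b.cx, b.yc, b.cy]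
    refine ⟨ν / ν₀, fun u u' => ?_⟩
    have h3 := s₀ (p.symm u) (p.symm u')
    rw [← hp, ← hp, p.apply_symm_apply, p.apply_symm_apply] at h3
    rw [← h2, ← h2, h1, h3]; field_simp
  obtain ⟨v, v', hv⟩ := exists_B_ne H.n₁ H.ha 1
  simp only [LinearEquiv.coe_one, id_eq] at hv
  obtain ⟨δ, hδ0, hδ⟩ := H.hH.exists_trace_zero
  have hδ' := eq_neg_of_add_eq_zero_right hδ
  obtain ⟨ω, hω⟩ := H.hH.exists_ne_conj
  have key : ∀ (u u' : U) (a e : F), e + σ e + σ a * a = 0 →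
      P₁.B (r u + σ a • n u + σ e • u) (r u' + σ a • n u' + σ e • u') =
      P₁.B (r v + σ a • n v + σ e • v) (r v' + σ a • n v' + σ e • v') * P₁.B u u' :=
    fun u u' a e he => by
      obtain ⟨ν, hν⟩ := sc a e he
      rw [hν, hν, hv, mul_one]
  have pa : ∀ a : F, ∃ e, e + σ e + σ a * a = 0 := fun a => by
    obtain ⟨e, he⟩ := exists_param H.h₂ (a • c)
    exact ⟨-e, by simp only [map_neg]; simp [b.cc] at he; linear_combination -he⟩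
  simp only [P₁.B_add_left, P₁.B_add_right, P₁.B_smul_left, P₁.B_smul_right, P₁.σσ, hv] at key
  have n1 : ∀ (u u' : U) (a : F), a * (P₁.B (n u) u' - P₁.B (n v) v' * P₁.B u u') =
      σ a * (P₁.B u (n u') - P₁.B v (n v') * P₁.B u u') := fun u u' a => by
    obtain ⟨e, he⟩ := pa a
    have h1 := key u u' a e he
    have h2 := key u u' a (e + δ) (by rw [map_add]; linear_combination he + hδ)
    have h3 := key u u' 0 0 (by simp)
    have h4 := key u u' 0 δ (by simpa using hδ)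
    simp only [map_add, map_zero, hδ'] at h2 h3 h4
    exact mul_left_cancel₀ hδ0 (by linear_combination h1 - h2 - h3 + h4)
  obtain ⟨l, hl⟩ : ∃ l : F, ∀ u, n u = l • u := ⟨P₁.B v (n v'), fun u' => herm_ext H.n₁ fun u => by
    have h1 := n1 u u' 1
    have h2 := n1 u u' ω
    rw [map_one] at h1
    rw [P₁.B_smul_right]
    exact mul_left_cancel₀ (sub_ne_zero.2 hω) (by linear_combination ω * h1 - h2)⟩
  obtain ⟨k, hk⟩ : ∃ k : F, ∀ u, r u = k • u := ⟨P₁.B v (r v'), fun u' => herm_ext H.n₁ fun u => by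
    obtain ⟨e, he⟩ := pa 1
    obtain ⟨e', he'⟩ := pa c₀
    have h1 := key u u' 1 e he
    have h2 := key u u' c₀ e' he'
    have h3 := key u u' 0 0 (by simp)
    have h4 := key u u' 0 δ (by simpa using hδ)
    simp only [map_zero, map_one, hδ', hc, hl, P₁.B_smul_left, P₁.B_smul_right, hv]
      at he he' h1 h2 h3 h4
    rw [P₁.B_smul_right]
    have h7 : P₁.B (r u) u' - P₁.B (r v) v' * P₁.B u u' =
        P₁.B u (r u') - P₁.B v (r v') * P₁.B u u' :=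
      mul_left_cancel₀ hδ0 (by linear_combination h3 - h4)
    refine mul_left_cancel₀ (mul_ne_zero hc0 (sub_ne_zero.2 hc1)) ?_
    linear_combination c₀ * (h1 - h3 - (l + σ e) * h7 -
      (P₁.B u (r u') - P₁.B v (r v') * P₁.B u u') * he) - (h2 - h3 - (c₀ * l + σ e') * h7 -
      (P₁.B u (r u') - P₁.B v (r v') * P₁.B u u') * he')⟩
  have e2 : ∀ u, g (τ u x₀) = τ (p u) (k • x₀ + x' + l • c) := fun u => by
    simpa [hk, hl] using e1 (p u)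
  refine hg' (H.mem_of_map hZ h0 ?_ (P₂.ne_zero_of_B_ne (b := x₀) (by simp [b.yx, b.cx, b.xx])) hg
    fun u => ⟨_, e2 u⟩)
  have := (H.hX hg).B_eq (τ (p.symm v) x₀) (τ (p.symm v') x₀)
  rwa [e2, e2, H.eq, H.eq, p.apply_symm_apply, p.apply_symm_apply, hv, one_mul, hx₀,
    mul_zero] at this

end UT3

theorem UT3.tf_all {P₁ : PQ σ U} {P₂ : PQ σ W} {P : PQ σ V} {h : IsTensorProduct τ}
    {X : Subgroup (V ≃ₗ[F] V)} (H : UT3 P₁ P₂ P h X) [FiniteDimensional F U]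
    [FiniteDimensional F W] (hq : ∃ c : F, σ c = c ∧ c ≠ 0 ∧ c ≠ 1) (hX : ¬ X ≤ Kron τ)
    (v : V) (hv : P.B v v = 0) : TF P X v := by
  by_cases hZ : Zs P₂ h X
  · obtain ⟨c, hc, hc0, hc1⟩ := hq
    obtain ⟨x, hx0, hx⟩ := exists_iso H.h₂ (by have := H.hb; omega)
    exact absurd (fun g hg => H.mem_of_zs hZ hg hx hx0 hc hc0 hc1) hX
  simp only [Zs, not_forall] at hZ
  obtain ⟨x, hx, hx0, g, hg, hf, hns⟩ := hZ
  obtain ⟨y, hy0, hy, h1⟩ := H.exists_tf hq hx hx0 hg hf hns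
  exact H.tfOn_top hq (fun _ _ => H.tf_iso hy hy0 hx hx0 h1) v trivial hv

open Cfsg Cfsg.Geo CfsgLib.Unitary in
/-- The stabiliser of a tensor decomposition is maximal in `SU_n(q)`. -/
theorem isMaximalIn_su_tensor23 [Fintype F] {q : ℕ} (hF : Fintype.card F = q ^ 2) {n n₁ n₂ : ℕ}
    (h1 : n₁ = 2) (h4 : n₂ = 3) (hex : q ≠ 2)
    (e : Fin n ≃ Fin n₁ × Fin n₂) (P : GL (Fin n) F) {f₁ : (Fin n₁ → F) → (Fin n₁ → F) → F}
    {f₂ : (Fin n₂ → F) → (Fin n₂ → F) → F} (hf₁ : IsUnitaryFormPow q f₁)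
    (hf₂ : IsUnitaryFormPow q f₂)
    (hT : IsTensorFormStructure (fun x : F => x ^ q) (hermForm n F q) f₁ f₂ e P) :
    IsMaximalIn (GU n F q ⊓ specialLinear (Fin n) F)
      (tensorProductSubgroup n₁ n₂ e P ⊓ (GU n F q ⊓ specialLinear (Fin n) F)) := by
  have hH := uPQ_isHerm hF n
  have hP := uPQ_nondeg hF n
  have hn : n = n₁ * n₂ := by simpa using Fintype.card_congr e
  have ses : ∀ {m : ℕ} {f : (Fin m → F) → (Fin m → F) → F}, IsUnitaryFormPow q f →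
      Asch.IsSesq0 (conj hF) f := fun {m f} hf =>
    have h1 : ∀ v w, f v w = conj hF (f w v) := hf.herm
    ⟨hf.add_left, hf.smul_left, fun v x y => by rw [h1, hf.add_left, map_add, ← h1, ← h1],
      fun t v x => by rw [h1, hf.smul_left, map_mul, ← h1]⟩
  obtain ⟨c, hc0, hτ⟩ := NonMax.tau_form (ses hf₁) (ses hf₂) hT
  replace hτ : ∀ u w u' w', (uPQ hF n).B (tauOf e P u w) (tauOf e P u' w') =
      c * f₁ u' u * f₂ w' w := fun u w u' w' => hτ _ _ _ _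
  have hc : conj hF c = c := by
    obtain ⟨x, hx⟩ := (hf₁.nondegenerate (Pi.single ⟨0, by omega⟩ 1) (by simp)).1
    obtain ⟨y, hy⟩ := (hf₂.nondegenerate (Pi.single ⟨0, by omega⟩ 1) (by simp)).1
    have := hH.conj (tauOf e P x y) (tauOf e P (Pi.single ⟨0, by omega⟩ 1)
      (Pi.single ⟨0, by omega⟩ 1))
    rw [hτ, hτ, map_mul, map_mul, conj_apply hF (f₁ _ _), conj_apply hF (f₂ _ _), ← hf₁.herm,
      ← hf₂.herm] at this
    exact mul_right_cancel₀ hx (mul_right_cancel₀ hy this)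
  obtain ⟨P₁, a1, a2, a3⟩ := exists_pq_of_unitaryFormPow hF hf₁ hc0 hc
  obtain ⟨P₂, b1, b2, b3⟩ := exists_pq_of_unitaryFormPow hF hf₂ one_ne_zero (map_one _)
  have ht := isTensorProduct_tauOf e P
  refine isMaximalIn_su hF (by nlinarith) _ (· ∈ Kron (tauOf e P))
    (fun g _ => by rw [tensorProductSubgroup_eq]; rfl) ?_ fun X hX hM g hg hgs =>
      UT3.tf_all (h := ht) ⟨a1, a2, b1, b2, hH, hP, fun u w u' w' => by rw [hτ, a3, b3, one_mul],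
        by simpa, by simpa, hX, fun g h1 h2 => hM g h2 h1⟩ (exists_fixed_ne_zero_one hF hex)
        fun h => hgs (h hg)
  · obtain ⟨x, hx0, hx⟩ := exists_iso hH (by simp; nlinarith)
    obtain ⟨δ, hδ0, hδ⟩ := hH.exists_trace_zero
    obtain ⟨t, ht', e1⟩ := exists_tv_SUV hH hx hδ
    exact ⟨t, ht', not_mem_Kron_of_tv ht (by simp; omega) (by simp; omega) (φ := δ • (uPQ hF n).B x)
      (smul_ne_zero hδ0 fun h0 => hx0 (hP x fun y => by simp [h0])) hx0 e1⟩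

end CfsgLib.SUMax
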