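import Mathlib
import Cfsg.Agent.Lib.SUMax.SubMat

/-! Subfield subgroups of unitary type are maximal in `SU₄(q)`. -/

set_option autoImplicit false

namespace CfsgLib.SUMax

open CfsgLib.Forms CfsgLib.ClMax CfsgLib.RootMax CfsgLib.Unitary Module Matrix

variable {F : Type*} [Field F] {σ : F →+* F} {V : Type*} [AddCommGroup V] [Module F V]
  {K : Type*} [Field K] [Algebra K F] {σ₀ : K →+* K} {V₀ : Type*} [AddCommGroup V₀] [Module K V₀]

/-- A four-dimensional space all of whose planes contain isotropic vectors. -/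
def Iso2 (P₀ : PQ σ₀ V₀) : Prop := finrank K V₀ = 4 ∧
  ∀ Z : Submodule K V₀, 2 ≤ finrank K Z → ∃ x ∈ Z, x ≠ 0 ∧ P₀.B x x = 0

namespace URat

variable {P : PQ σ V} {P₀ : PQ σ₀ V₀} {j : V₀ →ₛₗ[algebraMap K F] V} {M : Subgroup (V ≃ₗ[F] V)}
  (h : URat P P₀ j M) [FiniteDimensional K V₀]
include h

theorem exists_iso_orth4 (hd : Iso2 P₀) {k : ℕ} (y : Fin k → V₀) (hk : k ≤ 2) :
    ∃ x, x ≠ 0 ∧ P₀.B x x = 0 ∧ ∀ i, P₀.B (y i) x = 0 := by
  have h1 := P₀.finrank_perp h.hP₀ (Submodule.span K (Set.range y))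
  have h2 : finrank K (Submodule.span K (Set.range y)) ≤ k := by
    simpa [Set.finrank] using finrank_range_le_card (R := K) y
  obtain ⟨x, hx, h3, h4⟩ := hd.2 (P₀.perp (Submodule.span K (Set.range y)))
    (by have := hd.1; omega)
  exact ⟨x, h3, h4, fun i => hx _ (Submodule.subset_span ⟨i, rfl⟩)⟩

theorem pow_mem (hd : Iso2 P₀) {k : V ≃ₗ[F] V} (hk : k ∈ SLV F V) {c : F}
    (hc : ∀ v, ∃ w, k (j v) = c • j w) : c ^ 4 ∈ (algebraMap K F).fieldRange := by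
  let b := Module.finBasis K V₀
  have hv : ∀ v, j v = ∑ i, algebraMap K F (b.repr v i) • j (b i) := fun v => by
    conv_lhs => rw [← b.sum_repr v]
    simp only [map_sum, map_smulₛₗ]
  let e := Basis.mk (h.linearIndependent b.linearIndependent) (by
    rw [← h.span, Submodule.span_le]
    rintro _ ⟨v, rfl⟩
    rw [hv]
    exact Submodule.sum_mem _ fun i _ => Submodule.smul_mem _ _ (Submodule.subset_span ⟨i, rfl⟩))
  have he : ∀ i, j (b i) = e i := fun i => by simp [e]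
  choose w hw using hc
  have h1 : LinearMap.toMatrix e e (k : V →ₗ[F] V) =
      c • (algebraMap K F).mapMatrix (Matrix.of fun i l => b.repr (w (b l)) i) := by
    ext i l
    rw [LinearMap.toMatrix_apply, ← he, LinearEquiv.coe_coe, hw, hv]
    simp [he, Finsupp.single_apply, Algebra.smul_def]
  have h2 := LinearMap.det_toMatrix e (k : V →ₗ[F] V)
  rw [h1, mem_SLV.1 hk, Matrix.det_smul, ← RingHom.map_det, Fintype.card_fin] at h2
  rw [← hd.1]
  exact ⟨(Matrix.of fun i l => b.repr (w (b l)) i).det⁻¹, by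
    rw [map_inv₀]; exact (eq_inv_of_mul_eq_one_left h2).symm⟩

theorem exists_pair4 (hd : Iso2 P₀) {x : V₀} (hx : P₀.B x x = 0) :
    ∃ e f, P₀.B e e = 0 ∧ P₀.B f f = 0 ∧ P₀.B e f = 1 ∧ P₀.B f e = 1 ∧ P₀.B x e = 0 ∧
      P₀.B x f = 0 := by
  obtain ⟨e, he, hxe, hne⟩ : ∃ e, P₀.B e e = 0 ∧ P₀.B x e = 0 ∧ e ∉ Submodule.span K {x} := by
    by_cases hx0 : x = 0
    · obtain ⟨e, h1, h2, -⟩ := h.exists_iso_orth4 hd ![] (by omega)
      exact ⟨e, h2, by simp [hx0], by simpa [hx0] using h1⟩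
    obtain ⟨y, -, -, hy⟩ := h.exists_partner' hx hx0
    obtain ⟨e, h1, h2, h3⟩ := h.exists_iso_orth4 hd ![x, y] (by omega)
    refine ⟨e, h2, h3 0, fun hh => h1 ?_⟩
    obtain ⟨t, rfl⟩ := Submodule.mem_span_singleton.1 hh
    have : t = 0 := by simpa [hy] using h3 1
    simp [this]
  obtain ⟨f, h1, h2, h3, h4⟩ := h.exists_partner he _ hne (fun w hw => by
    obtain ⟨t, rfl⟩ := Submodule.mem_span_singleton.1 hw
    simp [P₀.B_eq_zero_comm.1 hxe])
  exact ⟨e, f, he, h1, h2, h3, hxe,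
    P₀.B_eq_zero_comm.1 (h4 x (Submodule.mem_span_singleton_self x))⟩

theorem induct_iso4 (hd : Iso2 P₀) {x : V₀} (hx : P₀.B x x = 0) (Q : V₀ → Prop)
    (hadd : ∀ a b, P₀.B x a = 0 → P₀.B x b = 0 → Q a → Q b → Q (a + b))
    (hiso : ∀ a, P₀.B x a = 0 → P₀.B a a = 0 → Q a) (b : V₀) (hb : P₀.B x b = 0) : Q b := by
  obtain ⟨e, f, he, hf, hef, hfe, hxe, hxf⟩ := h.exists_pair4 hd hx
  have key : ∀ b, P₀.B x b = 0 → P₀.B b e ≠ 0 → Q b := by
    intro b hb hbe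
    obtain ⟨t, ht⟩ := h.iso_sub he hbe
    simpa using hadd _ _ (by simp [hb, hxe]) (by simp [hxe]) (hiso _ (by simp [hb, hxe]) ht)
      (hiso (t • e) (by simp [hxe]) (by rw [P₀.B_smul_left, P₀.B_smul_right, he]; simp))
  by_cases hbe : P₀.B b e = 0
  · simpa using hadd _ _ (by simp [hb, hxf]) (by simp [hxf])
      (key (b + f) (by simp [hb, hxf]) (by simp [hbe, hfe]))
      (hiso (-f) (by simp [hxf]) (by simp [hf]))
  · exact key b hb hbe

theorem move4 (hd : Iso2 P₀) {x y : V₀} (hx0 : x ≠ 0) (hx : P₀.B x x = 0) (hy0 : y ≠ 0)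
    (hy : P₀.B y y = 0) : ∃ g ∈ M, ∃ t : K, t ≠ 0 ∧ g (j x) = j (t • y) := by
  have key : ∀ x y : V₀, x ≠ 0 → P₀.B x x = 0 → y ≠ 0 → P₀.B y y = 0 → P₀.B x y = 0 →
      ∃ g ∈ M, ∃ t : K, t ≠ 0 ∧ g (j x) = j (t • y) := by
    intro x y hx0 hx hy0 hy hxy
    obtain ⟨u, hux, huy, -⟩ := P₀.exists_not_orth_two h.hP₀ ⊥ (u := x) (u' := y)
      (by simpa using hx0) (by simpa using hy0)
    obtain ⟨s, hs⟩ := h.iso_sub hx hux
    have h1 : P₀.B (u - s • x) x = P₀.B u x := by rw [P₀.B_sub_left, P₀.B_smul_left, hx]; simp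
    have h2 : P₀.B (u - s • x) y = P₀.B u y := by rw [P₀.B_sub_left, P₀.B_smul_left, hxy]; simp
    obtain ⟨g, hg, e⟩ := h.move hs hx (y := (P₀.B u x / P₀.B u y) • y)
      (by rw [P₀.B_smul_left, P₀.B_smul_right, hy]; simp) (by rwa [h1])
      (by rw [P₀.B_smul_right, h1, h2, div_mul_cancel₀ _ huy])
    exact ⟨g, hg, _, div_ne_zero hux huy, e⟩
  obtain ⟨z, hz0, hz, hz1⟩ := h.exists_iso_orth4 hd ![x, y] (by omega)
  obtain ⟨g, hg, t, ht, e⟩ := key x z hx0 hx hz0 hz (hz1 0)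
  obtain ⟨g', hg', t', ht', e'⟩ := key z y hz0 hz hy0 hy (P₀.B_eq_zero_comm.1 (hz1 1))
  refine ⟨g' * g, M.mul_mem hg' hg, t * t', mul_ne_zero ht ht', ?_⟩
  rw [LinearEquiv.mul_apply, e, map_smulₛₗ, map_smul, e', ← map_smulₛₗ, smul_smul]

theorem mul_mem_dirs4 (hd : Iso2 P₀) {z : V₀} (hz0 : z ≠ 0) (hz : P₀.B z z = 0) {d : F}
    (hT : Tv P M (j z) d) {α : F} (hα : α ∈ h.dirs) : d * α ∈ h.dirs := by
  intro x y hx hy hxy
  by_cases h1 : y ∈ Submodule.span K {x}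
  · obtain ⟨t, rfl⟩ := Submodule.mem_span_singleton.1 h1
    refine ⟨σ (d * α * algebraMap K F t) - d * α * algebraMap K F t, ?_⟩
    rw [map_smulₛₗ, smul_smul, ← zero_add (_ • j x), rt_shift h.hH]
    simpa using (tv_iff_rt (P := P) (X := M)).1 (tv_zero _)
  obtain ⟨f, hf, hyf, -, hfx⟩ := h.exists_partner hy _ h1 (fun w hw => by
    obtain ⟨t, rfl⟩ := Submodule.mem_span_singleton.1 hw
    simp [P₀.B_eq_zero_comm.1 hxy])
  have hxf := P₀.B_eq_zero_comm.1 (hfx x (Submodule.mem_span_singleton_self x))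
  obtain ⟨g, hg, t, ht, e⟩ := h.move4 hd hz0 hz (y := y) (by rintro rfl; simp at h1) hy
  obtain ⟨k, hk, ek⟩ := hT.conj hg (h.hM hg)
  have ht' : σ₀ t ≠ 0 := by simpa using ht
  obtain ⟨c, hc⟩ := h.dirs.smul_mem (σ₀ t * t)⁻¹ hα x f hx hf hxf
  have h2 := hc.conj hk (h.hM hk)
  rw [map_smul, ek, ek, e, h.hj, h.hj, P₀.B_smul_left, P₀.B_smul_left, P₀.B_eq_zero_comm.1 hxy, hyf]
    at h2
  simp only [mul_zero, map_zero, zero_smul, add_zero, mul_one] at h2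
  have h3 := rt_sub h.hH h2 hc (h.orth hx) (by simp [h.orth hxf, h.orth hxy, map_smulₛₗ])
    (by simp [h.orth hxf])
  rw [show ((σ₀ t * t)⁻¹ • α) • (j f + (d * algebraMap K F (σ₀ t)) • j (t • y)) -
      ((σ₀ t * t)⁻¹ • α) • j f = (d * α) • j y by
    have h4 : algebraMap K F t ≠ 0 := by simpa using ht
    have h5 : algebraMap K F (σ₀ t) ≠ 0 := by simpa using ht
    rw [map_smulₛₗ, Algebra.smul_def, map_inv₀, map_mul]
    match_scalars
    · ring
    · field_simp] at h3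
  exact ⟨_, h3⟩

theorem allFull_of_dirs4 [FiniteDimensional F V] (hd : Iso2 P₀) (hS : h.dirs = ⊤) :
    AllFull P M := by
  have hS' : ∀ (α : F) x y, P₀.B x x = 0 → P₀.B y y = 0 → P₀.B x y = 0 →
      ∃ c, Rt P M (j x) (α • j y) c := fun α => (hS ▸ Submodule.mem_top : α ∈ h.dirs)
  have key : ∀ x, x ≠ 0 → P₀.B x x = 0 → Full P M (j x) := by
    intro x hx0 hx
    have hs := (h.hH.sing_iff _).2 (h.orth hx)
    obtain ⟨e, f, he, hf, hef, -, hxe, hxf⟩ := h.exists_pair4 hd hx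
    have hT : TF P M (j x) := tf_of_rt h.hH (h.orth hx) (h.orth hxe) (h.orth hxf)
      (by simp [h.hj, hef]) (h.rt_zero hx hxe he) fun t => hS' t x f hx hf hxf
    have h1 : ∀ b, P₀.B x b = 0 → ∀ t : F, InA P M (j x) (t • j b) := by
      refine h.induct_iso4 hd hx _ (fun a b _ _ ha hb t => ?_) fun a hxa ha t => ?_
      · rw [map_add, smul_add]; exact (ha t).add hs (hb t)
      · obtain ⟨c, hc⟩ := hS' t x a hx ha hxa
        have h2 : P.B (j x) (t • j a) = 0 := by simp [h.orth hxa]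
        exact hT.inA h.hH (h.orth hx) h2
          (param_of_rt h.hH h.hP h.hM (h.ne_zero hx0) (h.orth hx) h2 hc) hc
    obtain ⟨y, -, hxy, -⟩ := h.exists_partner' hx hx0
    have h2 : ∀ a, ∀ t : F, InA P M (j x) (t • (a - P.B (j x) a • j y)) := by
      intro a
      have hu : a ∈ Submodule.span F (Set.range j) := h.span ▸ Submodule.mem_top
      induction hu using Submodule.span_induction with
      | mem _ hu =>
        obtain ⟨b, rfl⟩ := hu
        rw [h.hj, ← map_smulₛₗ, ← map_sub]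
        exact h1 _ (by simp [hxy])
      | zero => intro t; simpa using h1 0 (by simp) t
      | add a b _ _ ha hb =>
        intro t
        convert (ha t).add hs (hb t) using 1
        rw [map_add]; module
      | smul c a _ ha =>
        intro t
        convert ha (t * c) using 1
        rw [P.B_smul_right]; module
    intro a ha
    simpa [ha] using h2 a 1
  obtain ⟨e, f, he, hf, hef, hfe, -⟩ := h.exists_pair4 hd (x := 0) (by simp)
  exact allFull_of_two h.hP h.hM ((h.hH.sing_iff _).2 (h.orth he)) ((h.hH.sing_iff _).2 (h.orth hf))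
    (key e (P₀.ne_zero_of_B_ne (b := f) (by simp [hef])) he)
    (key f (P₀.ne_zero_of_B_ne (b := e) (by simp [hfe])) hf) (by simp [h.hj, hef])

theorem allFull_of_not_noIrr4 [FiniteDimensional F V] (hd : Iso2 P₀)
    (hp : (finrank K F).Prime) (hT : ¬ NoIrr P P₀ j M) : AllFull P M := by
  unfold NoIrr at hT
  push Not at hT
  obtain ⟨z, hz0, hz, d, hT, hdK⟩ := hT
  let A : Subalgebra K F :=
    { carrier := {β | ∀ α ∈ h.dirs, β * α ∈ h.dirs}
      mul_mem' := fun ha hb α hα => by rw [mul_assoc]; exact ha _ (hb _ hα)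
      add_mem' := fun ha hb α hα => by rw [add_mul]; exact h.dirs.add_mem (ha _ hα) (hb _ hα)
      algebraMap_mem' := fun k α hα => by rw [← Algebra.smul_def]; exact h.dirs.smul_mem k hα }
  have hs := Subalgebra.isSimpleOrder_of_finrank_prime K F hp
  rcases hs.eq_bot_or_eq_top A with hA | hA
  · have : d ∈ A := fun α hα => h.mul_mem_dirs4 hd hz0 hz hT hα
    rw [hA, Algebra.mem_bot] at this
    exact absurd this hdK
  refine h.allFull_of_dirs4 hd (eq_top_iff.2 fun β _ => ?_)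
  have : β ∈ A := hA ▸ Algebra.mem_top
  simpa using this 1 fun x y hx hy hxy => ⟨0, by simpa using h.rt_zero hx hxy hy⟩

theorem rat_of_point4 (hd : Iso2 P₀) (hT : NoIrr P P₀ j M) {g : V ≃ₗ[F] V} (hg : g ∈ M)
    {c : F} (hc : σ c * c ∈ (algebraMap K F).fieldRange) {x : V₀} (hx0 : x ≠ 0)
    (hx : P₀.B x x = 0) (hgx : ∃ w, g (j x) = c • j w) (v : V₀) : ∃ w, g (j v) = c • j w := by
  have hc0 : c ≠ 0 := by
    rintro rfl
    obtain ⟨w, hw⟩ := hgx
    exact h.ne_zero hx0 (by simpa using hw)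
  have hc1 : σ c ≠ 0 := by simpa using hc0
  obtain ⟨ν, hν⟩ := hc
  have key : ∀ x, x ≠ 0 → P₀.B x x = 0 → (∃ w, g (j x) = c • j w) → ∀ a, P₀.B x a = 0 →
      P₀.B a a = 0 → ∃ w, g (j a) = c • j w := by
    rintro x hx0 hx ⟨y, hy⟩ a hxa ha
    have hy0 : y ≠ 0 := by rintro rfl; exact h.ne_zero hx0 (by simpa using hy)
    have h1 := (h.hM hg).B_eq (j x) (j x)
    rw [hy, h.orth hx, P.B_smul_left, P.B_smul_right] at h1
    have h2 := (h.hM hg).B_eq (j x) (j a)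
    rw [hy, h.orth hxa, P.B_smul_left] at h2
    obtain ⟨w, hw⟩ := h.rat_of_rt hT hy0 (h.orth_iff.1 (by simpa [hc0] using h1))
      (a := σ c • g (j a)) (by rwa [P.B_smul_right]) (by
        rw [P.B_smul_left, P.B_smul_right, (h.hM hg).B_eq, h.orth ha]; simp) fun l => by
        have := (h.rt_zero hx (a := l • a) (by simp [hxa])
          (by rw [P₀.B_smul_left, P₀.B_smul_right, ha]; simp)).conj hg (h.hM hg)
        rwa [hy, rt_smul h.hH, mul_zero, map_smulₛₗ, map_smul, smul_comm] at this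
    refine ⟨ν⁻¹ • w, ?_⟩
    rw [map_smulₛₗ, ← hw, map_inv₀, hν]
    match_scalars
    field_simp
  refine h.induct_iso4 hd (x := 0) (by simp) (fun v => ∃ w, g (j v) = c • j w) ?_ ?_ v (by simp)
  · rintro a b - - ⟨w, hw⟩ ⟨w', hw'⟩
    exact ⟨w + w', by rw [map_add, map_add, hw, hw', map_add, smul_add]⟩
  · intro a _ ha
    obtain ⟨z, hz0, hz, hz1⟩ := h.exists_iso_orth4 hd ![x, a] (by omega)
    exact key z hz0 hz (key x hx0 hx hgx z (hz1 0) hz) a (P₀.B_eq_zero_comm.1 (hz1 1)) ha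

theorem rat_of_fix4 (hd : Iso2 P₀) (hT : NoIrr P P₀ j M) {g : V ≃ₗ[F] V} (hg : g ∈ M)
    {x : V₀} (hx0 : x ≠ 0) (hx : P₀.B x x = 0) (hgx : g (j x) = j x) (v : V₀) :
    ∃ w, g (j v) = j w := by
  simpa using h.rat_of_point4 hd hT hg (c := 1) (by simp) hx0 hx ⟨x, by simpa using hgx⟩ v

theorem exists_irr4 (hd : Iso2 P₀) (hK : (algebraMap K F).fieldRange ≠ ⊤)
    [FiniteDimensional F V] :
    ∃ g ∈ SUV P, ¬ ∃ c : F, c ≠ 0 ∧ ∀ v, ∃ w, g (j v) = c • j w := by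
  obtain ⟨d, hd0, hdK⟩ : ∃ d : F, d + σ d = 0 ∧ d ∉ (algebraMap K F).fieldRange := by
    by_contra hcon
    push Not at hcon
    exact hK (eq_top_iff.2 fun β _ => h.hβ β fun l => hcon _ (by rw [map_sub, P.σσ]; ring))
  obtain ⟨e, f, he, hf, hef, hfe, -⟩ := h.exists_pair4 hd (x := 0) (by simp)
  obtain ⟨g, hg, eg⟩ := exists_tv_SUV h.hH (h.orth he) hd0
  refine ⟨g, hg, ?_⟩
  rintro ⟨c, hc, hgc⟩
  obtain ⟨w, hw⟩ := hgc f
  have h1 := congrArg (P.B (j f)) hw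
  have h2 := congrArg (P.B (j e)) hw
  simp only [eg, P.B_add_right, P.B_smul_right, h.hj, he, hf, hef, hfe, map_zero, map_one] at h1 h2
  have h3 : algebraMap K F (P₀.B e w) ≠ 0 := by intro h0; simp [h0] at h2
  refine hdK ⟨P₀.B f w / P₀.B e w, ?_⟩
  rw [map_div₀, div_eq_iff h3]
  linear_combination (-algebraMap K F (P₀.B e w)) * h1 + algebraMap K F (P₀.B f w) * h2

theorem point_of_orth4 (hd : Iso2 P₀) (hT : NoIrr P P₀ j M) {z : V} (hz0 : z ≠ 0) {d : F}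
    (hd0 : d ≠ 0) (hz : Tv P M z d) {x : V₀} (hx0 : x ≠ 0) (hx : P₀.B x x = 0)
    (hxz : P.B (j x) z = 0) : ∃ (c : F) (w : V₀), z = c • j w := by
  obtain ⟨g, hg, e⟩ := hz
  exact h.point_of_rat hz0 hd0 e (h.rat_of_fix4 hd hT hg hx0 hx
    (by rw [e, P.B_eq_zero_comm.1 hxz]; simp))

theorem point_odd4 [Finite F] (hd : Iso2 P₀) (hodd : Odd (finrank K F))
    (hT : NoIrr P P₀ j M) (h2 : (2 : F) ≠ 0) {δ : K} (hδ0 : δ ≠ 0) (hδ : δ + σ₀ δ = 0) {z : V}
    (hz0 : z ≠ 0) (hzz : P.B z z = 0) (hz : Tv P M z (algebraMap K F δ)) :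
    ∃ (c : F) (w : V₀), z = c • j w := by
  have hδ' : algebraMap K F δ ≠ 0 := by simpa using hδ0
  have hδK : algebraMap K F δ ∈ (algebraMap K F).fieldRange := ⟨δ, rfl⟩
  have hσδ : σ (algebraMap K F δ) = -algebraMap K F δ := by
    rw [h.hσ, ← map_neg]; congr 1; linear_combination hδ
  have h1 : ∀ x, P₀.B x x = 0 → σ (P.B (j x) z) * P.B (j x) z ∈ (algebraMap K F).fieldRange := by
    intro x hx
    by_cases hxz : P.B (j x) z = 0
    · simp [hxz]
    have hx0 : x ≠ 0 := by rintro rfl; simp at hxz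
    have h3 : algebraMap K F δ ^ 2 * (σ (P.B (j x) z) * P.B (j x) z) ∈
        (algebraMap K F).fieldRange := by
      rcases dickson_tv h.hH h2 (h.orth hx) hzz hxz hδ' (h.tv hx hδ) hz with h3 | h3
      · have := Subfield.div_mem _ (hT x hx0 hx _ h3) hδK
        rwa [mul_div_cancel_left₀ _ hδ'] at this
      · exact mem_range_of_sq_odd hodd (h3 ▸ Subfield.neg_mem _ (Subfield.one_mem _))
    have := Subfield.div_mem _ h3 (Subfield.pow_mem _ hδK 2)
    rwa [mul_div_cancel_left₀ _ (pow_ne_zero 2 hδ')] at this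
  obtain ⟨u, hu0, hu, -⟩ := h.exists_iso_orth4 hd ![] (by omega)
  by_cases huz : P.B (j u) z = 0
  · exact h.point_of_orth4 hd hT hz0 hδ' hz hu0 hu huz
  obtain ⟨e, f, he, -, hef, -, hue, huf⟩ := h.exists_pair4 hd hu
  have h3 : algebraMap K F δ * (σ (P.B (j u) z) * P.B (j e) z) ∈ (algebraMap K F).fieldRange := by
    refine h.hβ _ fun l => ?_
    have h4 := h1 (l • u + e) (by
      simp only [P₀.B_add_left, P₀.B_add_right, P₀.B_smul_left, P₀.B_smul_right, hu, he, hue,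
        P₀.B_eq_zero_comm.1 hue]; simp)
    rw [map_add, map_smulₛₗ, P.B_add_left, P.B_smul_left] at h4
    have hl : algebraMap K F l ∈ (algebraMap K F).fieldRange := ⟨l, rfl⟩
    convert Subfield.mul_mem _ hδK (Subfield.sub_mem _ (Subfield.sub_mem _ h4 (h1 e he))
      (Subfield.mul_mem _ (Subfield.mul_mem _ hl (h.σ_mem hl)) (h1 u hu))) using 1
    simp only [map_mul, map_add, P.σσ, hσδ]
    ring
  have huz' : σ (P.B (j u) z) ≠ 0 := by simpa using huz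
  obtain ⟨μ, hμ⟩ := Subfield.div_mem _ h3 (Subfield.mul_mem _ hδK (h1 u hu))
  refine h.point_of_orth4 hd hT hz0 hδ' hz (x := e - σ₀ μ • u) (fun h0 => ?_) ?_ ?_
  · have := congrArg (fun v => P₀.B v f) h0
    simp only [P₀.B_sub_left, P₀.B_smul_left, hef, huf] at this
    simp at this
  · simp only [P₀.B_sub_left, P₀.B_sub_right, P₀.B_smul_left, P₀.B_smul_right, hu, he, hue,
      P₀.B_eq_zero_comm.1 hue]; simp
  · rw [map_sub, map_smulₛₗ, P.B_sub_left, P.B_smul_left, h.hσ, P₀.σσ, hμ]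
    field_simp
    ring

theorem point_two4 [Finite F] [FiniteDimensional F V] (hd : Iso2 P₀) (hS : M ≤ SLV F V)
    (hodd : Odd (finrank K F))
    (hT : NoIrr P P₀ j M) (h2 : (2 : F) = 0) {z : V}
    (hz0 : z ≠ 0) (hzz : P.B z z = 0) (hz : Tv P M z 1) : ∃ (c : F) (w : V₀), z = c • j w := by
  by_contra hcon
  have hne : ∀ x, x ≠ 0 → P₀.B x x = 0 → P.B (j x) z ≠ 0 := fun x hx0 hx hxz =>
    hcon (h.point_of_orth4 hd hT hz0 one_ne_zero hz hx0 hx hxz)
  have h2K : (1 : K) + σ₀ 1 = 0 := (algebraMap K F).injective (by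
    rw [map_one, map_add, map_one, map_zero, one_add_one_eq_two, h2])
  have htv : ∀ x, P₀.B x x = 0 → Tv P M (j x) 1 := fun x hx => by simpa using h.tv hx h2K
  obtain ⟨u, hu0, hu, -⟩ := h.exists_iso_orth4 hd ![] (by omega)
  obtain ⟨e, f, he, -, hef, hfe, hue, huf⟩ := h.exists_pair4 hd hu
  have he0 : e ≠ 0 := P₀.ne_zero_of_B_ne (b := f) (by simp [hef])
  obtain ⟨y₁, hy₁, ⟨j₁, hj₁, e₁⟩, c₁, hc₁, h₁⟩ :=
    dihedral_tv h.hP h.hM h2 (h.orth hu) hzz (hne u hu0 hu) (htv u hu) hz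
  obtain ⟨y₂, hy₂, ⟨j₂, hj₂, e₂⟩, c₂, hc₂, h₂⟩ :=
    dihedral_tv h.hP h.hM h2 (h.orth he) hzz (hne e he0 he) (htv e he) hz
  simp only [one_mul] at e₁ e₂
  have hc₁0 : c₁ ≠ 0 := by rintro rfl; simp at hc₁
  have hc₂0 : c₂ ≠ 0 := by rintro rfl; simp at hc₂
  have hσc₁ : σ c₁ ≠ 0 := by simpa using hc₁0
  rw [← e₁] at h₁
  rw [← e₂] at h₂
  have hk : j₁⁻¹ * j₂ ∈ M := M.mul_mem (M.inv_mem hj₁) hj₂
  set k := j₁⁻¹ * j₂ with hkd
  have hkj : ∀ v, j₁ (k v) = j₂ v := fun v => by rw [hkd, LinearEquiv.mul_apply, apply_inv_apply]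
  have hU : ∀ v, k v - v ∈ Submodule.span F {y₁, y₂} := fun v => by
    have := hkj v
    rw [e₁, e₂] at this
    refine Submodule.mem_span_pair.2 ⟨-P.B y₁ (k v), P.B y₂ v, ?_⟩
    linear_combination (norm := module) -this
  have hrat := h.rat_of_point4 hd hT hk (c := c₂ / c₁) (by
    rw [map_div₀, div_mul_div_comm, hc₁, hc₂]; simp) he0 he ⟨u, j₁.injective (by
      rw [hkj, h₂, map_smul, h₁, smul_smul, div_mul_cancel₀ _ hc₁0])⟩
  obtain ⟨m, hm⟩ : c₂ / c₁ ∈ (algebraMap K F).fieldRange := by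
    have : FiniteDimensional K F := Module.Finite.of_finite
    exact mem_range_of_sq_odd hodd (mem_range_of_sq_odd hodd
      (by rw [← pow_mul]; exact h.pow_mem hd (hS hk) hrat))
  let W : Submodule K V₀ := (Submodule.span F {y₁, y₂}).comap j
  have hW := (h.finrank_le W _ fun a ha => ha).trans (RootMax.finrank_span_pair_le y₁ y₂)
  obtain ⟨x, hx, hx0, hxx⟩ := hd.2 (P₀.perp W)
    (by have := P₀.finrank_perp h.hP₀ W; have := hd.1; omega)
  have hkx : k (j x) = j x := by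
    have h3 : k⁻¹ (j x) = j x := by
      refine sub_eq_zero.1 (h.eq_zero fun v => ?_)
      obtain ⟨w, hw⟩ := hrat v
      rw [← hm, ← map_smulₛₗ] at hw
      have h4 : m • w - v ∈ W := by
        change j _ ∈ Submodule.span F {y₁, y₂}
        rw [map_sub, ← hw]; exact hU _
      have h5 := h.orth (hx _ h4)
      rw [P.B_sub_right, ← (h.hM hk).B_eq, apply_inv_apply, hw, ← P.B_sub_left, ← map_sub, h5]
    conv_lhs => rw [← h3, apply_inv_apply]
  have h3 := hkj (j x)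
  rw [hkx, e₁, e₂, add_right_inj] at h3
  by_cases h4 : P.B y₁ (j x) = 0
  · obtain ⟨w, hw⟩ := h.rat_of_fix4 hd hT hj₁ hx0 hxx (by rw [e₁, h4]; simp) u
    exact hcon ⟨c₁⁻¹, w, by rw [← hw, h₁, smul_smul, inv_mul_cancel₀ hc₁0, one_smul]⟩
  obtain ⟨μ, hy⟩ : ∃ μ : F, y₁ = μ • y₂ :=
    ⟨(P.B y₁ (j x))⁻¹ * P.B y₂ (j x), by rw [mul_smul, ← h3, smul_smul, inv_mul_cancel₀ h4, one_smul]⟩
  rw [e₁] at h₁
  rw [e₂] at h₂
  generalize P.B y₁ (j u) = a₁ at h₁
  rw [hy] at h₁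
  have h5 := congrArg (P.B (j u)) h₁
  have h6 := congrArg (P.B (j u)) h₂
  have h7 := congrArg (P.B (j f)) h₁
  have h8 := congrArg (P.B (j f)) h₂
  simp only [P.B_add_right, P.B_smul_right, h.hj, hu, hue, hfe, P₀.B_eq_zero_comm.1 huf, map_zero,
    map_one, zero_add] at h5 h6 h7 h8
  refine mul_ne_zero (mul_ne_zero hc₁0 hc₁0) (hne u hu0 hu) ?_
  have h9 : P.B (j u) y₂ ≠ 0 := fun h0 => by
    rw [h0, mul_zero] at h6; exact mul_ne_zero hc₂0 (hne u hu0 hu) h6.symm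
  have h10 : c₂ * a₁ * μ = c₁ * P.B y₂ (j e) :=
    mul_right_cancel₀ h9 (by linear_combination c₂ * h5 - c₁ * h6)
  have h11 : c₁ = 0 := by linear_combination c₁ * h8 - c₂ * h7 + P.B (j f) y₂ * h10
  rw [h11]; simp

theorem allFull_unitary4 [Finite F] [FiniteDimensional F V] (hd : Iso2 P₀) (hS : M ≤ SLV F V)
    (hp : (finrank K F).Prime) (hodd : Odd (finrank K F)) {δ : K} (hδ0 : δ ≠ 0)
    (hδ : δ + σ₀ δ = 0) {g : V ≃ₗ[F] V} (hg : g ∈ M)
    (hgH : ¬ ∃ c : F, c ≠ 0 ∧ ∀ v, ∃ w, g (j v) = c • j w) : AllFull P M := by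
  by_cases hT : NoIrr P P₀ j M
  swap
  · exact h.allFull_of_not_noIrr4 hd hp hT
  obtain ⟨x, hx0, hx, -⟩ := h.exists_iso_orth4 hd ![] (by omega)
  have hz0 : g (j x) ≠ 0 := by simpa using h.ne_zero hx0
  have hzz : P.B (g (j x)) (g (j x)) = 0 := by rw [(h.hM hg).B_eq, h.orth hx]
  have hz := (h.tv hx hδ).conj hg (h.hM hg)
  obtain ⟨c, w, hw⟩ : ∃ (c : F) (w : V₀), g (j x) = c • j w := by
    by_cases h2 : (2 : F) = 0
    · refine h.point_two4 hd hS hodd hT h2 hz0 hzz ?_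
      simpa using (h.tv hx (d := 1) ((algebraMap K F).injective (by
        rw [map_one, map_add, map_one, map_zero, one_add_one_eq_two, h2]))).conj hg (h.hM hg)
    · exact h.point_odd4 hd hodd hT h2 hδ0 hδ hz0 hzz hz
  have hc0 : c ≠ 0 := by rintro rfl; simp [hw] at hz0
  refine absurd ⟨c, hc0, h.rat_of_point4 hd hT hg ?_ hx0 hx ⟨w, hw⟩⟩ hgH
  rw [hw, P.B_smul_left, P.B_smul_right] at hzz
  rw [hw, tv_smul] at hz
  have := Subfield.div_mem _ (hT w (by rintro rfl; simp [hw] at hz0)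
    (h.orth_iff.1 (by simpa [hc0] using hzz)) _ hz) ⟨δ, rfl⟩
  rwa [mul_div_cancel_right₀ _ (by simpa using hδ0)] at this

end URat

theorem su4_subfield [Fintype F] {q : ℕ} (hF : Fintype.card F = q ^ 2)
    (F₀ : Subfield F) (r : ℕ) (hr : r.Prime)
    (hro : Odd r) (hcard : Fintype.card F = Nat.card F₀ ^ r) (Q : GL (Fin 4) F)
    (hQ : Cfsg.Geo.IsFormRationalStructure (Cfsg.hermForm 4 F q) F₀ 1 Q) :
    Cfsg.Geo.IsMaximalIn (Cfsg.GU 4 F q ⊓ Cfsg.Geo.specialLinear (Fin 4) F)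
      (Cfsg.Geo.subfieldSubgroup F₀ Q ⊓ (Cfsg.GU 4 F q ⊓ Cfsg.Geo.specialLinear (Fin 4) F)) := by
  have hr' := finrank_eq_of_card_eq_pow F₀ hcard
  have hσ : conj₀ hF F₀ ≠ RingHom.id F₀ := by
    intro h
    let τ : F ≃ₐ[F₀] F := AlgEquiv.ofBijective
      { conj hF with commutes' := fun a => congrArg Subtype.val (RingHom.congr_fun h a) }
      (Function.Involutive.bijective (conj_conj hF))
    have h1 : orderOf τ = 2 := orderOf_eq_prime (AlgEquiv.ext fun a => conj_conj hF a)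
      fun h0 => conj_ne_id hF (RingHom.ext fun a => AlgEquiv.congr_fun h0 a)
    have h2 := orderOf_dvd_natCard τ
    rw [h1, IsGalois.card_aut_eq_finrank, hr'] at h2
    exact (Nat.not_even_iff_odd.2 hro) (even_iff_two_dvd.2 h2)
  have hσ2 : ∀ a, conj₀ hF F₀ (conj₀ hF F₀ a) = a := fun a => Subtype.ext (conj_conj hF a)
  obtain ⟨θ, hθ⟩ := exists_add_conj_eq_one hσ hσ2
  obtain ⟨t, ht⟩ : ∃ t, conj₀ hF F₀ t ≠ t := by
    by_contra h; push Not at h; exact hσ (RingHom.ext h)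
  have hβ : ∀ β : F, (∀ l ∈ F₀, l * β - conj hF (l * β) ∈ F₀) → β ∈ F₀ := by
    intro β h
    have h1 : (t : F) - conj₀ hF F₀ t ≠ 0 := sub_ne_zero.2 fun h => ht (Subtype.ext h.symm)
    convert F₀.div_mem (F₀.sub_mem (h t t.2) (F₀.mul_mem (conj₀ hF F₀ t).2 (h 1 F₀.one_mem)))
      (F₀.sub_mem t.2 (conj₀ hF F₀ t).2) using 1
    rw [eq_div_iff h1, map_mul, one_mul, conj₀_coe]
    ring
  have hd : Iso2 (ofHermθ (fun a => Subtype.ext (conj_conj hF a)) θ hθ (ratSesq hF F₀ Q 1 hQ)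
      (ratSesq_isSymm hF F₀ Q hQ)) := ⟨by simp, fun Z hZ => by
    obtain ⟨x, hx, h0, hs⟩ := herm_exists_sing
      (ofHerm_isHerm_of_finite hσ hσ2 _ (ratSesq_isSymm hF F₀ Q hQ)) (Z := Z) hZ
    exact ⟨x, hx, h0, hs.self_eq⟩⟩
  refine isMaximalIn_su hF (by omega) _
    (fun g => ∃ c : F, c ≠ 0 ∧ ∀ v, ∃ w, g (ratEmb F₀ Q v) = c • ratEmb F₀ Q w)
    (fun g _ => mem_subfieldSubgroup F₀ Q g)
    ((uRat_su hF F₀ Q hQ θ hθ hβ _ le_rfl fun g hg _ => hg).exists_irr4 hd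
      (fieldRange_ne_top F₀ (hr' ▸ hr.one_lt.ne')))
    fun M hM hH g hg hgH x hx => tf_of_allFull (uPQ_isHerm hF 4)
      ((uRat_su hF F₀ Q hQ θ hθ hβ M hM hH).allFull_unitary4 hd (hM.trans inf_le_right) (hr' ▸ hr)
        (hr' ▸ hro) (δ := t - conj₀ hF F₀ t) (sub_ne_zero.2 ht.symm)
        (by rw [map_sub, hσ2]; ring) hg hgH) hx

end CfsgLib.SUMax
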